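import Cfsg.Agent.H99.Aschbacher.UnitaryLists

/-!
A unitary frame for a subfield structure of index two in dimension three, when two is no square in the subfield
(here for q = 3 and q = 5).
-/

set_option autoImplicit false

open scoped MatrixGroups Matrix

namespace Cfsg.Agent.H3.UMax

open Cfsg.Geo H99.Asch

variable {F : Type*} [Field F] [Fintype F] {q : ℕ}

omit [Fintype F] in
/-- A pair of orthogonal vectors of one norm turns into a pair of twice that norm. -/
lemma sum_diff_pair {L V : Type*} [Field L] [AddCommGroup V] [Module L V] (B : LinearMap.BilinForm L V)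
    {x y : V} {w : L} (hx : B x x = w) (hy : B y y = w) (hxy : B x y = 0) (hyx : B y x = 0) :
    B (x + y) (x + y) = 2 * w ∧ B (x - y) (x - y) = 2 * w ∧ B (x + y) (x - y) = 0 ∧ B (x - y) (x + y) = 0 := by
  simp [map_add, map_sub, hx, hy, hxy, hyx]
  ring

omit [Fintype F] in
/-- When every non-zero element is a square or twice a square, a non-degenerate symmetric form in dimension three
has an orthogonal basis of one norm. -/
lemma exists_equal_norms {L : Type*} [Field L] (h2 : (2 : L) ≠ 0)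
    (hcls : ∀ a b : L, a ≠ 0 → b ≠ 0 → ∃ s : L, s * s * b = a ∨ s * s * b = 2 * a)
    (B : LinearMap.BilinForm L (Fin 3 → L)) (hsym : ∀ x y, B x y = B y x) {v : Fin 3 → Fin 3 → L}
    (hv : ∀ i j, i ≠ j → B (v i) (v j) = 0) (hn : ∀ i, B (v i) (v i) ≠ 0) :
    ∃ (y : Fin 3 → Fin 3 → L) (w : L), w ≠ 0 ∧ ∀ i j, B (y i) (y j) = if i = j then w else 0 := by
  have mk : ∀ (a b c : Fin 3 → L) (w : L), w ≠ 0 → B a a = w → B b b = w → B c c = w → B a b = 0 → B a c = 0 →
      B b c = 0 → ∃ (y : Fin 3 → Fin 3 → L) (w : L), w ≠ 0 ∧ ∀ i j, B (y i) (y j) = if i = j then w else 0 := by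
    intro a b c w hw ha hb hc hab hac hbc
    refine ⟨![a, b, c], w, hw, fun i j => ?_⟩
    fin_cases i <;> fin_cases j <;> simp [ha, hb, hc, hab, hac, hbc, hsym b a, hsym c a, hsym c b]
  have h01 := hv 0 1 (by decide)
  have h02 := hv 0 2 (by decide)
  have h12 := hv 1 2 (by decide)
  have h10 := hv 1 0 (by decide)
  have h20 := hv 2 0 (by decide)
  have h21 := hv 2 1 (by decide)
  obtain ⟨w₀, hw₀⟩ : ∃ w, B (v 0) (v 0) = w := ⟨_, rfl⟩
  have hw0 : w₀ ≠ 0 := hw₀ ▸ hn 0
  have h2w : 2 * w₀ ≠ 0 := mul_ne_zero h2 hw0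
  obtain ⟨s, hs⟩ := hcls w₀ (B (v 1) (v 1)) hw0 (hn 1)
  obtain ⟨t, ht⟩ := hcls w₀ (B (v 2) (v 2)) hw0 (hn 2)
  have ns : B (s • v 1) (s • v 1) = s * s * B (v 1) (v 1) := by simp; ring
  have nt : B (t • v 2) (t • v 2) = t * t * B (v 2) (v 2) := by simp; ring
  rcases hs with hs | hs <;> rcases ht with ht | ht
  · exact mk (v 0) (s • v 1) (t • v 2) w₀ hw0 hw₀ (ns.trans hs) (nt.trans ht) (by simp [h01]) (by simp [h02])
      (by simp [h12])
  · obtain ⟨e1, e2, e3, -⟩ := sum_diff_pair B hw₀ (ns.trans hs) (by simp [h01]) (by simp [h10])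
    exact mk _ _ (t • v 2) (2 * w₀) h2w e1 e2 (nt.trans ht) e3 (by simp [h02, h12]) (by simp [h02, h12])
  · obtain ⟨e1, e2, e3, -⟩ := sum_diff_pair B hw₀ (nt.trans ht) (by simp [h02]) (by simp [h20])
    exact mk _ _ (s • v 1) (2 * w₀) h2w e1 e2 (ns.trans hs) e3 (by simp [h01, h21]) (by simp [h01, h21])
  · obtain ⟨e1, e2, e3, -⟩ := sum_diff_pair B (ns.trans hs) (nt.trans ht) (by simp [h12]) (by simp [h21])
    refine mk _ _ ((2 : L) • v 0) (2 * (2 * w₀)) (mul_ne_zero h2 h2w) e1 e2 ?_ e3 (by simp [h10, h20])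
      (by simp [h10, h20])
    simp [hw₀]

lemma classes_three : ∀ a b : ZMod 3, a ≠ 0 → b ≠ 0 → ∃ s : ZMod 3, s * s * b = a ∨ s * s * b = 2 * a := by decide

lemma classes_five : ∀ a b : ZMod 5, a ≠ 0 → b ≠ 0 → ∃ s : ZMod 5, s * s * b = a ∨ s * s * b = 2 * a := by decide

/-- A frame in which a subfield group of index two is made of scalar multiples of rational matrices. -/
theorem exists_rational_frame (hF : Fintype.card F = q ^ 2) (hq : q = 3 ∨ q = 5) {F₀ : Subfield F}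
    {P₀ : GL (Fin 3) F} (hc : Fintype.card F = Nat.card F₀ ^ 2)
    (hf : IsFormRationalStructure (hermForm 3 F q) F₀ 1 P₀) :
    Nat.card F₀ = q ∧ ∃ P : GL (Fin 3) F, P ∈ GU 3 F q ∧ ∀ g ∈ subfieldSubgroup F₀ P₀,
      ∃ (l : F) (A : Matrix (Fin 3) (Fin 3) F), (∀ i j, A i j ∈ F₀) ∧
        ((P⁻¹ * g * P : GL (Fin 3) F) : Matrix (Fin 3) (Fin 3) F) = l • A := by
  classical
  have hcard : Nat.card F₀ = q := Nat.pow_left_injective two_ne_zero (hc.symm.trans hF)
  refine ⟨hcard, ?_⟩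
  have hpow : ∀ x : F₀, (x : F) ^ q = x := fun x => by rw [← hcard]; exact (mem_subfield_iff F₀ _).1 x.2
  let e : (Fin 3 → F₀) → (Fin 3 → F) := fun u => (P₀ : Matrix (Fin 3) (Fin 3) F) *ᵥ fun i => (u i : F)
  let g₁ : (Fin 3 → F₀) → (Fin 3 → F₀) → F₀ := fun u v => ⟨hermForm 3 F q (e u) (e v), by
    simpa using hf _ _ (fun i => (u i).2) (fun i => (v i).2)⟩
  have hg₁ : ∀ u v, (g₁ u v : F) = hermForm 3 F q (e u) (e v) := fun _ _ => rfl
  have eadd : ∀ u u', e (u + u') = e u + e u' := fun u u' => by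
    simp only [e, ← Matrix.mulVec_add]; congr 1
  have esmul : ∀ (c : F₀) u, e (c • u) = (c : F) • e u := fun c u => by
    simp only [e, ← Matrix.mulVec_smul]; congr 1
  let B : LinearMap.BilinForm F₀ (Fin 3 → F₀) := LinearMap.mk₂ F₀ g₁
    (fun u u' v => Subtype.ext (by rw [Subfield.coe_add, hg₁, hg₁, hg₁, eadd, H3.hermForm_add_left hF]))
    (fun c u v => Subtype.ext (by rw [smul_eq_mul, Subfield.coe_mul, hg₁, hg₁, esmul, H3.hermForm_smul_left hF]))
    (fun u v v' => Subtype.ext (by rw [Subfield.coe_add, hg₁, hg₁, hg₁, eadd, H3.hermForm_add_right hF]))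
    (fun c u v => Subtype.ext (by rw [smul_eq_mul, Subfield.coe_mul, hg₁, hg₁, esmul, H3.hermForm_smul_right hF, hpow]))
  have hB : ∀ u v, (B u v : F) = hermForm 3 F q (e u) (e v) := fun _ _ => rfl
  have hherm : ∀ x y, hermForm 3 F q y x = hermForm 3 F q x y ^ q := fun x y =>
    (H3.hermForm_pow_q hF x y).symm
  have hsym : ∀ u v, B u v = B v u := fun u v => Subtype.ext (by rw [hB, hB, hherm (e v) (e u), ← hB, hpow])
  have h2 : (2 : F₀) ≠ 0 := by
    intro h
    have h2F : (2 : F) = 0 := by rw [← map_ofNat F₀.subtype 2, h, map_zero]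
    exact two_ne_zero_of_odd hF (by rcases hq with rfl | rfl <;> decide) h2F
  have := invertibleOfNonzero h2
  obtain ⟨v, hv⟩ := LinearMap.BilinForm.exists_orthogonal_basis (B := B) ⟨fun x y => hsym x y⟩
  have hv' : ∀ i j, i ≠ j → B (v i) (v j) = 0 := fun i j hij => hv hij
  have hdim : Module.finrank F₀ (Fin 3 → F₀) = 3 := Module.finrank_fin_fun F₀
  let b : Fin 3 → Fin 3 → F₀ := fun i => v (Fin.cast hdim.symm i)
  have hb : ∀ i j, i ≠ j → B (b i) (b j) = 0 := fun i j hij =>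
    hv' _ _ fun h => hij (Fin.cast_injective _ h)
  have hspan : ∀ u, ∃ c : Fin 3 → F₀, u = ∑ i, c i • b i := fun u =>
    ⟨fun i => v.repr u (Fin.cast hdim.symm i), by
      conv_lhs => rw [← v.sum_repr u]
      exact (Equiv.sum_comp (finCongr hdim.symm) fun j => v.repr u j • v j).symm⟩
  have hn : ∀ i, B (b i) (b i) ≠ 0 := by
    intro i h0
    have hker : ∀ u, B u (b i) = 0 := fun u => by
      obtain ⟨c, rfl⟩ := hspan u
      rw [map_sum, LinearMap.sum_apply]
      refine Finset.sum_eq_zero fun j _ => ?_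
      rw [map_smul, LinearMap.smul_apply]
      by_cases hji : j = i
      · rw [hji, h0, smul_zero]
      · rw [hb j i hji, smul_zero]
    have hall : ∀ x, hermForm 3 F q x (e (b i)) = 0 := by
      intro x
      obtain ⟨y, rfl⟩ : ∃ y, (P₀ : Matrix (Fin 3) (Fin 3) F) *ᵥ y = x :=
        ⟨((P₀⁻¹ : GL (Fin 3) F) : Matrix (Fin 3) (Fin 3) F) *ᵥ x, by
          rw [Matrix.mulVec_mulVec, Units.mul_inv, Matrix.one_mulVec]⟩
      have h1 : ∀ k, hermForm 3 F q ((P₀ : Matrix (Fin 3) (Fin 3) F) *ᵥ Pi.single k 1) (e (b i)) = 0 := fun k => by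
        have h := congrArg Subtype.val (hker (Pi.single k 1))
        rw [hB] at h
        convert h using 2
        · show _ = (P₀ : Matrix (Fin 3) (Fin 3) F) *ᵥ fun j => ((Pi.single k (1 : F₀) : Fin 3 → F₀) j : F)
          congr 1
          funext j
          by_cases hjk : j = k <;> simp [hjk]
        · exact ZeroMemClass.coe_zero F₀ |>.symm
      rw [pi_eq_sum_univ' y, Matrix.mulVec_sum, ← H3.hermB_apply hF, map_sum]
      refine Finset.sum_eq_zero fun k _ => ?_
      rw [Matrix.mulVec_smul, map_smul, H3.hermB_apply, h1, smul_zero]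
    have he0 : e (b i) = 0 := (H3.isHerm_hermB hF 3).sep _ fun x => by
      rw [H3.hermB_apply]
      exact hall x
    have hb0 : b i = 0 := by
      funext j
      have h := congrFun (Matrix.mulVec_injective_of_isUnit (Units.isUnit P₀)
        (he0.trans (Matrix.mulVec_zero _).symm)) j
      exact Subtype.ext h
    exact v.ne_zero _ hb0
  have hcls : ∀ x y : F₀, x ≠ 0 → y ≠ 0 → ∃ s : F₀, s * s * y = x ∨ s * s * y = 2 * x := by
    rcases hq with rfl | rfl
    all_goals intro x y hx hy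
    · have : Fact (Nat.Prime 3) := ⟨Nat.prime_three⟩
      let φ := ZMod.ringEquivOfPrime F₀ Nat.prime_three (by rw [← Nat.card_eq_fintype_card]; exact hcard)
      have key := classes_three
      obtain ⟨s, hs⟩ := key (φ.symm x) (φ.symm y) (by simpa using hx) (by simpa using hy)
      refine ⟨φ s, ?_⟩
      rcases hs with h | h
      · exact Or.inl (by simpa [map_ofNat] using congrArg φ h)
      · exact Or.inr (by simpa [map_ofNat] using congrArg φ h)
    · have : Fact (Nat.Prime 5) := ⟨Nat.prime_five⟩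
      let φ := ZMod.ringEquivOfPrime F₀ Nat.prime_five (by rw [← Nat.card_eq_fintype_card]; exact hcard)
      have key := classes_five
      obtain ⟨s, hs⟩ := key (φ.symm x) (φ.symm y) (by simpa using hx) (by simpa using hy)
      refine ⟨φ s, ?_⟩
      rcases hs with h | h
      · exact Or.inl (by simpa [map_ofNat] using congrArg φ h)
      · exact Or.inr (by simpa [map_ofNat] using congrArg φ h)
  obtain ⟨y, w, hw, hy⟩ := exists_equal_norms h2 hcls B hsym hb hn
  have hw' : (w : F) ≠ 0 := fun h => hw (Subtype.ext h)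
  obtain ⟨l, hl⟩ := H3.exists_norm_eq hF (μ := ((w : F))⁻¹) (by rw [inv_pow, hpow])
  have horth : H3.Orth (H3.hermB hF 3) (fun i => l • e (y i)) := by
    intro i j
    rw [H3.hermB_apply, H3.hermForm_smul_left hF, H3.hermForm_smul_right hF, ← mul_assoc, ← pow_succ', hl, ← hB, hy]
    by_cases hij : j = i
    · subst hij
      rw [if_pos rfl, if_pos rfl, inv_mul_cancel₀ hw']
    · rw [if_neg hij, if_neg (Ne.symm hij), ZeroMemClass.coe_zero, mul_zero]
  obtain ⟨g₀, hg₀⟩ := H3.exists_GU_of_orth hF _ horth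
  refine ⟨g₀.1, g₀.2, fun g hg => ?_⟩
  obtain ⟨g', hg', rfl⟩ := hg
  have := scalars_normal (ι := Fin 3) (F := F)
  obtain ⟨a, ⟨A, rfl⟩, z, hz, rfl⟩ := Subgroup.mem_sup_of_normal_right.1 hg'
  obtain ⟨c, hzc⟩ := (mem_scalars_iff z).1 hz
  let A₀ : Matrix (Fin 3) (Fin 3) F₀ := A
  refine ⟨(c : F), Matrix.of fun r j => ((w⁻¹ * B (A₀ *ᵥ y j) (y r) : F₀) : F), fun r j => (w⁻¹ * B (A₀ *ᵥ y j) (y r)).2, ?_⟩
  ext r j
  let P : GL (Fin 3) F := g₀.1
  let G : GL (Fin 3) F :=
    (MulAut.conj P₀).toMonoidHom (Matrix.GeneralLinearGroup.map (F₀.subtype : F₀ →+* F) A * z)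
  show ((P⁻¹ * G * P : GL (Fin 3) F) : Matrix (Fin 3) (Fin 3) F) r j = _
  have hent : ((P⁻¹ * G * P : GL (Fin 3) F) : Matrix (Fin 3) (Fin 3) F) r j =
      hermForm 3 F q ((G : Matrix (Fin 3) (Fin 3) F) *ᵥ ((P : Matrix (Fin 3) (Fin 3) F) *ᵥ Pi.single j 1))
        ((P : Matrix (Fin 3) (Fin 3) F) *ᵥ Pi.single r 1) := by
    have hu := (GU 3 F q).inv_mem g₀.2
    rw [← hu _ _]
    show _ = hermForm 3 F q (((P⁻¹ : GL (Fin 3) F) : Matrix (Fin 3) (Fin 3) F) *ᵥ _)
      (((P⁻¹ : GL (Fin 3) F) : Matrix (Fin 3) (Fin 3) F) *ᵥ _)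
    simp only [Matrix.mulVec_mulVec, Units.inv_mul]
    rw [← mul_assoc, ← Units.val_mul, ← Units.val_mul, Matrix.one_mulVec, Matrix.mulVec_single_one, hherm,
      H3.hermForm_single_left, Matrix.col_apply, ← H3.conjQ_apply hF, ← H3.conjQ_apply hF, one_mul, H3.conjQ_conjQ hF]
  rw [hent, hg₀, hg₀, Matrix.mulVec_smul, H3.hermForm_smul_left hF, H3.hermForm_smul_right hF, ← mul_assoc,
    ← pow_succ', hl]
  have hG : (G : Matrix (Fin 3) (Fin 3) F) *ᵥ e (y j) = (c : F) • e (A₀ *ᵥ y j) := by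
    show ((P₀ * (Matrix.GeneralLinearGroup.map (F₀.subtype : F₀ →+* F) A * z) * P₀⁻¹ : GL (Fin 3) F) :
      Matrix (Fin 3) (Fin 3) F) *ᵥ e (y j) = _
    simp only [e, Matrix.mulVec_mulVec, Units.val_mul, hzc]
    rw [mul_assoc, Units.inv_mul, mul_one, mul_smul_comm, mul_one, mul_smul_comm, Matrix.smul_mulVec,
      ← Matrix.mulVec_mulVec]
    congr 2
  rw [hG, H3.hermForm_smul_left hF, ← hB, Matrix.smul_apply, Matrix.of_apply, smul_eq_mul]
  push_cast
  ring

end Cfsg.Agent.H3.UMax
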