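import Cfsg.Agent.H99.Aschbacher.UnitaryLists

/-!
The stabiliser in SU of a set of vectors, and maximality transported by a unitary change of frame.
-/

set_option autoImplicit false

open scoped MatrixGroups Matrix

namespace Cfsg.Agent.H3.UMax

open Cfsg.Geo H99.Asch

variable {F : Type*} [Field F] [Fintype F] {q n : ℕ}

/-- The stabiliser in SU of a set of vectors. -/
def stabX (q : ℕ) (X : (Fin n → F) → Prop) : Subgroup (GL (Fin n) F) where
  carrier := {g | g ∈ suGL n F q ∧ ∀ u, X ((g : Matrix (Fin n) (Fin n) F) *ᵥ u) ↔ X u}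
  one_mem' := ⟨one_mem _, fun u => by simp⟩
  mul_mem' := fun {g h} hg hh => ⟨mul_mem hg.1 hh.1, fun u => by
    rw [Units.val_mul, ← Matrix.mulVec_mulVec, hg.2, hh.2]⟩
  inv_mem' := fun {g} hg => ⟨inv_mem hg.1, fun u => by
    rw [← hg.2, Matrix.mulVec_mulVec, ← Units.val_mul, mul_inv_cancel, Units.val_one, Matrix.one_mulVec]⟩

lemma mem_stabX {X : (Fin n → F) → Prop} {g : GL (Fin n) F} :
    g ∈ stabX q X ↔ g ∈ suGL n F q ∧ ∀ u, X ((g : Matrix (Fin n) (Fin n) F) *ᵥ u) ↔ X u := Iff.rfl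

/-- In a finite space it is enough to map the set into itself. -/
lemma mem_stabX_of_mapsTo {X : (Fin n → F) → Prop} {g : GL (Fin n) F} (hg : g ∈ suGL n F q)
    (h : ∀ u, X u → X ((g : Matrix (Fin n) (Fin n) F) *ᵥ u)) : g ∈ stabX q X := by
  refine ⟨hg, fun u => ⟨fun hu => ?_, h u⟩⟩
  let f : {w // X w} → {w // X w} := fun w => ⟨_, h w.1 w.2⟩
  have hinj : Function.Injective f := fun a b e =>
    Subtype.ext (Matrix.mulVec_injective_of_isUnit (Units.isUnit g) (congrArg Subtype.val e))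
  obtain ⟨⟨w, hw⟩, hwe⟩ := (Finite.injective_iff_surjective.1 hinj) ⟨_, hu⟩
  exact (Matrix.mulVec_injective_of_isUnit (Units.isUnit g) (congrArg Subtype.val hwe)) ▸ hw

/-- A unitary change of frame preserves maximality in SU. -/
theorem conj_maximal (hF : Fintype.card F = q ^ 2) {H : Subgroup (GL (Fin n) F)} (hH : IsMaximalIn (suGL n F q) H)
    {P : GL (Fin n) F} (hP : P ∈ GU n F q) : IsMaximalIn (suGL n F q) (H.map (MulAut.conj P⁻¹).toMonoidHom) := by
  have hsu : ∀ Q ∈ GU n F q, ∀ g ∈ suGL n F q, Q * g * Q⁻¹ ∈ suGL n F q := fun Q hQ g hg => by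
    refine ⟨(GU n F q).mul_mem ((GU n F q).mul_mem hQ hg.1) ((GU n F q).inv_mem hQ), mem_specialLinear_iff.2 ?_⟩
    rw [Units.val_mul, Units.val_mul, Matrix.det_units_conj]
    exact mem_specialLinear_iff.1 hg.2
  have hmap : ∀ Q ∈ GU n F q, (suGL n F q).map (MulAut.conj Q).toMonoidHom = suGL n F q := fun Q hQ => by
    refine le_antisymm ?_ fun g hg => ?_
    · rintro _ ⟨g, hg, rfl⟩; exact hsu Q hQ g hg
    · refine ⟨Q⁻¹ * g * (Q⁻¹)⁻¹, hsu _ ((GU n F q).inv_mem hQ) g hg, ?_⟩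
      show Q * (Q⁻¹ * g * (Q⁻¹)⁻¹) * Q⁻¹ = g
      group
  have hPi := (GU n F q).inv_mem hP
  refine ⟨?_, fun M h1 h2 => ?_⟩
  · conv_rhs => rw [← hmap _ hPi]
    exact (Subgroup.map_lt_map_iff_of_injective (MulAut.conj P⁻¹).injective).2 hH.1
  · have hback : ∀ S : Subgroup (GL (Fin n) F),
        (S.map (MulAut.conj P).toMonoidHom).map (MulAut.conj P⁻¹).toMonoidHom = S := fun S => by
      ext g
      simp [Subgroup.mem_map, mul_assoc]
    have hfwd : (H.map (MulAut.conj P⁻¹).toMonoidHom).map (MulAut.conj P).toMonoidHom = H := by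
      ext g
      simp [Subgroup.mem_map, mul_assoc]
    rcases hH.2 (M.map (MulAut.conj P).toMonoidHom) (hfwd ▸ Subgroup.map_mono h1)
      (hmap P hP ▸ Subgroup.map_mono h2) with e | e
    · left; rw [← hback M, e]
    · right; rw [← hback M, e, hmap _ hPi]

/-- A maximal subgroup does not lie in a proper set stabiliser which has a further element. -/
theorem false_of_le_stabX (hF : Fintype.card F = q ^ 2) (hn : 3 ≤ n) {H : Subgroup (GL (Fin n) F)}
    (hH : IsMaximalIn (suGL n F q) H) {X : (Fin n → F) → Prop} (hle : H ≤ stabX q X) {t : GL (Fin n) F}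
    (ht : t ∈ stabX q X) (htH : t ∉ H) {u v : Fin n → F} (hu0 : u ≠ 0) (hv0 : v ≠ 0)
    (huv : hermForm n F q u u = hermForm n F q v v) (hu : X u) (hv : ¬ X v) : False := by
  rcases hH.2 (stabX q X) hle (fun g hg => hg.1) with e | e
  · exact htH (e ▸ ht)
  · obtain ⟨g, hg, hguv⟩ := exists_su_mulVec hF hn hu0 hv0 huv
    have hgM : g ∈ stabX q X := e.symm ▸ hg
    have h := (hgM.2 u).2 hu
    rw [hguv] at h
    exact hv h

end Cfsg.Agent.H3.UMax
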