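import Cfsg.Agent.H3.UMax.Quintic
import Cfsg.Agent.H97.SingerNormalizer
import Cfsg.Agent.H99.Aschbacher.UnitaryLists

/-!
For q = 2 the normaliser in SU of dimension five of an adjoint-closed field of degree five is not maximal.
-/

set_option autoImplicit false

open scoped MatrixGroups Matrix

namespace Cfsg.Agent.H3.UMax

open Cfsg.Geo H99.Asch Fin.NatCast

section Basis

variable {F K : Type*} [Field F] [Field K] [Algebra F K] {β : K}

/-- The root is outside the ground field. -/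
lemma IsQuintic.not_four (hβ : IsQuintic β) : β ^ 4 ≠ β := by
  obtain ⟨h2, hp, h32⟩ := hβ
  intro e
  have h16 : β ^ 16 = β := by
    have : β ^ 16 = (β ^ 4) ^ 4 := by ring
    rw [this, e, e]
  have hs : β ^ 2 = β := by
    have : β ^ 32 = (β ^ 16) ^ 2 := by ring
    rw [this, h16] at h32; exact h32
  rcases mul_eq_zero.1 (show β * (β - 1) = 0 by linear_combination hs) with h | h
  · rw [h] at hp; simp at hp
  · rw [sub_eq_zero.1 h] at hp
    exact one_ne_zero (show (1 : K) = 0 by linear_combination hp - 2 * h2)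

/-- The conjugates form a basis. -/
theorem ofCoord_bijective [Fintype F] (h4 : Fintype.card F = 2 ^ 2) [FiniteDimensional F K]
    (h5 : Module.finrank F K = 5) (hβ : IsQuintic β) : Function.Bijective (ofCoord (F := F) β) := by
  let A : Subalgebra F K := (LinearMap.range (ofCoord (F := F) β)).toSubalgebra
    ⟨fun _ => 1, by rw [ofCoord_apply]; simp [sum_nb hβ]⟩
    (by rintro _ _ ⟨c, rfl⟩ ⟨d, rfl⟩; exact ⟨_, (ofCoord_mul hβ c d).symm⟩)
  have hA : β ∈ A := ⟨Pi.single 0 1, by rw [ofCoord_single]; simp [nb]⟩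
  have := Subalgebra.isSimpleOrder_of_finrank_prime F K (by rw [h5]; norm_num)
  have htop : A = ⊤ := (eq_bot_or_eq_top A).resolve_left fun e => by
    obtain ⟨w, hw⟩ : β ∈ (⊥ : Subalgebra F K) := e ▸ hA
    refine hβ.not_four ?_
    rw [← hw, ← map_pow]
    have h := FiniteField.pow_card w
    rw [h4] at h
    exact congrArg _ h
  have hs : Function.Surjective (ofCoord (F := F) β) := fun x => (htop ▸ Algebra.mem_top : x ∈ A)
  exact ⟨(LinearMap.injective_iff_surjective_of_finrank_eq_finrank (by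
    rw [Module.finrank_fin_fun, h5])).2 hs, hs⟩

/-- The field of 1024 elements contains a root. -/
theorem exists_quintic [Fintype K] (hK : Fintype.card K = 1024) : ∃ β : K, IsQuintic β := by
  classical
  have h2 : (2 : K) = 0 := by
    have h : (Fintype.card K : K) = 0 := FiniteField.cast_card_eq_zero K
    rw [hK] at h
    push_cast at h
    exact (pow_eq_zero_iff (n := 10) (by norm_num)).1 (by linear_combination h)
  obtain ⟨g, hg⟩ := IsCyclic.exists_ofOrder_eq_natCard (α := Kˣ)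
  rw [Nat.card_units, Nat.card_eq_fintype_card, hK] at hg
  let z : K := ((g ^ 33 : Kˣ) : K)
  have hzo : orderOf z = 31 := by
    show orderOf ((g ^ 33 : Kˣ) : K) = 31
    rw [orderOf_units, orderOf_pow, hg]
    norm_num
  let h : Polynomial K := Polynomial.X ^ 27 + Polynomial.X ^ 26 + Polynomial.X ^ 25 + Polynomial.X ^ 22 +
    Polynomial.X ^ 21 + Polynomial.X ^ 19 + Polynomial.X ^ 18 + Polynomial.X ^ 17 + Polynomial.X ^ 16 +
    Polynomial.X ^ 15 + Polynomial.X ^ 13 + Polynomial.X ^ 9 + Polynomial.X ^ 6 + Polynomial.X ^ 4 +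
    Polynomial.X ^ 2 + Polynomial.X
  have hdeg : h.natDegree ≤ 27 := by simp only [h]; compute_degree!
  have hne : h ≠ 0 := fun e => by
    have := congrArg (fun p => Polynomial.coeff p 27) e
    simp [h, Polynomial.coeff_X_pow, Polynomial.coeff_X] at this
  obtain ⟨y, hy, hyh⟩ := Finset.exists_mem_notMem_of_card_lt_card (s := h.roots.toFinset)
    (t := (Finset.range 31).image (z ^ ·)) (by
      rw [Finset.card_image_of_injOn (fun a ha b hb e => pow_injOn_Iio_orderOf (by simp_all) (by simp_all) e),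
        Finset.card_range]
      exact lt_of_le_of_lt ((Multiset.toFinset_card_le _).trans ((Polynomial.card_roots' h).trans hdeg)) (by norm_num))
  obtain ⟨i, -, rfl⟩ := Finset.mem_image.1 hy
  rw [Multiset.mem_toFinset, Polynomial.mem_roots hne] at hyh
  simp only [h, Polynomial.IsRoot, Polynomial.eval_add, Polynomial.eval_pow, Polynomial.eval_X] at hyh
  set y := z ^ i
  have h32 : y ^ 32 = y := by
    rw [← pow_mul, mul_comm, pow_mul, show z ^ 32 = z ^ 31 * z from pow_succ z 31,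
      show z ^ 31 = 1 from hzo ▸ pow_orderOf_eq_one z, one_mul]
  refine ⟨y, h2, ?_, h32⟩
  have key : (y ^ 5 + y ^ 4 + y ^ 2 + y + 1) * (y ^ 27 + y ^ 26 + y ^ 25 + y ^ 22 + y ^ 21 + y ^ 19 + y ^ 18 +
      y ^ 17 + y ^ 16 + y ^ 15 + y ^ 13 + y ^ 9 + y ^ 6 + y ^ 4 + y ^ 2 + y) = 0 := by
    linear_combination h32 + (y + y ^ 2 + y ^ 3 + y ^ 4 + y ^ 5 + 2 * y ^ 6 + y ^ 7 + y ^ 8 + y ^ 9 + y ^ 10 +
      y ^ 11 + y ^ 13 + y ^ 14 + y ^ 15 + y ^ 16 + 2 * y ^ 17 + 2 * y ^ 18 + 2 * y ^ 19 + 2 * y ^ 20 + 2 * y ^ 21 +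
      2 * y ^ 22 + 2 * y ^ 23 + y ^ 24 + y ^ 25 + 2 * y ^ 26 + 2 * y ^ 27 + y ^ 28 + y ^ 29 + y ^ 30 + y ^ 31) * h2
  exact (mul_eq_zero.1 key).resolve_right hyh

variable [Fintype F] (h4 : Fintype.card F = 2 ^ 2) (hβ : IsQuintic β)
include h4 hβ

/-- The involution of the field in coordinates. -/
theorem ofCoord_pow32 (c : Fin 5 → F) : ofCoord β c ^ 32 = ofCoord β (fun i => c i * c i) := by
  have hc : CharP K 2 := CharTwo.of_one_ne_zero_of_two_eq_zero one_ne_zero hβ.two
  have hnb : ∀ i, nb β i ^ 32 = nb β i := fun i => by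
    rw [nb, ← pow_mul, mul_comm, pow_mul, hβ.fix]
  have hw : ∀ w : F, w ^ 32 = w * w := fun w => by
    have h := FiniteField.pow_card w
    rw [h4] at h
    norm_num at h
    calc w ^ 32 = ((w ^ 4) ^ 4) ^ 2 := by ring
      _ = w * w := by rw [h, h, sq]
  rw [ofCoord_apply, ofCoord_apply, show (32 : ℕ) = 2 ^ 5 by norm_num, sum_pow_char_pow]
  refine Finset.sum_congr rfl fun i _ => ?_
  rw [show 2 ^ 5 = (32 : ℕ) by norm_num, mul_pow, hnb, ← map_pow, hw]

/-- The norm in coordinates. -/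
theorem ofCoord_norm (c : Fin 5 → F) : ofCoord β c ^ 33 = ofCoord β (normE (· + ·) (· * ·) c) := by
  rw [pow_succ', ofCoord_pow32 h4 hβ, ofCoord_mul hβ]
  rfl

/-- The set in the field. -/
theorem inX_iff [FiniteDimensional F K] (h5 : Module.finrank F K = 5) (c : Fin 5 → F) :
    inX c ↔ ∃ i, ofCoord β c ^ 33 = 1 + nb β i := by
  have ht : ∀ i, ofCoord β (target (0 : F) 1 i) = 1 + nb β i := fun i => by
    have h1 : target (0 : F) 1 i = (fun _ => 1) - Pi.single i 1 := by
      funext k; by_cases hk : k = i <;> simp [target, hk]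
    rw [h1, map_sub, ofCoord_single, sub_eq_add_neg]
    congr 1
    · rw [ofCoord_apply]; simp [sum_nb hβ]
    · linear_combination (-nb β i) * hβ.two
  simp only [inX, ← ht, ofCoord_norm h4 hβ, (ofCoord_bijective h4 h5 hβ).1.eq_iff, funext_iff]

omit h4 in
lemma target_set_sq {x : K} (hx : ∃ i, x = 1 + nb β i) : ∃ i, x ^ 2 = 1 + nb β i := by
  obtain ⟨i, rfl⟩ := hx
  exact ⟨i + 1, by rw [← nb_sq hβ i]; linear_combination (nb β i) * hβ.two⟩

omit h4 in
lemma target_set_pow (m : ℕ) {x : K} (hx : ∃ i, x = 1 + nb β i) : ∃ i, x ^ 2 ^ m = 1 + nb β i := by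
  induction m with
  | zero => simpa using hx
  | succ m ih => rw [pow_succ, pow_mul]; exact target_set_sq hβ ih

omit h4 in
lemma nb_pow (m : ℕ) (i : Fin 5) : nb β i ^ 2 ^ m = nb β (i + (m : Fin 5)) := by
  induction m with
  | zero => simp
  | succ m ih => rw [pow_succ, pow_mul, ih, nb_sq hβ, Nat.cast_succ, add_assoc]

end Basis

variable {F : Type*} [Field F] [Fintype F] {q : ℕ}

set_option maxHeartbeats 1000000 in
/-- The normaliser of a field of degree five is not maximal in SU of dimension five for q = 2. -/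
theorem field_five_not_maximal (hF : Fintype.card F = q ^ 2) (hq : q = 2)
    {K : Subalgebra F (Matrix (Fin 5) (Fin 5) F)} (hK : IsFieldSubalgebra 5 K)
    (hadj : IsAdjointClosedFor (hermForm 5 F q) K) {H : Subgroup (GL (Fin 5) F)}
    (hH : IsMaximalIn (suGL 5 F q) H) (hHK : H = subalgebraNormalizer K ⊓ suGL 5 F q) : False := by
  classical
  subst hq
  let _ : Field K := (H97.isField_fieldSubalgebra (by norm_num) hK).toField
  let _ : Fintype K := Fintype.ofFinite K
  have hK5 : Module.finrank F K = 5 := hK.finrank_eq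
  have hcard : Fintype.card K = 1024 := by
    rw [Module.card_eq_pow_finrank (K := F), hK5, hF]
    norm_num
  have h2F : (2 : F) = 0 := (exists_omega hF).choose_spec.2
  obtain ⟨β, hβ⟩ := exists_quintic (K := K) hcard
  let E := LinearEquiv.ofBijective _ (ofCoord_bijective hF hK5 hβ)
  have hE : ∀ c, E c = ofCoord β c := fun c => rfl
  -- the trace functional
  let L0 : K →ₗ[F] F := (∑ k : Fin 5, LinearMap.proj k) ∘ₗ E.symm.toLinearMap
  have hL0 : ∀ c d, L0 (ofCoord β c * ofCoord β d) = ∑ i, c i * d i := fun c d => by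
    rw [ofCoord_mul hβ, ← hE]
    simp only [L0, LinearMap.comp_apply, LinearEquiv.coe_coe, LinearEquiv.symm_apply_apply, LinearMap.sum_apply,
      LinearMap.proj_apply]
    exact sum_mulE h2F c d
  have hL0j : ∀ c j, L0 (ofCoord β c * nb β j) = c j := fun c j => by
    rw [← ofCoord_single (F := F), hL0]
    simp [Pi.single_apply]
  -- the adjoint map of K
  let D := unitaryData hF 5
  have hadjK : ∀ k ∈ K, D.adj k ∈ K := by
    intro k hk
    obtain ⟨k', hk', hkk⟩ := hadj k hk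
    have e : D.adj k = k' := by
      refine Matrix.ext_of_mulVec_single fun i => ?_
      have hpt : ∀ u, hermForm 5 F 2 u (D.adj k *ᵥ Pi.single i 1) = hermForm 5 F 2 u (k' *ᵥ Pi.single i 1) := by
        intro u
        rw [← hkk, ← unitaryData_form hF, D.form_adj]
      funext j
      have h1 := hpt (Pi.single j 1)
      rw [H3.hermForm_single_left, H3.hermForm_single_left, one_mul, one_mul] at h1
      exact (H3.conjQ hF).injective (by rwa [H3.conjQ_apply, H3.conjQ_apply])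
    rw [e]; exact hk'
  let τ : K →+* K :=
    { toFun := fun x => ⟨D.adj x, hadjK _ x.2⟩
      map_one' := Subtype.ext D.adj_one
      map_mul' := fun x y => Subtype.ext (by
        show D.adj ((x : Matrix (Fin 5) (Fin 5) F) * y) = D.adj x * D.adj y
        rw [hK.comm x x.2 y y.2, D.adj_mul])
      map_zero' := Subtype.ext D.adj_zero
      map_add' := fun x y => Subtype.ext (D.adj_add _ _) }
  have hττ : ∀ x, τ (τ x) = x := fun x => Subtype.ext (D.adj_adj _)
  have hτid : τ ≠ RingHom.id K := fun e => by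
    obtain ⟨c, hc⟩ := H3.exists_conj_ne hF
    have h1 : D.adj (algebraMap F _ c) = algebraMap F _ c :=
      congrArg Subtype.val (RingHom.congr_fun e ⟨_, K.algebraMap_mem c⟩)
    rw [D.adj_algebraMap] at h1
    exact hc ((algebraMap F (Matrix (Fin 5) (Fin 5) F)).injective h1)
  obtain ⟨K', hK', hK'c⟩ := card_eq_sq_fixed τ hττ hτid
  have hK'32 : Nat.card K' = 32 := Nat.pow_left_injective two_ne_zero (by
    show Nat.card K' ^ 2 = 32 ^ 2
    rw [← hK'c, hcard])
  have hmem : ∀ x : K, τ x = x ↔ x ^ 32 = x := fun x => by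
    rw [← hK', mem_subfield_iff, hK'32]
  have : CharP K 2 := CharTwo.of_one_ne_zero_of_two_eq_zero one_ne_zero hβ.two
  have hτpow : ∀ x : K, τ x = x ^ 32 := fun x => by
    have hs := (hmem (x + τ x)).1 (by rw [map_add, hττ, add_comm])
    have hp := (hmem (x * τ x)).1 (by rw [map_mul, hττ, mul_comm])
    rw [show (32 : ℕ) = 2 ^ 5 by norm_num, add_pow_char_pow] at hs
    norm_num only at hs
    rw [mul_pow] at hp
    have key : (x ^ 32 - x) * (x ^ 32 - τ x) = 0 := by linear_combination (x ^ 32) * hs - hp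
    rcases mul_eq_zero.1 key with h | h
    · rw [(hmem x).2 (sub_eq_zero.1 h), sub_eq_zero.1 h]
    · exact (sub_eq_zero.1 h).symm
  -- the form on the line over K
  let ev : K → (Fin 5 → F) → (Fin 5 → F) := fun k v => (k : Matrix (Fin 5) (Fin 5) F) *ᵥ v
  have hev : ∀ (k l : K) v, ev k (ev l v) = ev (k * l) v := fun k l v => by
    simp [ev, Matrix.mulVec_mulVec]
  have hform : ∀ (k l : K) v, hermForm 5 F 2 (ev k v) (ev l v) = hermForm 5 F 2 (ev (k * l ^ 32) v) v := by
    intro k l v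
    rw [mul_comm k, ← hτpow, ← hev]
    show _ = hermForm 5 F 2 ((τ l : Matrix (Fin 5) (Fin 5) F) *ᵥ ev k v) v
    rw [← unitaryData_form hF]
    conv_rhs => rw [D.form_adj]
    show _ = D.form _ (D.adj (D.adj (l : Matrix (Fin 5) (Fin 5) F)) *ᵥ v)
    rw [D.adj_adj]
  let v₀ : Fin 5 → F := Pi.single 0 1
  have hv₀ : v₀ ≠ 0 := fun e => by simpa [v₀] using congrFun e 0
  obtain ⟨Φ, hΦ⟩ := H97.exists_eval_equiv (by norm_num) hK hv₀
  have hΦ' : ∀ k, Φ k = ev k v₀ := hΦ
  let L : K →ₗ[F] F :=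
    { toFun := fun k => hermForm 5 F 2 (ev k v₀) v₀
      map_add' := fun a b => by
        simp only [ev]
        rw [Subalgebra.coe_add, Matrix.add_mulVec, H3.hermForm_add_left hF]
      map_smul' := fun a k => by
        simp only [ev, RingHom.id_apply, smul_eq_mul]
        rw [Subalgebra.coe_smul, Matrix.smul_mulVec, H3.hermForm_smul_left hF] }
  let cL : Fin 5 → F := fun i => L (nb β i)
  have hL : ∀ z, L z = L0 (ofCoord β cL * z) := by
    intro z
    obtain ⟨d, rfl⟩ := E.surjective z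
    rw [hE, hL0]
    rw [show ofCoord β d = ∑ i, d i • nb β i from Fintype.linearCombination_apply F (nb β) d, map_sum]
    simp [cL, mul_comm]
  have hcconj : ∀ i, cL i ^ 2 = cL i := by
    intro i
    have h1 : τ (nb β i) = nb β i := (hmem _).2 (by rw [nb, ← pow_mul, mul_comm, pow_mul, hβ.fix])
    show (hermForm 5 F 2 (ev (nb β i) v₀) v₀) ^ 2 = hermForm 5 F 2 (ev (nb β i) v₀) v₀
    rw [H3.hermForm_pow_q hF]
    conv_rhs => rw [← h1]
    show _ = hermForm 5 F 2 ((τ (nb β i) : Matrix (Fin 5) (Fin 5) F) *ᵥ v₀) v₀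
    rw [← unitaryData_form hF, D.form_adj]
    show _ = D.form _ (D.adj (D.adj _) *ᵥ v₀)
    rw [D.adj_adj]
  set cK := ofCoord β cL
  have hc32 : cK ^ 32 = cK := by
    rw [ofCoord_pow32 hF hβ]
    exact congrArg _ (funext fun i => by rw [← sq, hcconj])
  have hc0 : cK ≠ 0 := by
    intro e
    obtain ⟨x, hx⟩ := H3.exists_hermForm_eq_one hF hv₀
    obtain ⟨k, rfl⟩ := Φ.surjective x
    have h1 : L k = 1 := by
      show hermForm 5 F 2 (ev k v₀) v₀ = 1
      rw [← hΦ']; exact hx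
    rw [hL, e, zero_mul, map_zero] at h1
    exact zero_ne_one h1
  obtain ⟨a, ha⟩ : ∃ a : K, a ^ 33 = cK⁻¹ := by
    obtain ⟨g, hg⟩ := IsCyclic.exists_generator (α := Kˣ)
    obtain ⟨j, hj⟩ := (mem_powers_iff_mem_zpowers (x := g)).2 (hg (Units.mk0 cK⁻¹ (inv_ne_zero hc0)))
    have hgo : orderOf g = 1023 := by
      rw [orderOf_eq_card_of_forall_mem_zpowers hg, Nat.card_units, Nat.card_eq_fintype_card, hcard]
    have h31 : g ^ (31 * j) = 1 := by
      rw [mul_comm, pow_mul, show g ^ j = _ from hj]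
      refine Units.ext ?_
      show cK⁻¹ ^ 31 = 1
      rw [inv_pow, inv_eq_one]
      exact mul_left_cancel₀ hc0 (by rw [← pow_succ', hc32, mul_one])
    have hdvd := orderOf_dvd_of_pow_eq_one h31
    rw [hgo] at hdvd
    obtain ⟨i, hi⟩ : 33 ∣ j := by omega
    refine ⟨((g ^ i : Kˣ) : K), ?_⟩
    rw [← Units.val_pow_eq_pow_val, ← pow_mul, mul_comm, ← hi, show g ^ j = _ from hj]
    rfl
  have ha0 : a ≠ 0 := fun e => inv_ne_zero hc0 (by rw [← ha, e, zero_pow (by norm_num)])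
  let v₁ := ev a v₀
  have hv₁ : v₁ ≠ 0 := fun e => hv₀ (H97.mulVec_injective hK a.2 (fun h => ha0 (Subtype.ext h)) e)
  have hiso : ∀ k l, hermForm 5 F 2 (ev k v₁) (ev l v₁) = L0 (k * l ^ 32) := by
    intro k l
    simp only [v₁]
    rw [hev, hev, hform]
    show L _ = _
    rw [hL]
    congr 1
    rw [show cK * (k * a * (l * a) ^ 32) = (cK * a ^ 33) * (k * l ^ 32) by ring, ha, mul_inv_cancel₀ hc0,
      one_mul]
  obtain ⟨Φ₁, hΦ₁⟩ := H97.exists_eval_equiv (by norm_num) hK hv₁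
  have hΦ₁' : ∀ k, Φ₁ k = ev k v₁ := hΦ₁
  let G : (Fin 5 → F) ≃ₗ[F] (Fin 5 → F) := E.trans Φ₁
  have hG : ∀ c d, hermForm 5 F 2 (G c) (G d) = hermForm 5 F 2 c d := by
    intro c d
    show hermForm 5 F 2 (Φ₁ (E c)) (Φ₁ (E d)) = _
    rw [hΦ₁', hΦ₁', hiso, hE, hE, ofCoord_pow32 hF hβ, hL0]
    simp [hermForm, sq]
  have hGsymm : ∀ u w, hermForm 5 F 2 (G.symm u) (G.symm w) = hermForm 5 F 2 u w := fun u w => by
    rw [← hG, G.apply_symm_apply, G.apply_symm_apply]
  let X : (Fin 5 → F) → Prop := fun u => inX (G.symm u)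
  let M : Subgroup (GL (Fin 5) F) :=
    { carrier := {g | g ∈ suGL 5 F 2 ∧ ∀ u, X ((g : Matrix (Fin 5) (Fin 5) F) *ᵥ u) ↔ X u}
      one_mem' := ⟨one_mem _, fun u => by simp⟩
      mul_mem' := fun {g h} hg hh => ⟨mul_mem hg.1 hh.1, fun u => by
        rw [Units.val_mul, ← Matrix.mulVec_mulVec, hg.2, hh.2]⟩
      inv_mem' := fun {g} hg => ⟨inv_mem hg.1, fun u => by
        rw [← hg.2, Matrix.mulVec_mulVec, ← Units.val_mul, mul_inv_cancel, Units.val_one, Matrix.one_mulVec]⟩ }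
  -- the shape of an element of H
  have hshape : ∀ g ∈ H, ∃ (b : K) (m : ℕ), m < 5 ∧ b ^ 33 = 1 ∧
      ∀ k : K, (g : Matrix (Fin 5) (Fin 5) F) *ᵥ ev k v₁ = ev (k ^ (4 ^ m) * b) v₁ := by
    intro g hg
    rw [hHK] at hg
    obtain ⟨hgK, hgSU⟩ := hg
    set Mg := (g : Matrix (Fin 5) (Fin 5) F)
    set Mg' := ((g⁻¹ : GL (Fin 5) F) : Matrix (Fin 5) (Fin 5) F)
    have hgg : Mg' * Mg = 1 := Units.inv_mul g
    let σ : K →ₐ[F] K :=
      { toFun := fun y => ⟨Mg * y * Mg', (hgK y).1 y.2⟩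
        map_one' := Subtype.ext (by simp [Mg, Mg'])
        map_mul' := fun x y => Subtype.ext (by
          show Mg * (x * y : Matrix (Fin 5) (Fin 5) F) * Mg' = Mg * x * Mg' * (Mg * y * Mg')
          rw [show Mg * (x : Matrix (Fin 5) (Fin 5) F) * Mg' * (Mg * y * Mg') =
            Mg * x * (Mg' * Mg) * y * Mg' by simp only [mul_assoc], hgg, mul_one]
          simp only [mul_assoc])
        map_zero' := Subtype.ext (by simp)
        map_add' := fun x y => Subtype.ext (by simp [mul_add, add_mul])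
        commutes' := fun c => Subtype.ext (by simp [Algebra.algebraMap_eq_smul_one, Mg, Mg']) }
    have : Algebra.IsAlgebraic F K := Algebra.IsAlgebraic.of_finite F K
    obtain ⟨⟨m, hm⟩, hmσ⟩ := (FiniteField.bijective_frobeniusAlgEquivOfAlgebraic_pow F K).2
      (AlgEquiv.ofBijective σ ⟨σ.toRingHom.injective, Finite.injective_iff_surjective.1 σ.toRingHom.injective⟩)
    rw [hK5] at hm
    have hσ : ∀ k : K, σ k = k ^ (4 ^ m) := fun k => by
      have h1 := DFunLike.congr_fun hmσ k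
      simp only [AlgEquiv.coe_pow, FiniteField.coe_frobeniusAlgEquivOfAlgebraic_iterate] at h1
      rw [hF] at h1
      exact h1.symm
    obtain ⟨b, hb⟩ := Φ₁.surjective (Mg *ᵥ v₁)
    rw [hΦ₁'] at hb
    have hgk : ∀ k : K, Mg *ᵥ ev k v₁ = ev (k ^ (4 ^ m) * b) v₁ := by
      intro k
      rw [← hev, hb, ← hσ]
      show Mg *ᵥ ((k : Matrix (Fin 5) (Fin 5) F) *ᵥ v₁) =
        (Mg * (k : Matrix (Fin 5) (Fin 5) F) * Mg') *ᵥ (Mg *ᵥ v₁)
      exact ((Matrix.mulVec_mulVec v₁ _ _).trans (by rw [mul_assoc (Mg * _), hgg, mul_one])).trans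
        (Matrix.mulVec_mulVec v₁ _ _).symm
    refine ⟨b, m, hm, ?_, hgk⟩
    obtain ⟨bc, hbc⟩ := E.surjective (b ^ 33)
    have h1 : ∀ j, bc j = 1 := fun j => by
      obtain ⟨i, hi⟩ : ∃ i, nb β i ^ (4 ^ m) = nb β j := ⟨j - ((2 * m : ℕ) : Fin 5), by
        rw [show (4 : ℕ) ^ m = 2 ^ (2 * m) by rw [pow_mul]; norm_num, nb_pow hβ, sub_add_cancel]⟩
      have h2 : hermForm 5 F 2 (Mg *ᵥ ev (nb β i) v₁) (Mg *ᵥ ev 1 v₁) =
          hermForm 5 F 2 (ev (nb β i) v₁) (ev 1 v₁) := hgSU.1 _ _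
      rw [hgk, hgk, hiso, hiso, hi, one_pow, one_mul] at h2
      rw [show nb β j * b * b ^ 32 = ofCoord β bc * nb β j by rw [← hE, hbc]; ring, hL0j,
        one_pow, ← ofCoord_single (F := F) (β := β), ← hE] at h2
      rw [h2]
      simp [L0]
    rw [← hbc, hE, ofCoord_apply]
    simp [h1, sum_nb hβ]
  have hle : H ≤ M := by
    intro g hg
    obtain ⟨b, m, -, hb, hgk⟩ := hshape g hg
    have hfwd : ∀ u, X u → X ((g : Matrix (Fin 5) (Fin 5) F) *ᵥ u) := by
      intro u hu
      obtain ⟨c, rfl⟩ := G.surjective u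
      simp only [X, LinearEquiv.symm_apply_apply] at hu ⊢
      obtain ⟨d, hd⟩ := E.surjective (E c ^ (4 ^ m) * b)
      have h1 : (g : Matrix (Fin 5) (Fin 5) F) *ᵥ G c = G d := by
        show _ *ᵥ Φ₁ (E c) = Φ₁ (E d)
        rw [hΦ₁', hΦ₁', hgk, hd]
      rw [h1, LinearEquiv.symm_apply_apply]
      rw [inX_iff hF hβ hK5] at hu ⊢
      obtain ⟨i, hi⟩ := target_set_pow hβ (2 * m) hu
      refine ⟨i, ?_⟩
      rw [← hE, hd, mul_pow, hb, mul_one, ← pow_mul, mul_comm, pow_mul,
        show (4 : ℕ) ^ m = 2 ^ (2 * m) by rw [pow_mul]; norm_num]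
      exact hi
    refine ⟨hH.1.le hg, fun u => ⟨fun h => ?_, hfwd u⟩⟩
    have hord := hH.1.le (pow_mem hg (orderOf g - 1))
    have hgp : ∀ (j : ℕ) w, X w → X (((g ^ j : GL (Fin 5) F) : Matrix (Fin 5) (Fin 5) F) *ᵥ w) := by
      intro j
      induction j with
      | zero => simp
      | succ j ih =>
        intro w hw
        rw [pow_succ', Units.val_mul, ← Matrix.mulVec_mulVec]
        exact hfwd _ (ih w hw)
    have := hgp (orderOf g - 1) _ h
    rwa [Matrix.mulVec_mulVec, ← Units.val_mul, ← pow_succ, Nat.sub_add_cancel (orderOf_pos g), pow_orderOf_eq_one,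
      Units.val_one, Matrix.one_mulVec] at this
  -- the extra involution
  let π : Equiv.Perm (Fin 5) := Equiv.swap 0 2 * Equiv.swap 3 4
  let Pπ : (Fin 5 → F) ≃ₗ[F] (Fin 5 → F) := LinearEquiv.funCongrLeft F F π
  let T : (Fin 5 → F) ≃ₗ[F] (Fin 5 → F) := (G.symm.trans Pπ).trans G
  have hTG : ∀ c, T (G c) = G (c ∘ π) := fun c => by
    simp [T, Pπ, LinearEquiv.funCongrLeft]
    rfl
  have hTiso : ∀ u w, hermForm 5 F 2 (T u) (T w) = hermForm 5 F 2 u w := by
    intro u w
    obtain ⟨c, rfl⟩ := G.surjective u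
    obtain ⟨d, rfl⟩ := G.surjective w
    rw [hTG, hTG, hG, hG]
    exact Equiv.sum_comp π (fun i => c i * d i ^ 2)
  let t : GL (Fin 5) F := (H3.guOfEquiv T hTiso).1
  have ht : ∀ u, (t : Matrix (Fin 5) (Fin 5) F) *ᵥ u = T u := H3.guOfEquiv_mulVec T hTiso
  have htSU : t ∈ suGL 5 F 2 := by
    refine ⟨(H3.guOfEquiv T hTiso).2, mem_specialLinear_iff.2 ?_⟩
    rw [← LinearMap.det_toLin', show Matrix.toLin' (t : Matrix (Fin 5) (Fin 5) F) =
      (T : (Fin 5 → F) →ₗ[F] (Fin 5 → F)) from LinearMap.ext ht]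
    show LinearMap.det ((G : (Fin 5 → F) →ₗ[F] (Fin 5 → F)) ∘ₗ ((Pπ : (Fin 5 → F) →ₗ[F] (Fin 5 → F)) ∘ₗ
      (G.symm : (Fin 5 → F) →ₗ[F] (Fin 5 → F)))) = 1
    rw [LinearMap.det_conj]
    have : ((Pπ : (Fin 5 → F) →ₗ[F] _)) = Matrix.toLin' (π.permMatrix F) := by
      refine LinearMap.ext fun c => ?_
      rw [Matrix.toLin'_apply, Matrix.permMatrix_mulVec]
      rfl
    rw [this, LinearMap.det_toLin', Matrix.det_permutation]
    simp [π, Equiv.Perm.sign_mul, Equiv.Perm.sign_swap]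
  have hπ : ∀ c : Fin 5 → F, c ∘ π = ![c 2, c 1, c 0, c 4, c 3] := fun c => by
    funext i; fin_cases i <;> simp [π, Equiv.swap_apply_def]
  have htM : t ∈ M := by
    refine ⟨htSU, fun u => ?_⟩
    obtain ⟨c, rfl⟩ := G.surjective u
    simp only [X, ht, hTG, LinearEquiv.symm_apply_apply, hπ]
    exact (inX_perm hF c).symm
  have htH : t ∉ H := by
    intro hmemH
    obtain ⟨b, m, hm, -, hgk⟩ := hshape t hmemH
    have hT1 : T (G fun _ => 1) = G fun _ => 1 := by rw [hTG]; rfl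
    have h1 : E (fun _ => (1 : F)) = 1 := by rw [hE, ofCoord_apply]; simp [sum_nb hβ]
    have hb1 : b = 1 := by
      have h := hgk 1
      rw [← hΦ₁', ← hΦ₁', ← h1, ht] at h
      rw [show Φ₁ (E fun _ => (1 : F)) = G fun _ => 1 from rfl, hT1] at h
      have h' : Φ₁ (E fun _ => (1 : F)) = Φ₁ (E (fun _ => (1 : F)) ^ (4 ^ m) * b) := h
      have := Φ₁.injective h'
      rw [h1, one_pow, one_mul] at this
      exact this.symm
    have hij : ∀ i, π.symm i = i + ((2 * m : ℕ) : Fin 5) := by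
      intro i
      have h := hgk (nb β i)
      rw [← hΦ₁', ← hΦ₁', ht, hb1, mul_one, show (4 : ℕ) ^ m = 2 ^ (2 * m) by rw [pow_mul]; norm_num,
        nb_pow hβ, ← ofCoord_single (F := F), ← ofCoord_single (F := F), ← hE, ← hE] at h
      rw [show Φ₁ (E (Pi.single i (1 : F))) = G (Pi.single i 1) from rfl, hTG] at h
      have h2 := congrFun (G.injective h) (π.symm i)
      simp [Pi.single_apply] at h2
      exact h2
    have h0 := hij 1
    have h2 := hij 0
    simp [π, Equiv.swap_apply_def, Equiv.Perm.mul_def] at h0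
    rw [show ((2 * m : ℕ) : Fin 5) = 0 by simpa using h0] at h2
    simp [π, Equiv.swap_apply_def, Equiv.Perm.mul_def] at h2
  rcases hH.2 M hle (fun g hg => hg.1) with e | e
  · exact htH (e ▸ htM)
  · obtain ⟨u, v, hu, hv, hu0, hv0, huX, hvX⟩ := inX_witness hF
    obtain ⟨g, hg, hguv⟩ := exists_su_mulVec hF (by norm_num) (v := G u) (w := G v)
      (fun h => hu (G.injective (h.trans (map_zero G).symm)))
      (fun h => hv (G.injective (h.trans (map_zero G).symm))) (by
        rw [hG, hG]; exact hu0.trans hv0.symm)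
    have hgM : g ∈ M := e.symm ▸ hg
    have h := (hgM.2 (G u)).2 (by simpa [X] using huX)
    rw [hguv] at h
    exact hvX (by simpa [X] using h)

end Cfsg.Agent.H3.UMax
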