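import Cfsg.Agent.H3.UMax.NormalThree
import Cfsg.Agent.H97.SingerNormalizer
import Cfsg.Agent.H99.Aschbacher.UnitaryLists

/-!
For q = 2 the normaliser in SU of dimension six of an adjoint-closed field of degree three lies in a subfield group
of symplectic type.
-/

set_option autoImplicit false

open scoped MatrixGroups Matrix

namespace Cfsg.Agent.H3.UMax.Three

open Cfsg.Geo H99.Asch

variable {F : Type*} [Field F] [Fintype F] {q : ℕ}

set_option maxHeartbeats 2000000 in
/-- The normaliser of a cubic field for q = 2 lies in a symplectic subfield group. -/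
theorem field_three_subfield (hF : Fintype.card F = q ^ 2) (hq : q = 2)
    {K : Subalgebra F (Matrix (Fin 6) (Fin 6) F)} (hK : IsFieldSubalgebra 3 K)
    (hadj : IsAdjointClosedFor (hermForm 6 F q) K) :
    ∃ (F₀ : Subfield F) (P : GL (Fin 6) F), Fintype.card F = Nat.card F₀ ^ 2 ∧
      IsFormRationalStructure (hermForm 6 F q) F₀ 1 P ∧
      (∀ u : Fin 6 → F, (∀ i, u i ∈ F₀) →
        hermForm 6 F q ((P : Matrix (Fin 6) (Fin 6) F) *ᵥ u) ((P : Matrix (Fin 6) (Fin 6) F) *ᵥ u) = 0) ∧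
      subalgebraNormalizer K ⊓ suGL 6 F q ≤ subfieldSubgroup F₀ P := by
  classical
  subst hq
  let _ : Field K := (H97.isField_fieldSubalgebra (by norm_num) hK).toField
  let _ : Fintype K := Fintype.ofFinite K
  have hK3 : Module.finrank F K = 3 := hK.finrank_eq
  have hcard : Fintype.card K = 64 := by
    rw [Module.card_eq_pow_finrank (K := F), hK3, hF]
    norm_num
  obtain ⟨β, hβ⟩ := exists_cubic (K := K) hcard
  have h2F : (2 : F) = 0 := by
    have h : (Fintype.card F : F) = 0 := FiniteField.cast_card_eq_zero F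
    rw [hF] at h
    push_cast at h
    exact mul_self_eq_zero.1 (by linear_combination h)
  have h2K : (2 : K) = 0 := hβ.two
  have : CharP K 2 := CharTwo.of_one_ne_zero_of_two_eq_zero one_ne_zero h2K
  let E := LinearEquiv.ofBijective _ (ofCoord_bijective hβ hF hK3)
  have hE : ∀ c, E c = ofCoord β c := fun c => rfl
  let L0 : K →ₗ[F] F := (∑ k : Fin 3, LinearMap.proj k) ∘ₗ E.symm.toLinearMap
  have hL0E : ∀ c, L0 (ofCoord β c) = ∑ k, c k := fun c => by
    rw [← hE]
    simp [L0]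
  have hL0j : ∀ c j, L0 (ofCoord β c * nb β j) = c j := fun c j => by
    rw [← ofCoord_single (F := F), ofCoord_mul hβ, hL0E, sum_mulC h2F]
    simp [Pi.single_apply]
  have huniq : ∀ z z' : K, (∀ j, L0 (nb β j * z) = L0 (nb β j * z')) → z = z' := by
    intro z z' h
    obtain ⟨c, rfl⟩ := E.surjective z
    obtain ⟨c', rfl⟩ := E.surjective z'
    congr 1
    funext j
    rw [← hL0j c j, ← hL0j c' j, mul_comm, ← hE, h j, hE, mul_comm]
  -- the adjoint map of K
  let D := unitaryData hF 6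
  have hadjK : ∀ k ∈ K, D.adj k ∈ K := by
    intro k hk
    obtain ⟨k', hk', hkk⟩ := hadj k hk
    have e : D.adj k = k' := by
      refine Matrix.ext_of_mulVec_single fun i => ?_
      have hpt : ∀ u, hermForm 6 F 2 u (D.adj k *ᵥ Pi.single i 1) = hermForm 6 F 2 u (k' *ᵥ Pi.single i 1) := by
        intro u
        rw [← hkk, ← unitaryData_form hF, D.form_adj]
      funext j
      have h1 := hpt (Pi.single j 1)
      rw [H3.hermForm_single_left, H3.hermForm_single_left, one_mul, one_mul] at h1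
      exact (H3.conjQ hF).injective (by rwa [H3.conjQ_apply, H3.conjQ_apply])
    rw [e]; exact hk'
  let τ : K →+* K :=
    { toFun := fun x => ⟨D.adj x, hadjK _ x.2⟩
      map_one' := Subtype.ext D.adj_one
      map_mul' := fun x y => Subtype.ext (by
        show D.adj ((x : Matrix (Fin 6) (Fin 6) F) * y) = D.adj x * D.adj y
        rw [hK.comm x x.2 y y.2, D.adj_mul])
      map_zero' := Subtype.ext D.adj_zero
      map_add' := fun x y => Subtype.ext (D.adj_add _ _) }
  have hττ : ∀ x, τ (τ x) = x := fun x => Subtype.ext (D.adj_adj _)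
  have hτid : τ ≠ RingHom.id K := fun e => by
    obtain ⟨c, hc⟩ := H3.exists_conj_ne hF
    have h1 : D.adj (algebraMap F _ c) = algebraMap F _ c :=
      congrArg Subtype.val (RingHom.congr_fun e ⟨_, K.algebraMap_mem c⟩)
    rw [D.adj_algebraMap] at h1
    exact hc ((algebraMap F (Matrix (Fin 6) (Fin 6) F)).injective h1)
  obtain ⟨K', hK', hK'c⟩ := card_eq_sq_fixed τ hττ hτid
  have hK'8 : Nat.card K' = 8 := Nat.pow_left_injective two_ne_zero (by
    show Nat.card K' ^ 2 = 8 ^ 2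
    rw [← hK'c, hcard])
  have hmem : ∀ x : K, τ x = x ↔ x ^ 8 = x := fun x => by
    rw [← hK', mem_subfield_iff, hK'8]
  have hτpow : ∀ x : K, τ x = x ^ 8 := fun x => by
    have hs := (hmem (x + τ x)).1 (by rw [map_add, hττ, add_comm])
    have hp := (hmem (x * τ x)).1 (by rw [map_mul, hττ, mul_comm])
    rw [show (8 : ℕ) = 2 ^ 3 by norm_num, add_pow_char_pow] at hs
    norm_num only at hs
    rw [mul_pow] at hp
    have key : (x ^ 8 - x) * (x ^ 8 - τ x) = 0 := by linear_combination (x ^ 8) * hs - hp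
    rcases mul_eq_zero.1 key with h | h
    · rw [(hmem x).2 (sub_eq_zero.1 h), sub_eq_zero.1 h]
    · exact (sub_eq_zero.1 h).symm
  have hpow88 : ∀ x : K, (x ^ 8) ^ 8 = x := fun x => by rw [← hτpow, ← hτpow, hττ]
  -- the form over K
  let ev : K → (Fin 6 → F) → (Fin 6 → F) := fun k v => (k : Matrix (Fin 6) (Fin 6) F) *ᵥ v
  have hev : ∀ (k l : K) v, ev k (ev l v) = ev (k * l) v := fun k l v => by
    simp [ev, Matrix.mulVec_mulVec]
  have hev1 : ∀ v, ev 1 v = v := fun v => by simp [ev]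
  have heva : ∀ (k l : K) v, ev (k + l) v = ev k v + ev l v := fun k l v => by
    simp [ev, Matrix.add_mulVec]
  have hevv : ∀ (k : K) u v, ev k (u + v) = ev k u + ev k v := fun k u v => Matrix.mulVec_add _ _ _
  have hevs : ∀ (a : F) (k : K) v, ev (a • k) v = a • ev k v := fun a k v => by
    simp [ev, Matrix.smul_mulVec]
  have hev0 : ∀ v, ev 0 v = 0 := fun v => by simp [ev]
  have hevinj : ∀ (k : K) v, ev k v = 0 → k = 0 ∨ v = 0 := fun k v h => by
    by_cases hk : k = 0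
    · exact Or.inl hk
    · exact Or.inr (H97.mulVec_injective hK k.2 (fun e => hk (Subtype.ext e)) h)
  have hadjev : ∀ (k : K) u v, hermForm 6 F 2 (ev k u) v = hermForm 6 F 2 u (ev (τ k) v) := fun k u v => by
    rw [← unitaryData_form hF, D.form_adj]
    rfl
  let hh : (Fin 6 → F) → (Fin 6 → F) → K := fun u v => ofCoord β fun i => hermForm 6 F 2 (ev (nb β i) u) v
  have hspec : ∀ (k : K) u v, hermForm 6 F 2 (ev k u) v = L0 (k * hh u v) := by
    intro k u v
    obtain ⟨c, rfl⟩ := E.surjective k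
    rw [hE, ofCoord_mul hβ, hL0E, sum_mulC h2F]
    rw [show ofCoord β c = ∑ i, c i • nb β i from Fintype.linearCombination_apply F (nb β) c]
    simp only [Fin.sum_univ_three, heva, hevs, H3.hermForm_add_left hF, H3.hermForm_smul_left hF]
  have hadd : ∀ u u' v, hh (u + u') v = hh u v + hh u' v := fun u u' v => huniq _ _ fun j => by
    rw [mul_add, map_add, ← hspec, ← hspec, ← hspec, hevv, H3.hermForm_add_left hF]
  have hsmul : ∀ (k : K) u v, hh (ev k u) v = k * hh u v := fun k u v => huniq _ _ fun j => by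
    rw [← hspec, ← mul_assoc, ← hspec, hev]
  have hL0conj : ∀ z : K, L0 (z ^ 8) = L0 z ^ 2 := fun z => by
    obtain ⟨c, rfl⟩ := E.surjective z
    rw [hE, ofCoord_pow8 hβ hF, hL0E, hL0E]
    simp only [Fin.sum_univ_three]
    linear_combination (-(c 0 * c 1 + c 0 * c 2 + c 1 * c 2)) * h2F
  have hswap : ∀ u v, hh v u = hh u v ^ 8 := fun u v => huniq _ _ fun j => by
    have hn : nb β j * hh u v ^ 8 = (nb β j * hh u v) ^ 8 := by rw [mul_pow, nb_fix hβ]
    rw [← hspec, hn, hL0conj, ← hspec, H3.hermForm_pow_q hF, hadjev (nb β j) v u, hτpow, nb_fix hβ]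
  have haddr : ∀ u v v', hh u (v + v') = hh u v + hh u v' := fun u v v' => by
    rw [hswap (v + v'), hadd, show (8 : ℕ) = 2 ^ 3 by norm_num, add_pow_char_pow]
    norm_num only
    rw [← hswap, ← hswap]
  have hsmulr : ∀ (k : K) u v, hh u (ev k v) = k ^ 8 * hh u v := fun k u v => by
    rw [hswap (ev k v), hsmul, mul_pow, ← hswap]
  have hnd : ∀ u, u ≠ 0 → ∃ x, hh u x = 1 := by
    intro u hu
    obtain ⟨x, hx⟩ := H3.exists_hermForm_eq_one hF hu
    have hne : hh u x ≠ 0 := by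
      intro e
      have hxu : hh x u = 0 := by rw [hswap u x, e, zero_pow (by norm_num)]
      have h1 := hspec 1 u x
      rw [hev1, e, mul_zero, map_zero] at h1
      have h2 := hspec 1 x u
      rw [hev1, hxu, mul_zero, map_zero] at h2
      rw [h2] at hx
      exact zero_ne_one hx
    exact ⟨ev (((hh u x) ^ 8)⁻¹) x, by rw [hsmulr, inv_pow, hpow88, inv_mul_cancel₀ hne]⟩
  -- an isotropic vector
  obtain ⟨w₁, hw₁, hw₁0⟩ : ∃ w : Fin 6 → F, w ≠ 0 ∧ hh w w = 0 := by
    obtain ⟨u, hu⟩ := exists_ne (0 : Fin 6 → F)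
    by_cases h0 : hh u u = 0
    · exact ⟨u, hu, h0⟩
    let Lu : K →ₗ[F] (Fin 6 → F) :=
      { toFun := fun k => ev k u
        map_add' := fun a b => heva a b u
        map_smul' := fun a k => hevs a k u }
    obtain ⟨x, hx⟩ : ∃ x, x ∉ LinearMap.range Lu := by
      by_contra h
      push Not at h
      have h1 : LinearMap.range Lu = ⊤ := eq_top_iff.2 fun x _ => h x
      have h2 := LinearMap.finrank_range_le Lu
      rw [h1, finrank_top, Module.finrank_fin_fun, hK3] at h2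
      omega
    set k₀ : K := hh x u / hh u u
    set v := x + ev k₀ u with hv
    have hvu : hh v u = 0 := by
      rw [hadd, hsmul, div_mul_cancel₀ _ h0]
      linear_combination (hh x u) * h2K
    have hv0 : v ≠ 0 := fun e => hx ⟨-k₀, by
      show ev (-k₀) u = x
      have h3 : ev (-k₀) u + ev k₀ u = 0 := by rw [← heva, neg_add_cancel, hev0]
      exact add_right_cancel (b := ev k₀ u) (by rw [h3, ← hv, e])⟩
    clear_value v
    by_cases hvv : hh v v = 0
    · exact ⟨v, hv0, hvv⟩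
    obtain ⟨g, hg⟩ := IsCyclic.exists_generator (α := Kˣ)
    obtain ⟨j, hj⟩ := (mem_powers_iff_mem_zpowers (x := g)).2 (hg (Units.mk0 (hh v v / hh u u) (div_ne_zero hvv h0)))
    have hgo : orderOf g = 63 := by
      rw [orderOf_eq_card_of_forall_mem_zpowers hg, Nat.card_units, Nat.card_eq_fintype_card, hcard]
    have h7 : g ^ (7 * j) = 1 := by
      rw [mul_comm, pow_mul, show g ^ j = _ from hj]
      refine Units.ext ?_
      show (hh v v / hh u u) ^ 7 = 1
      refine mul_left_cancel₀ (div_ne_zero hvv h0) ?_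
      rw [← pow_succ', mul_one, div_pow, ← hswap, ← hswap]
    have hdvd := orderOf_dvd_of_pow_eq_one h7
    rw [hgo] at hdvd
    obtain ⟨i, hi⟩ : 9 ∣ j := by omega
    set k : K := ((g ^ i : Kˣ) : K)
    have hk : k ^ 9 * hh u u = hh v v := by
      rw [← Units.val_pow_eq_pow_val, ← pow_mul, mul_comm i 9, ← hi, show g ^ j = _ from hj]
      exact div_mul_cancel₀ _ h0
    refine ⟨ev k u + v, fun e => hx ⟨-(k + k₀), ?_⟩, ?_⟩
    · show ev (-(k + k₀)) u = x
      have h3 : ev (-(k + k₀)) u + ev (k + k₀) u = 0 := by rw [← heva, neg_add_cancel, hev0]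
      refine add_right_cancel (b := ev (k + k₀) u) ?_
      rw [h3, heva, ← e, hv]
      abel
    · rw [hadd, haddr, haddr, hsmul, hsmul, hsmulr, hsmulr, hvu, hswap v u, hvu]
      linear_combination hk + (hh v v) * h2K
  -- the partner
  obtain ⟨x, hx⟩ := hnd w₁ hw₁
  obtain ⟨w, hw4, hw0, hw1⟩ : ∃ w : F, w ^ 4 = w ∧ w ≠ 0 ∧ w ≠ 1 := by
    obtain ⟨w, -, hw⟩ := Finset.exists_mem_notMem_of_card_lt_card (s := ({0, 1} : Finset F)) (t := Finset.univ)
      (lt_of_le_of_lt Finset.card_le_two (by rw [Finset.card_univ, hF]; norm_num))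
    simp only [Finset.mem_insert, Finset.mem_singleton, not_or] at hw
    refine ⟨w, ?_, hw.1, hw.2⟩
    have := FiniteField.pow_card w
    rwa [hF] at this
  set θ : K := algebraMap F K w
  have hθ : θ + θ ^ 8 = 1 := by
    rw [← map_pow, ← map_add, ← map_one (algebraMap F K)]
    congr 1
    have h5 : (w * (w - 1)) * (w ^ 2 + w + 1) = 0 := by linear_combination hw4
    have h6 := (mul_eq_zero.1 h5).resolve_left (mul_ne_zero hw0 (sub_ne_zero.2 hw1))
    linear_combination (w ^ 4 + w) * hw4 + h6 - h2F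
  set t : K := hh x x * θ
  obtain ⟨w₂, h12, h22⟩ : ∃ w₂, hh w₁ w₂ = 1 ∧ hh w₂ w₂ = 0 := by
    refine ⟨x + ev t w₁, by rw [haddr, hsmulr, hw₁0, mul_zero, add_zero, hx], ?_⟩
    rw [hadd, haddr, haddr, hsmul, hsmul, hsmulr, hsmulr, hw₁0, hswap w₁ x, hx, one_pow, mul_pow, ← hswap]
    linear_combination (hh x x) * hθ + (hh x x) * h2K
  have h21 : hh w₂ w₁ = 1 := by rw [hswap w₁ w₂, h12, one_pow]
  -- coordinates
  let Φ : (K × K) →ₗ[F] (Fin 6 → F) :=
    { toFun := fun p => ev p.1 w₁ + ev p.2 w₂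
      map_add' := fun a b => by rw [Prod.fst_add, Prod.snd_add, heva, heva]; abel
      map_smul' := fun a p => by
        rw [Prod.smul_fst, Prod.smul_snd, hevs, hevs, RingHom.id_apply, smul_add] }
  have hhΦ : ∀ p r : K × K, hh (Φ p) (Φ r) = p.1 * r.2 ^ 8 + p.2 * r.1 ^ 8 := by
    intro p r
    show hh (ev p.1 w₁ + ev p.2 w₂) (ev r.1 w₁ + ev r.2 w₂) = _
    simp only [hadd, haddr, hsmul, hsmulr, hw₁0, h12, h21, h22]
    ring
  have hΦinj : Function.Injective Φ := by
    rw [← LinearMap.ker_eq_bot, Submodule.eq_bot_iff]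
    rintro ⟨a, b⟩ hab
    rw [LinearMap.mem_ker] at hab
    have h1 := hhΦ (a, b) (1, 0)
    have h2 := hhΦ (a, b) (0, 1)
    have hz : ∀ y, hh 0 y = 0 := fun y => by
      have := hsmul 0 0 y
      rwa [hev0, zero_mul] at this
    rw [hab, hz] at h1 h2
    simp at h1 h2
    rw [← h1, ← h2]
    rfl
  let Φe : (K × K) ≃ₗ[F] (Fin 6 → F) := LinearEquiv.ofBijective Φ ⟨hΦinj,
    (LinearMap.injective_iff_surjective_of_finrank_eq_finrank (by
      rw [Module.finrank_prod, hK3, Module.finrank_fin_fun])).1 hΦinj⟩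
  have hΦe : ∀ p, Φe p = ev p.1 w₁ + ev p.2 w₂ := fun p => rfl
  let spl : (Fin 6 → F) ≃ₗ[F] (Fin 3 → F) × (Fin 3 → F) :=
    (LinearEquiv.funCongrLeft F F (finSumFinEquiv (m := 3) (n := 3))).trans
      (LinearEquiv.sumArrowLequivProdArrow (Fin 3) (Fin 3) F F)
  have hspl : ∀ z : Fin 6 → F, spl z = (fun i => z (finSumFinEquiv (m := 3) (n := 3) (Sum.inl i)),
      fun i => z (finSumFinEquiv (m := 3) (n := 3) (Sum.inr i))) :=
    fun z => rfl
  let Pl : (Fin 6 → F) ≃ₗ[F] (Fin 6 → F) := (spl.trans (E.prodCongr E)).trans Φe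
  let P : GL (Fin 6) F := Matrix.GeneralLinearGroup.toLin.symm
    ((LinearMap.GeneralLinearGroup.generalLinearEquiv F _).symm Pl)
  have hP : ∀ z, (P : Matrix (Fin 6) (Fin 6) F) *ᵥ z = Pl z := fun z => by
    change LinearMap.toMatrix' (Pl : (Fin 6 → F) →ₗ[F] (Fin 6 → F)) *ᵥ z = Pl z
    rw [← Matrix.toLin'_apply, Matrix.toLin'_toMatrix']
    rfl
  obtain ⟨F₀, hF₀⟩ : ∃ F₀ : Subfield F, Nat.card F₀ = 2 := by
    have : Fact (Nat.Prime 2) := ⟨Nat.prime_two⟩
    have : CharP F 2 := CharTwo.of_one_ne_zero_of_two_eq_zero one_ne_zero h2F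
    obtain ⟨F₀, h⟩ := exists_subfield (F := F) (p := 2) (e := 2) (d := 1) hF (one_dvd 2)
    exact ⟨F₀, by rw [h, pow_one]⟩
  have hF₀m : ∀ a, a ∈ F₀ ↔ a ^ 2 = a := fun a => by rw [mem_subfield_iff, hF₀]
  -- rationality
  have hrat : ∀ c : Fin 3 → F, ofCoord β c ^ 8 = ofCoord β c ↔ ∀ i, c i ∈ F₀ := fun c => by
    rw [ofCoord_pow8 hβ hF, (ofCoord_bijective hβ hF hK3).1.eq_iff, funext_iff]
    simp [hF₀m, sq]
  let Rat : (Fin 6 → F) → Prop := fun u => (Φe.symm u).1 ^ 8 = (Φe.symm u).1 ∧ (Φe.symm u).2 ^ 8 = (Φe.symm u).2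
  have hRat : ∀ z, Rat (Pl z) ↔ ∀ i, z i ∈ F₀ := by
    intro z
    have e : Φe.symm (Pl z) = (E (spl z).1, E (spl z).2) := by
      show Φe.symm (Φe _) = _
      rw [LinearEquiv.symm_apply_apply]
      rfl
    simp only [Rat, e, hE, hrat, hspl]
    refine ⟨fun h i => ?_, fun h => ⟨fun i => h _, fun i => h _⟩⟩
    obtain ⟨j, rfl⟩ := (finSumFinEquiv (m := 3) (n := 3)).surjective i
    rcases j with j | j
    exacts [h.1 j, h.2 j]
  have hL0rat : ∀ y : K, y ^ 8 = y → L0 y ∈ F₀ := fun y hy => by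
    rw [hF₀m, ← hL0conj, hy]
  refine ⟨F₀, P, by rw [hF₀, hF], ?_, ?_, ?_⟩
  · intro u v hu hv
    rw [one_mul, hP, hP]
    have hu' := (hRat u).2 hu
    have hv' := (hRat v).2 hv
    rw [← hev1 (Pl u), hspec, one_mul]
    obtain ⟨p, hp⟩ := Φe.surjective (Pl u)
    obtain ⟨r, hr⟩ := Φe.surjective (Pl v)
    rw [← hp] at hu' ⊢
    rw [← hr] at hv' ⊢
    simp only [Rat, LinearEquiv.symm_apply_apply] at hu' hv'
    refine hL0rat _ ?_
    rw [show hh (Φe p) (Φe r) = _ from hhΦ p r, hv'.1, hv'.2, show (8 : ℕ) = 2 ^ 3 by norm_num, add_pow_char_pow]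
    norm_num only
    rw [mul_pow, mul_pow, hu'.1, hu'.2, hv'.1, hv'.2]
  · intro u hu
    rw [hP]
    have hu' := (hRat u).2 hu
    rw [← hev1 (Pl u), hspec, one_mul, hev1]
    obtain ⟨p, hp⟩ := Φe.surjective (Pl u)
    rw [← hp] at hu' ⊢
    simp only [Rat, LinearEquiv.symm_apply_apply] at hu'
    rw [show hh (Φe p) (Φe p) = _ from hhΦ p p, hu'.1, hu'.2,
      show p.1 * p.2 + p.2 * p.1 = 0 by linear_combination (p.1 * p.2) * h2K, map_zero]
  rintro g ⟨hgK, hgSU⟩
  set Mg := (g : Matrix (Fin 6) (Fin 6) F)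
  set Mg' := ((g⁻¹ : GL (Fin 6) F) : Matrix (Fin 6) (Fin 6) F)
  have hgg : Mg' * Mg = 1 := Units.inv_mul g
  let σ : K →ₐ[F] K :=
    { toFun := fun y => ⟨Mg * y * Mg', (hgK y).1 y.2⟩
      map_one' := Subtype.ext (by simp [Mg, Mg'])
      map_mul' := fun x y => Subtype.ext (by
        show Mg * (x * y : Matrix (Fin 6) (Fin 6) F) * Mg' = Mg * x * Mg' * (Mg * y * Mg')
        rw [show Mg * (x : Matrix (Fin 6) (Fin 6) F) * Mg' * (Mg * y * Mg') =
          Mg * x * (Mg' * Mg) * y * Mg' by simp only [mul_assoc], hgg, mul_one]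
        simp only [mul_assoc])
      map_zero' := Subtype.ext (by simp)
      map_add' := fun x y => Subtype.ext (by simp [mul_add, add_mul])
      commutes' := fun c => Subtype.ext (by simp [Algebra.algebraMap_eq_smul_one, Mg, Mg']) }
  have : Algebra.IsAlgebraic F K := Algebra.IsAlgebraic.of_finite F K
  obtain ⟨⟨m, _hm⟩, hmσ⟩ := (FiniteField.bijective_frobeniusAlgEquivOfAlgebraic_pow F K).2
    (AlgEquiv.ofBijective σ ⟨σ.toRingHom.injective, Finite.injective_iff_surjective.1 σ.toRingHom.injective⟩)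
  have hσ : ∀ k : K, σ k = k ^ (4 ^ m) := fun k => by
    have h1 := DFunLike.congr_fun hmσ k
    simp only [AlgEquiv.coe_pow, FiniteField.coe_frobeniusAlgEquivOfAlgebraic_iterate] at h1
    rw [hF] at h1
    exact h1.symm
  have hgk : ∀ (k : K) u, Mg *ᵥ ev k u = ev (σ k) (Mg *ᵥ u) := fun k u => by
    show Mg *ᵥ ((k : Matrix (Fin 6) (Fin 6) F) *ᵥ u) = (Mg * (k : Matrix (Fin 6) (Fin 6) F) * Mg') *ᵥ (Mg *ᵥ u)
    exact ((Matrix.mulVec_mulVec u _ _).trans (by rw [mul_assoc (Mg * _), hgg, mul_one])).trans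
      (Matrix.mulVec_mulVec u _ _).symm
  have hσfix : ∀ y : K, y ^ 8 = y → σ y ^ 8 = σ y := fun y hy => by rw [← map_pow, hy]
  have hL0σ : ∀ z : K, L0 (σ z) = L0 z := by
    intro z
    obtain ⟨c, rfl⟩ := E.surjective z
    rw [hE, show ofCoord β c = ∑ i, c i • nb β i from Fintype.linearCombination_apply F (nb β) c, map_sum, map_sum,
      map_sum]
    refine Finset.sum_congr rfl fun i _ => ?_
    have hn : ∀ j, L0 (nb β j) = 1 := fun j => by
      rw [← ofCoord_single (F := F), hL0E]; simp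
    rw [map_smul, map_smul, map_smul, hn, hσ, show (4 : ℕ) ^ m = 2 ^ (2 * m) by rw [pow_mul]; norm_num]
    obtain ⟨j, hj⟩ : ∃ j, nb β i ^ 2 ^ (2 * m) = nb β j := by
      generalize 2 * m = m'
      induction m' with
      | zero => exact ⟨i, by simp⟩
      | succ a ih =>
        obtain ⟨j, hj⟩ := ih
        exact ⟨j + 1, by rw [pow_succ, pow_mul, hj, nb_sq hβ]⟩
    rw [hj, hn]
  have hgh : ∀ u v, hh (Mg *ᵥ u) (Mg *ᵥ v) = σ (hh u v) := by
    intro u v
    refine huniq _ _ fun j => ?_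
    obtain ⟨k, hk⟩ := (Finite.injective_iff_surjective.1 σ.toRingHom.injective : Function.Surjective σ) (nb β j)
    rw [← hk, ← map_mul, hL0σ, ← hspec, ← hspec, ← hgk]
    exact hgSU.1 _ _
  obtain ⟨⟨a, b⟩, hab⟩ := Φe.surjective (Mg *ᵥ w₁)
  obtain ⟨⟨c, d⟩, hcd⟩ := Φe.surjective (Mg *ᵥ w₂)
  have q1 : a * b ^ 8 + b * a ^ 8 = 0 := by
    have h := hgh w₁ w₁
    rwa [hw₁0, map_zero, ← hab, show hh (Φe (a, b)) (Φe (a, b)) = _ from hhΦ _ _] at h
  have q3 : c * d ^ 8 + d * c ^ 8 = 0 := by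
    have h := hgh w₂ w₂
    rwa [h22, map_zero, ← hcd, show hh (Φe (c, d)) (Φe (c, d)) = _ from hhΦ _ _] at h
  have q2 : a * d ^ 8 + b * c ^ 8 = 1 := by
    have h := hgh w₁ w₂
    rwa [h12, map_one, ← hab, ← hcd, show hh (Φe (a, b)) (Φe (c, d)) = _ from hhΦ _ _] at h
  have q2' : a ^ 8 * d + b ^ 8 * c = 1 := by
    have h := congrArg (· ^ 2 ^ 3) q2
    simp only [add_pow_char_pow, one_pow] at h
    norm_num only at h
    rwa [mul_pow, mul_pow, hpow88, hpow88] at h
  set δ := a * d + b * c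
  have ea : δ * a ^ 8 = a := by linear_combination a * q2' + c * q1 - (a * b ^ 8 * c) * h2K
  have eb : δ * b ^ 8 = b := by linear_combination b * q2' + d * q1 - (b * a ^ 8 * d) * h2K
  have ec : δ * c ^ 8 = c := by linear_combination c * q2 + a * q3 - (a * c * d ^ 8) * h2K
  have ed : δ * d ^ 8 = d := by linear_combination d * q2 + b * q3 - (b * c ^ 8 * d) * h2K
  obtain ⟨s, hs0, hs⟩ : ∃ s : K, s ≠ 0 ∧ δ * s ^ 8 = s := by
    by_cases ha : a = 0
    · refine ⟨b, fun hb => ?_, eb⟩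
      rw [ha, hb] at q2
      simp at q2
    · exact ⟨a, ha, ea⟩
  have hδ0 : δ ≠ 0 := fun e => hs0 (by rw [← hs, e, zero_mul])
  have hdiv : ∀ z : K, δ * z ^ 8 = z → (z / s) ^ 8 = z / s := fun z hz => by
    rw [div_pow]
    conv_rhs => rw [← hz, ← hs]
    exact (mul_div_mul_left _ _ hδ0).symm
  -- g is a scalar from K times a rational map
  have hrat' : ∀ u, Rat u → ∃ u', Rat u' ∧ Mg *ᵥ u = ev s u' := by
    intro u hu
    obtain ⟨⟨x, y⟩, rfl⟩ := Φe.surjective u
    simp only [Rat, LinearEquiv.symm_apply_apply] at hu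
    refine ⟨Φe (σ x * (a / s) + σ y * (c / s), σ x * (b / s) + σ y * (d / s)), ?_, ?_⟩
    · simp only [Rat, LinearEquiv.symm_apply_apply]
      constructor <;>
      · rw [show (8 : ℕ) = 2 ^ 3 by norm_num, add_pow_char_pow]
        norm_num only
        rw [mul_pow, mul_pow, hσfix x hu.1, hσfix y hu.2]
        simp only [hdiv a ea, hdiv b eb, hdiv c ec, hdiv d ed]
    · rw [hΦe, hΦe, Matrix.mulVec_add, hgk, hgk, ← hab, ← hcd, hΦe, hΦe]
      simp only [hevv, hev, mul_add, heva]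
      rw [mul_left_comm s, mul_div_cancel₀ _ hs0, mul_left_comm s, mul_div_cancel₀ _ hs0, mul_left_comm s,
        mul_div_cancel₀ _ hs0, mul_left_comm s, mul_div_cancel₀ _ hs0]
      abel
  let S : Matrix (Fin 6) (Fin 6) F := (s : Matrix (Fin 6) (Fin 6) F)
  let Si : Matrix (Fin 6) (Fin 6) F := ((s⁻¹ : K) : Matrix (Fin 6) (Fin 6) F)
  let M : Matrix (Fin 6) (Fin 6) F := ((P⁻¹ : GL (Fin 6) F) : Matrix (Fin 6) (Fin 6) F) * (Si * Mg) * P
  have hPM : ∀ z, Pl (M *ᵥ z) = ev s⁻¹ (Mg *ᵥ Pl z) := fun z => by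
    rw [← hP, ← hP]
    simp only [M, ev, Matrix.mulVec_mulVec, ← mul_assoc, Units.mul_inv, one_mul, Si]
  have hM : ∀ i j, M i j ∈ F₀ := by
    intro i j
    have hz : ∀ l, (Pi.single j (1 : F) : Fin 6 → F) l ∈ F₀ := fun l => by
      by_cases hl : l = j
      · subst hl; rw [Pi.single_eq_same]; exact F₀.one_mem
      · rw [Pi.single_eq_of_ne hl]; exact F₀.zero_mem
    obtain ⟨u', hu', he⟩ := hrat' _ ((hRat _).2 hz)
    have h1 : Rat (Pl (M *ᵥ Pi.single j 1)) := by
      rw [hPM, he, hev, inv_mul_cancel₀ hs0, hev1]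
      exact hu'
    have := (hRat _).1 h1 i
    rwa [Matrix.mulVec_single_one, Matrix.col_apply] at this
  -- the scalar is rational
  have hdetS : S.det = Algebra.norm F s * Algebra.norm F s := by
    rw [← LinearMap.det_toLin', Algebra.norm_apply, ← LinearMap.det_prodMap]
    rw [← LinearMap.det_conj _ Φe]
    congr 1
    refine LinearMap.ext fun u => ?_
    obtain ⟨p, rfl⟩ := Φe.surjective u
    rw [Matrix.toLin'_apply, LinearMap.comp_apply, LinearMap.comp_apply]
    simp only [LinearEquiv.coe_coe, LinearEquiv.symm_apply_apply]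
    show ev s (Φe p) = Φe (s * p.1, s * p.2)
    rw [hΦe, hΦe, hevv, hev, hev]
  have hN : s ^ 21 = 1 := by
    have hMg : Mg.det = 1 := mem_specialLinear_iff.1 hgSU.2
    have hSSi : S * Si = 1 := by
      show ((s * s⁻¹ : K) : Matrix (Fin 6) (Fin 6) F) = 1
      rw [mul_inv_cancel₀ hs0]; rfl
    have hdetM : M.det = Si.det := by
      show (((P⁻¹ : GL (Fin 6) F) : Matrix (Fin 6) (Fin 6) F) * (Si * Mg) * P).det = _
      rw [Matrix.det_units_conj', Matrix.det_mul, hMg, mul_one]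
    have hdet0 : M.det ∈ F₀ := by
      let M₀ : Matrix (Fin 6) (Fin 6) F₀ := fun i j => ⟨M i j, hM i j⟩
      rw [show M.det = F₀.subtype M₀.det by rw [RingHom.map_det]; rfl]
      exact M₀.det.2
    have hS1 : S.det * Si.det = 1 := by rw [← Matrix.det_mul, hSSi, Matrix.det_one]
    rw [hdetM, hF₀m] at hdet0
    have hSi : Si.det = 1 := by
      have h3 : Si.det * (Si.det - 1) = 0 := by linear_combination hdet0
      exact sub_eq_zero.1 ((mul_eq_zero.1 h3).resolve_left (right_ne_zero_of_mul (by rw [hS1]; exact one_ne_zero)))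
    rw [hdetS, hSi, mul_one] at hS1
    have hN1 : Algebra.norm F s = 1 := by
      set N := Algebra.norm F s
      have h4 : N ^ 4 = N := by
        have := FiniteField.pow_card N
        rwa [hF] at this
      linear_combination (N * N + 1) * hS1 - h4
    have h := FiniteField.algebraMap_norm_eq_pow (K := F) (K' := K) (x := s)
    rw [hN1, map_one, Nat.card_eq_fintype_card, Nat.card_eq_fintype_card, hcard, hF] at h
    norm_num at h
    exact h.symm
  obtain ⟨l, hl⟩ : ∃ l : F, algebraMap F K l = s ^ 7 := by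
    have h : (s ^ 7) ∈ (algebraMap F K).fieldRange := by
      rw [mem_subfield_iff, show Nat.card (algebraMap F K).fieldRange = 4 by
        rw [Nat.card_congr (Equiv.ofBijective _ (RingHom.rangeRestrictField_bijective (algebraMap F K))).symm,
          Nat.card_eq_fintype_card, hF]
        norm_num]
      calc (s ^ 7) ^ 4 = s ^ 21 * s ^ 7 := by ring
        _ = s ^ 7 := by rw [hN, one_mul]
    exact h
  have hl0 : l ≠ 0 := fun e => hs0 (by rw [e, map_zero] at hl; exact (pow_eq_zero_iff (by norm_num)).1 hl.symm)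
  set μ : K := s ^ 15
  have hμ : μ ^ 8 = μ := by
    calc (s ^ 15) ^ 8 = (s ^ 21) ^ 5 * s ^ 15 := by ring
      _ = μ := by rw [hN, one_pow, one_mul]
  have hsμ : s = l • μ := by
    rw [Algebra.smul_def, hl]
    calc s = s ^ 21 * s := by rw [hN, one_mul]
      _ = s ^ 7 * μ := by ring
  let M' : Matrix (Fin 6) (Fin 6) F := ((P⁻¹ : GL (Fin 6) F) : Matrix (Fin 6) (Fin 6) F) * (l⁻¹ • Mg) * P
  refine mem_subfieldSubgroup_of_entries F₀ P g (c := l) (M := M') hl0 (fun i j => ?_) ?_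
  · have hz : ∀ k, (Pi.single j (1 : F) : Fin 6 → F) k ∈ F₀ := fun k => by
      by_cases hk : k = j
      · subst hk; rw [Pi.single_eq_same]; exact F₀.one_mem
      · rw [Pi.single_eq_of_ne hk]; exact F₀.zero_mem
    obtain ⟨u', hu', he⟩ := hrat' _ ((hRat _).2 hz)
    have hPM' : Pl (M' *ᵥ Pi.single j 1) = ev μ u' := by
      have h1 : Pl (M' *ᵥ Pi.single j 1) = l⁻¹ • (Mg *ᵥ Pl (Pi.single j 1)) := by
        rw [← hP, ← hP, ← Matrix.smul_mulVec]
        simp only [M', Matrix.mulVec_mulVec, ← mul_assoc, Units.mul_inv, one_mul]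
      rw [h1, he, hsμ, hevs, smul_smul, inv_mul_cancel₀ hl0, one_smul]
    have h2 : Rat (Pl (M' *ᵥ Pi.single j 1)) := by
      obtain ⟨⟨x, y⟩, rfl⟩ := Φe.surjective u'
      simp only [Rat, LinearEquiv.symm_apply_apply] at hu'
      rw [hPM', show ev μ (Φe (x, y)) = Φe (μ * x, μ * y) by rw [hΦe, hΦe, hevv, hev, hev]]
      simp only [Rat, LinearEquiv.symm_apply_apply]
      exact ⟨by rw [mul_pow, hμ, hu'.1], by rw [mul_pow, hμ, hu'.2]⟩
    have := (hRat _).1 h2 i
    rwa [Matrix.mulVec_single_one, Matrix.col_apply] at this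
  · rw [Units.val_mul, Units.val_mul]
    simp only [M', Matrix.mul_smul, Matrix.smul_mul, smul_smul, mul_inv_cancel₀ hl0, one_smul]
    rfl

end Cfsg.Agent.H3.UMax.Three
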