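import Cfsg.Agent.H3.UMax.NormalCubic

/-!
Self-dual normal bases of the fields of 27 and 125 elements inside the fields of degree six.
-/

set_option autoImplicit false

namespace Cfsg.Agent.H3.UMax.Normal

open Polynomial in
/-- A monic cubic without roots in the prime field has a root in a field of degree six, fixed by the cube of Frobenius. -/
theorem exists_root (q : ℕ) (hq : q.Prime) {L : Type*} [Field L] [Fintype L] (hL : Fintype.card L = q ^ 6)
    (a b c : ℕ) (hroot : ∀ x : ZMod q, x ^ 3 + (a : ZMod q) * x ^ 2 + (b : ZMod q) * x + (c : ZMod q) ≠ 0) :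
    ∃ β : L, β ^ 3 + (a : L) * β ^ 2 + (b : L) * β + (c : L) = 0 ∧ β ^ q ^ 3 = β := by
  classical
  have : Fact q.Prime := ⟨hq⟩
  have : CharP L q := charP_of_card_eq_prime_pow hL
  let _ : Algebra (ZMod q) L := ZMod.algebra L q
  let f : (ZMod q)[X] := X ^ 3 + C (a : ZMod q) * X ^ 2 + C (b : ZMod q) * X + C (c : ZMod q)
  have hdeg : f.natDegree = 3 := by simp only [f]; compute_degree!
  have hirr : Irreducible f := by
    rw [irreducible_iff_roots_eq_zero_of_degree_le_three (by omega) (by omega), Multiset.eq_zero_iff_forall_notMem]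
    intro x hx
    have hfne : f ≠ 0 := fun h => by simp [h] at hdeg
    rw [mem_roots hfne] at hx
    exact hroot x (by simpa [f] using hx)
  have := Fact.mk hirr
  have hfin : Module.finrank (ZMod q) (AdjoinRoot f) = 3 := by
    rw [(AdjoinRoot.powerBasis hirr.ne_zero).finrank, AdjoinRoot.powerBasis_dim, hdeg]
  have : Module.Finite (ZMod q) (AdjoinRoot f) := Module.Finite.of_basis (AdjoinRoot.powerBasis hirr.ne_zero).basis
  have : Finite (AdjoinRoot f) := Module.finite_of_finite (ZMod q)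
  let _ : Fintype (AdjoinRoot f) := Fintype.ofFinite _
  have hfL : Module.finrank (ZMod q) L = 6 := by
    apply Nat.pow_right_injective hq.two_le
    show q ^ _ = q ^ _
    rw [FiniteField.pow_finrank_eq_card, hL]
  obtain ⟨φ⟩ := FiniteField.nonempty_algHom_of_finrank_dvd (F := ZMod q) (K := AdjoinRoot f) (L := L)
    (by rw [hfin, hfL]; norm_num)
  refine ⟨φ (AdjoinRoot.root f), ?_, ?_⟩
  · have h := congrArg φ (AdjoinRoot.eval₂_root f)
    rw [map_zero] at h
    simpa [f] using h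
  · rw [← map_pow]
    congr 1
    have h := FiniteField.pow_card (AdjoinRoot.root f)
    rwa [Module.card_eq_pow_finrank (K := ZMod q), hfin, ZMod.card] at h

/-- The table for q = 3. -/
def table3 : Fin 3 → Fin 3 → Fin 3 → ℕ :=
  ![![![1, 1, 2], ![1, 2, 0], ![2, 0, 1]], ![![1, 2, 0], ![2, 1, 1], ![0, 1, 2]], ![![2, 0, 1], ![0, 1, 2], ![1, 2, 1]]]

lemma selfDual3 : IsSelfDual 3 table3 := by unfold IsSelfDual; decide

theorem exists_normal3 (L : Type*) [Field L] [Fintype L] (hL : Fintype.card L = 3 ^ 6) :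
    ∃ e : Fin 3 → L, IsNormal 3 table3 e := by
  obtain ⟨β, hf, hfix⟩ := exists_root 3 (by norm_num) hL (2) (0) (1) (by decide)
  have : Fact (Nat.Prime 3) := ⟨by norm_num⟩
  have : CharP L 3 := charP_of_card_eq_prime_pow hL
  have hp : (3 : L) = 0 := by exact_mod_cast CharP.cast_eq_zero L 3
  push_cast at hf
  have hQ : β ^ 3 = (2) + (1) * β ^ 2 := by
    linear_combination ((1)) * hf + ((-1) + (-1) * β ^ 2) * hp
  set e1 : L := (2) + (2) * β + (2) * β ^ 2 with he1
  set e2 : L := (2) + (1) * β ^ 2 with he2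
  have h1 : e2 ^ 3 = e1 := by
    rw [he1, he2]
    linear_combination ((-21) + (10) * β + (-2) * β ^ 2 + (1) * β ^ 3) * hf + ((9) + (-4) * β + (18) * β ^ 2) * hp
  have h25 : β ^ (3 * 3) = e1 := by rw [pow_mul, hQ, h1]
  have h3 : e1 ^ 3 = β := by rw [← h25, ← pow_mul]; exact hfix
  refine ⟨![β, e1, e2], ⟨fun i => ?_, fun i => ?_, ?_, fun i j => ?_⟩⟩
  · fin_cases i
    · simpa using h25
    · show e1 ^ (3 * 3) = e2
      rw [pow_mul, h3, hQ]
    · show e2 ^ (3 * 3) = β
      rw [pow_mul, h1, h3]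
  · fin_cases i
    · simpa using hfix
    · show e1 ^ (3 ^ 3) = e1
      rw [show (3 : ℕ) ^ 3 = 3 * (3 * 3) from rfl, pow_mul, h3, h25]
    · show e2 ^ (3 ^ 3) = e2
      rw [show (3 : ℕ) ^ 3 = (3 * 3) * 3 from rfl, pow_mul, pow_mul e2, h1, h3, hQ]
  · rw [Fin.sum_univ_three]
    show β + e1 + e2 = 1
    rw [he1, he2]
    linear_combination ((1) + (1) * β + (1) * β ^ 2) * hp
  · rw [Fin.sum_univ_three]
    fin_cases i <;> fin_cases j <;> simp [table3] <;> simp only [he1, he2]
    · linear_combination (0) * hf + ((-2) + (-1) * β + (-1) * β ^ 2) * hp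
    · linear_combination ((2)) * hf + ((-2) + (-1) * β + (-2) * β ^ 2) * hp
    · linear_combination ((1)) * hf + ((-1) + (-1) * β ^ 2) * hp
    · linear_combination ((2)) * hf + ((-2) + (-1) * β + (-2) * β ^ 2) * hp
    · linear_combination ((4) * β) * hf + ((3) * β ^ 2) * hp
    · linear_combination ((-2) + (2) * β) * hf + ((2) * β ^ 2) * hp
    · linear_combination ((1)) * hf + ((-1) + (-1) * β ^ 2) * hp
    · linear_combination ((-2) + (2) * β) * hf + ((2) * β ^ 2) * hp
    · linear_combination ((-2) + (1) * β) * hf + ((-2) * β + (1) * β ^ 2) * hp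

/-- The table for q = 5. -/
def table5 : Fin 3 → Fin 3 → Fin 3 → ℕ :=
  ![![![4, 2, 0], ![2, 0, 3], ![0, 3, 2]], ![![2, 0, 3], ![0, 4, 2], ![3, 2, 0]], ![![0, 3, 2], ![3, 2, 0], ![2, 0, 4]]]

lemma selfDual5 : IsSelfDual 5 table5 := by unfold IsSelfDual; decide

theorem exists_normal5 (L : Type*) [Field L] [Fintype L] (hL : Fintype.card L = 5 ^ 6) :
    ∃ e : Fin 3 → L, IsNormal 5 table5 e := by
  obtain ⟨β, hf, hfix⟩ := exists_root 5 (by norm_num) hL (4) (0) (4) (by decide)
  have : Fact (Nat.Prime 5) := ⟨by norm_num⟩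
  have : CharP L 5 := charP_of_card_eq_prime_pow hL
  have hp : (5 : L) = 0 := by exact_mod_cast CharP.cast_eq_zero L 5
  push_cast at hf
  have hQ : β ^ 5 = (1) + (1) * β + (2) * β ^ 2 := by
    linear_combination ((16) + (-4) * β + (1) * β ^ 2) * hf + ((-13) + (3) * β + (-14) * β ^ 2) * hp
  set e1 : L := (3) * β + (3) * β ^ 2 with he1
  set e2 : L := (1) + (1) * β + (2) * β ^ 2 with he2
  have h1 : e2 ^ 5 = e1 := by
    rw [he1, he2]
    linear_combination ((-432426) + (102373) * β + (-24231) * β ^ 2 + (5746) * β ^ 3 + (-1336) * β ^ 4 + (352) * β ^ 5 + (-48) * β ^ 6 + (32) * β ^ 7) * hf + ((345941) + (-81898) * β + (365329) * β ^ 2) * hp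
  have h25 : β ^ (5 * 5) = e1 := by rw [pow_mul, hQ, h1]
  have h3 : e1 ^ 5 = β := by rw [← h25, ← pow_mul]; exact hfix
  refine ⟨![β, e1, e2], ⟨fun i => ?_, fun i => ?_, ?_, fun i j => ?_⟩⟩
  · fin_cases i
    · simpa using h25
    · show e1 ^ (5 * 5) = e2
      rw [pow_mul, h3, hQ]
    · show e2 ^ (5 * 5) = β
      rw [pow_mul, h1, h3]
  · fin_cases i
    · simpa using hfix
    · show e1 ^ (5 ^ 3) = e1
      rw [show (5 : ℕ) ^ 3 = 5 * (5 * 5) from rfl, pow_mul, h3, h25]
    · show e2 ^ (5 ^ 3) = e2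
      rw [show (5 : ℕ) ^ 3 = (5 * 5) * 5 from rfl, pow_mul, pow_mul e2, h1, h3, hQ]
  · rw [Fin.sum_univ_three]
    show β + e1 + e2 = 1
    rw [he1, he2]
    linear_combination ((1) * β + (1) * β ^ 2) * hp
  · rw [Fin.sum_univ_three]
    fin_cases i <;> fin_cases j <;> simp [table5] <;> simp only [he1, he2]
    · linear_combination (0) * hf + ((-2) * β + (-1) * β ^ 2) * hp
    · linear_combination ((3)) * hf + ((-3) + (-1) * β + (-3) * β ^ 2) * hp
    · linear_combination ((2)) * hf + ((-2) + (-2) * β + (-4) * β ^ 2) * hp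
    · linear_combination ((3)) * hf + ((-3) + (-1) * β + (-3) * β ^ 2) * hp
    · linear_combination ((-18) + (9) * β) * hf + ((14) + (-10) * β + (13) * β ^ 2) * hp
    · linear_combination ((-15) + (6) * β) * hf + ((12) + (-6) * β + (12) * β ^ 2) * hp
    · linear_combination ((2)) * hf + ((-2) + (-2) * β + (-4) * β ^ 2) * hp
    · linear_combination ((-15) + (6) * β) * hf + ((12) + (-6) * β + (12) * β ^ 2) * hp
    · linear_combination ((-12) + (4) * β) * hf + ((9) + (-4) * β + (9) * β ^ 2) * hp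
end Cfsg.Agent.H3.UMax.Normal
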