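import Cfsg.Agent.H3.UMax.ModelNat
import Cfsg.Agent.H3.UMax.NormalTables
import Cfsg.Agent.H3.UMax.Stab

/-!
For q = 5 the normaliser in SU of dimension three of a cubic field is not maximal.
-/

set_option autoImplicit false

open scoped MatrixGroups Matrix

namespace Cfsg.Agent.H3.UMax

open Cfsg.Geo H99.Asch Normal TwentyFive Fin.NatCast

/-- The allowed norms with the square of the norm to the ground field, up to cyclic order. -/
def rows5 : List ((ℕ × ℕ × ℕ) × ℕ) :=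
  [((0, 4, 2), 1), ((4, 2, 0), 1), ((2, 0, 4), 1), ((0, 3, 3), 2), ((3, 3, 0), 2), ((3, 0, 3), 2), ((4, 4, 3), 3),
    ((4, 3, 4), 3), ((3, 4, 4), 3), ((4, 1, 1), 17), ((1, 1, 4), 17), ((1, 4, 1), 17), ((4, 1, 1), 12),
    ((1, 1, 4), 12), ((1, 4, 1), 12)]

/-- One number for a row. -/
def rowCode (p : (ℕ × ℕ × ℕ) × ℕ) : ℕ := p.1.1 + 25 * p.1.2.1 + 625 * p.1.2.2 + 15625 * p.2

lemma rows5_lt : ∀ p ∈ rows5, p.1.1 < 25 ∧ p.1.2.1 < 25 ∧ p.1.2.2 < 25 ∧ p.2 < 25 := by decide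

lemma rows5_shift : ∀ p ∈ rows5, ((p.1.2.1, p.1.2.2, p.1.1), p.2) ∈ rows5 := by decide

/-- The product in coordinate zero. -/
def m0N (a0 a1 a2 b0 b1 b2 : ℕ) : ℕ :=
  addN (addN (addN (smN 4 (mulN a0 b0)) (smN 2 (addN (mulN a0 b1) (mulN a1 b0))))
    (addN (smN 3 (addN (mulN a1 b2) (mulN a2 b1))) (smN 2 (mulN a2 b2)))) 0

/-- The norm to the ground field. -/
def nuN (a b c : ℕ) : ℕ := m0N (m0N a b c c a b) (m0N b c a a b c) (m0N c a b b c a) b c a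

/-- The code of the invariants. -/
def codeN (a b c : ℕ) : ℕ :=
  m0N a b c (p5N a) (p5N b) (p5N c) + 25 * m0N b c a (p5N b) (p5N c) (p5N a) +
    625 * m0N c a b (p5N c) (p5N a) (p5N b) + 15625 * mulN (nuN a b c) (nuN a b c)

/-- The model of the set. -/
def inN5 (a b c : ℕ) : Bool :=
  Nat.beq (addN (addN (mulN a (p5N a)) (mulN b (p5N b))) (mulN c (p5N c))) 1 &&
    (rows5.map rowCode).contains (codeN a b c)

set_option maxHeartbeats 4000000 in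
theorem inN5_act : ((List.range 25).all fun a => (List.range 25).all fun b => (List.range 25).all fun c =>
    !inN5 a b c || inN5 (negN a) (negN b) c) = true := by
  decide +kernel

theorem inN5_witness : inN5 0 0 1 = true ∧ inN5 0 2 7 = false ∧
    m0N (negN 1) 1 0 (p5N (negN 1)) (p5N 1) (p5N 0) ≠ m0N 0 1 1 (p5N 0) (p5N 1) (p5N 1) ∧
    m0N (negN 1) 1 0 (p5N (negN 1)) (p5N 1) (p5N 0) ≠ m0N 1 1 0 (p5N 1) (p5N 1) (p5N 0) ∧
    m0N (negN 1) 1 0 (p5N (negN 1)) (p5N 1) (p5N 0) ≠ m0N 1 0 1 (p5N 1) (p5N 0) (p5N 1) := by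
  decide +kernel

/-- The set: norm one, with allowed invariants. -/
def inX5 {F : Type*} [Field F] (ψ : ℕ → F) (c : Fin 3 → F) : Prop :=
  hermForm 3 F 5 c c = 1 ∧ ∃ p ∈ rows5, normT table5 5 c 0 = ψ p.1.1 ∧ normT table5 5 c 1 = ψ p.1.2.1 ∧
    normT table5 5 c 2 = ψ p.1.2.2 ∧ nuT table5 c * nuT table5 c = ψ p.2

universe u

variable {F : Type u} [Field F] [Fintype F] {q : ℕ}

set_option maxHeartbeats 1000000 in
/-- The cubic field normaliser is not maximal for q = 5. -/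
theorem field_three_not_maximal_five (hF : Fintype.card F = q ^ 2) (hq : q = 5)
    {K : Subalgebra F (Matrix (Fin 3) (Fin 3) F)} (hK : IsFieldSubalgebra 3 K)
    (hadj : IsAdjointClosedFor (hermForm 3 F q) K) {H : Subgroup (GL (Fin 3) F)}
    (hH : IsMaximalIn (suGL 3 F q) H) (hHK : H = subalgebraNormalizer K ⊓ suGL 3 F q) : False := by
  classical
  subst hq
  obtain ⟨P, hP, hshape⟩ := exists_field_frame hF Nat.prime_five (by norm_num) table5 selfDual5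
    (fun L => exists_normal5 L) hK hadj
  obtain ⟨φ, hφ, hφ0, hφ1, hφa, hφm, hφn, hφc⟩ := TwentyFive.exists_iso hF
  let ψ : ℕ → F := fun x => φ (toM x)
  have hψa : ∀ x y, ψ (addN x y) = ψ x + ψ y := fun x y => by simp only [ψ, toM_addN, hφa]
  have hψm : ∀ x y, ψ (mulN x y) = ψ x * ψ y := fun x y => by simp only [ψ, toM_mulN, hφm]
  have hψn : ∀ x, ψ (negN x) = -ψ x := fun x => by simp only [ψ, toM_negN, hφn]
  have hψs : ∀ n x, ψ (smN n x) = (n : F) * ψ x := fun n x => by simp only [ψ, toM_smN, hφm, hφc]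
  have hψ0 : ψ 0 = 0 := by simpa [ψ, toM] using hφ0
  have hψ1 : ψ 1 = 1 := by simpa [ψ, toM] using hφ1
  have hψ5 : ∀ x, ψ (p5N x) = ψ x ^ 5 := fun x => by simp only [p5N, hψm]; ring
  have hinj : ∀ {x y}, x < 25 → y < 25 → ψ x = ψ y → x = y := fun hx hy h => toM_inj_lt hx hy (hφ.1 h)
  have hm0 : ∀ a0 a1 a2 b0 b1 b2, ψ (m0N a0 a1 a2 b0 b1 b2) = 4 * (ψ a0 * ψ b0) + 2 * (ψ a0 * ψ b1 + ψ a1 * ψ b0) +
      3 * (ψ a1 * ψ b2 + ψ a2 * ψ b1) + 2 * (ψ a2 * ψ b2) := fun a0 a1 a2 b0 b1 b2 => by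
    simp only [m0N, hψa, hψs, hψm, hψ0]
    push_cast
    ring
  have hm0lt : ∀ a0 a1 a2 b0 b1 b2, m0N a0 a1 a2 b0 b1 b2 < 25 := fun _ _ _ _ _ _ => addN_lt _ _
  have hk : ∀ c d : Fin 3 → F,
      mulT table5 c d 0 = 4 * (c 0 * d 0) + 2 * (c 0 * d 1 + c 1 * d 0) + 3 * (c 1 * d 2 + c 2 * d 1) + 2 * (c 2 * d 2) ∧
      mulT table5 c d 1 = 4 * (c 1 * d 1) + 2 * (c 1 * d 2 + c 2 * d 1) + 3 * (c 2 * d 0 + c 0 * d 2) + 2 * (c 0 * d 0) ∧
      mulT table5 c d 2 = 4 * (c 2 * d 2) + 2 * (c 2 * d 0 + c 0 * d 2) + 3 * (c 0 * d 1 + c 1 * d 0) + 2 * (c 1 * d 1) := by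
    intro c d
    simp [mulT, Fin.sum_univ_three, table5]
    refine ⟨?_, ?_, ?_⟩ <;> ring
  have hnu : ∀ a b c, nuT table5 ![ψ a, ψ b, ψ c] = ψ (nuN a b c) := by
    intro a b c
    have h := hk ![ψ a, ψ b, ψ c] (fun i => (![ψ a, ψ b, ψ c] : Fin 3 → F) (i - 1))
    simp only [nuT, (hk _ _).1, h.1, h.2.1, h.2.2, nuN, hm0]
    simp
  have hmodel : ∀ a b c, inX5 ψ ![ψ a, ψ b, ψ c] ↔ inN5 a b c = true := by
    intro a b c
    have hh : hermForm 3 F 5 ![ψ a, ψ b, ψ c] ![ψ a, ψ b, ψ c] =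
        ψ (addN (addN (mulN a (p5N a)) (mulN b (p5N b))) (mulN c (p5N c))) := by
      simp only [hψa, hψm, hψ5]
      simp [hermForm, Fin.sum_univ_three]
    have hN := hk ![ψ a, ψ b, ψ c] (fun i => (![ψ a, ψ b, ψ c] : Fin 3 → F) i ^ 5)
    have n0 : normT table5 5 ![ψ a, ψ b, ψ c] 0 = ψ (m0N a b c (p5N a) (p5N b) (p5N c)) := by
      rw [normT, hN.1, hm0]; simp [hψ5]
    have n1 : normT table5 5 ![ψ a, ψ b, ψ c] 1 = ψ (m0N b c a (p5N b) (p5N c) (p5N a)) := by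
      rw [normT, hN.2.1, hm0]; simp [hψ5]
    have n2 : normT table5 5 ![ψ a, ψ b, ψ c] 2 = ψ (m0N c a b (p5N c) (p5N a) (p5N b)) := by
      rw [normT, hN.2.2, hm0]; simp [hψ5]
    simp only [inX5, inN5, hh, n0, n1, n2, hnu, ← hψm, Bool.and_eq_true, List.contains_iff_mem, List.mem_map,
      Nat.beq_eq]
    constructor
    · rintro ⟨h1, p, hp, e0, e1, e2, e3⟩
      obtain ⟨l0, l1, l2, l3⟩ := rows5_lt p hp
      refine ⟨hinj (addN_lt _ _) (by norm_num) (h1.trans hψ1.symm), p, hp, ?_⟩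
      rw [rowCode, codeN, hinj (hm0lt ..) l0 e0, hinj (hm0lt ..) l1 e1, hinj (hm0lt ..) l2 e2,
        hinj (mulN_lt ..) l3 e3]
    · rintro ⟨h1, p, hp, e⟩
      obtain ⟨l0, l1, l2, l3⟩ := rows5_lt p hp
      have m1 := hm0lt a b c (p5N a) (p5N b) (p5N c)
      have m2 := hm0lt b c a (p5N b) (p5N c) (p5N a)
      have m3 := hm0lt c a b (p5N c) (p5N a) (p5N b)
      have m4 := mulN_lt (nuN a b c) (nuN a b c)
      rw [rowCode, codeN] at e
      exact ⟨by rw [h1, hψ1], p, hp, congrArg ψ (by omega), congrArg ψ (by omega), congrArg ψ (by omega),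
        congrArg ψ (by omega)⟩
  choose r hr using hφ.2
  have hψr : ∀ x : F, ψ (ofM (r x)) = x := fun x => by simp only [ψ, (toM_ofM _).1, hr]
  have hrep : ∀ c : Fin 3 → F, c = ![ψ (ofM (r (c 0))), ψ (ofM (r (c 1))), ψ (ofM (r (c 2)))] := fun c => by
    funext i; fin_cases i <;> simp [hψr]
  have hdiag : ∀ i : Fin 3, (![-1, -1, 1] : Fin 3 → F) i ^ (5 + 1) = 1 := fun i => by
    fin_cases i <;> norm_num
  let t : GL (Fin 3) F := (H3.guDiag (q := 5) (![-1, -1, 1] : Fin 3 → F) hdiag).1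
  have htSU : t ∈ suGL 3 F 5 := by
    refine ⟨(H3.guDiag (q := 5) _ hdiag).2, mem_specialLinear_iff.2 ?_⟩
    show (Matrix.diagonal (![-1, -1, 1] : Fin 3 → F)).det = 1
    simp [Matrix.det_diagonal, Fin.prod_univ_three]
  have hact : ∀ a b c, (t : Matrix (Fin 3) (Fin 3) F) *ᵥ ![ψ a, ψ b, ψ c] = ![ψ (negN a), ψ (negN b), ψ c] := by
    intro a b c
    funext i
    show (Matrix.diagonal (![-1, -1, 1] : Fin 3 → F) *ᵥ ![ψ a, ψ b, ψ c]) i = _
    rw [Matrix.mulVec_diagonal]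
    fin_cases i <;> simp [hψn]
  have htM : t ∈ stabX 5 (inX5 ψ) := by
    refine mem_stabX_of_mapsTo htSU fun u hu => ?_
    rw [hrep u] at hu ⊢
    rw [hact, hmodel]
    have h1 := (hmodel _ _ _).1 hu
    have h2 := List.all_eq_true.1 inN5_act _ (List.mem_range.2 (toM_ofM (r (u 0))).2)
    have h3 := List.all_eq_true.1 h2 _ (List.mem_range.2 (toM_ofM (r (u 1))).2)
    have h4 := List.all_eq_true.1 h3 _ (List.mem_range.2 (toM_ofM (r (u 2))).2)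
    simpa [h1] using h4
  have hH' := conj_maximal hF hH hP
  have hmemH : ∀ g ∈ H.map (MulAut.conj P⁻¹).toMonoidHom, ∀ c : Fin 3 → F,
      nuT table5 ((g : Matrix (Fin 3) (Fin 3) F) *ᵥ c) = nuT table5 c ∧ ∃ m : Fin 3, ∀ k,
      normT table5 5 ((g : Matrix (Fin 3) (Fin 3) F) *ᵥ c) k = normT table5 5 c (k + m) := by
    rintro _ ⟨g, hg, rfl⟩ c
    show nuT table5 (((P⁻¹ * g * (P⁻¹)⁻¹ : GL (Fin 3) F) : Matrix (Fin 3) (Fin 3) F) *ᵥ c) = _ ∧ ∃ m : Fin 3, ∀ k,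
      normT table5 5 (((P⁻¹ * g * (P⁻¹)⁻¹ : GL (Fin 3) F) : Matrix (Fin 3) (Fin 3) F) *ᵥ c) k = _
    rw [inv_inv]
    exact hshape g (hHK ▸ hg) c
  have hle : H.map (MulAut.conj P⁻¹).toMonoidHom ≤ stabX 5 (inX5 ψ) := by
    intro g hg
    refine mem_stabX_of_mapsTo (hH'.1.le hg) fun u hu => ?_
    obtain ⟨h1, p, hp, e0, e1, e2, e3⟩ := hu
    obtain ⟨hν, m, hm⟩ := hmemH g hg u
    refine ⟨((hH'.1.le hg).1 u u).trans h1, ?_⟩
    rw [hν, hm, hm, hm]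
    fin_cases m
    · exact ⟨p, hp, e0, e1, e2, e3⟩
    · exact ⟨_, rows5_shift p hp, e1, e2, e0, e3⟩
    · exact ⟨_, rows5_shift _ (rows5_shift p hp), e2, e0, e1, e3⟩
  have htH : t ∉ H.map (MulAut.conj P⁻¹).toMonoidHom := by
    intro hmem
    obtain ⟨-, m, hm⟩ := hmemH t hmem ![ψ 0, ψ 1, ψ 1]
    have h := hm 1
    rw [hact] at h
    have hz : ψ (negN 0) = ψ 0 := by rw [hψn, hψ0, neg_zero]
    rw [hz] at h
    have hN1 := hk ![ψ 0, ψ (negN 1), ψ 1] (fun i => (![ψ 0, ψ (negN 1), ψ 1] : Fin 3 → F) i ^ 5)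
    have hN := hk ![ψ 0, ψ 1, ψ 1] (fun i => (![ψ 0, ψ 1, ψ 1] : Fin 3 → F) i ^ 5)
    have l0 : normT table5 5 ![ψ 0, ψ (negN 1), ψ 1] 1 = ψ (m0N (negN 1) 1 0 (p5N (negN 1)) (p5N 1) (p5N 0)) := by
      rw [normT, hN1.2.1, hm0]; simp [hψ5]
    rw [l0] at h
    obtain ⟨-, -, w0, w1, w2⟩ := inN5_witness
    fin_cases m
    · exact w1 (hinj (hm0lt ..) (hm0lt ..) (h.trans (by
        show normT table5 5 _ 1 = _
        rw [normT, hN.2.1, hm0]; simp [hψ5])))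
    · exact w2 (hinj (hm0lt ..) (hm0lt ..) (h.trans (by
        show normT table5 5 _ 2 = _
        rw [normT, hN.2.2, hm0]; simp [hψ5])))
    · exact w0 (hinj (hm0lt ..) (hm0lt ..) (h.trans (by
        show normT table5 5 _ 0 = _
        rw [normT, hN.1, hm0]; simp [hψ5])))
  refine false_of_le_stabX hF (by norm_num) hH' hle htM htH (u := ![ψ 0, ψ 0, ψ 1]) (v := ![ψ 0, ψ 2, ψ 7])
    (fun e => ?_) (fun e => ?_) ?_ ((hmodel _ _ _).2 inN5_witness.1) (fun e => ?_)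
  · have h := congrFun e 2
    simp [hψ1] at h
  · have h := congrFun e 1
    simp only [Matrix.cons_val_one, Matrix.cons_val_zero, Pi.zero_apply] at h
    exact absurd (hinj (by norm_num) (by norm_num) (h.trans hψ0.symm)) (by norm_num)
  · have e1 : ψ (addN (addN (mulN 0 (p5N 0)) (mulN 0 (p5N 0))) (mulN 1 (p5N 1))) =
        ψ (addN (addN (mulN 0 (p5N 0)) (mulN 2 (p5N 2))) (mulN 7 (p5N 7))) := congrArg ψ (by decide +kernel)
    simp only [hψa, hψm, hψ5] at e1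
    simp only [hermForm, Fin.sum_univ_three, Matrix.cons_val]
    exact e1
  · have h := (hmodel _ _ _).1 e
    rw [inN5_witness.2.1] at h
    exact Bool.false_ne_true h

end Cfsg.Agent.H3.UMax
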