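import Cfsg.Agent.H3.UMax.Nine
import Cfsg.Agent.H3.UMax.NormalTables
import Cfsg.Agent.H3.UMax.Stab

/-!
For q = 3 the normaliser in SU of dimension three of a cubic field is not maximal.
-/

set_option autoImplicit false

open scoped MatrixGroups Matrix

namespace Cfsg.Agent.H3.UMax

open Cfsg.Geo H99.Asch Normal Nine Fin.NatCast

/-! ### The field of 27 elements -/

/-- The set for q = 3: the norm has coordinates 0, 2, 2 in some order. -/
def inX3 {F : Type*} [Field F] (c : Fin 3 → F) : Prop :=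
  ∃ i : Fin 3, ∀ k, normT table3 3 c k = if k = i then 0 else 2

/-- The model of the norm. -/
def norm9 (c : Fin 3 → M9) (k : Fin 3) : M9 :=
  let t := fun i j => mul9 (mul9 ((table3 i j k : ZMod 3), 0) (c i)) (mul9 (mul9 (c j) (c j)) (c j))
  add9 (add9 (add9 (add9 (t 0 0) (t 0 1)) (add9 (t 0 2) (t 1 0))) (add9 (add9 (t 1 1) (t 1 2)) (add9 (t 2 0) (t 2 1)))) (t 2 2)

/-- The model of the set. -/
def inX9 (c : Fin 3 → M9) : Bool :=
  decide (∃ i : Fin 3, ∀ k, norm9 c k = if k = i then (0, 0) else (2, 0))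

/-- The model of the involution. -/
def t9 : Matrix (Fin 3) (Fin 3) M9 :=
  !![(1, 0), (2, 0), (2, 1); (2, 0), (1, 0), (2, 1); (2, 2), (2, 2), (0, 0)]

/-- The model of its action. -/
def act9 (c : Fin 3 → M9) (i : Fin 3) : M9 :=
  add9 (add9 (mul9 (t9 i 0) (c 0)) (mul9 (t9 i 1) (c 1))) (mul9 (t9 i 2) (c 2))

set_option maxHeartbeats 4000000 in
theorem inX9_act : ∀ a b c : M9, inX9 ![a, b, c] = true → inX9 (act9 ![a, b, c]) = true := by
  decide +kernel

theorem inX9_witness : inX9 ![(0, 0), (1, 1), (2, 2)] = true ∧ inX9 ![(0, 0), (0, 0), (1, 0)] = false ∧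
    ∀ m : Fin 3, ∃ k : Fin 3, norm9 (act9 ![(0, 0), (0, 0), (1, 0)]) k ≠ norm9 ![(0, 0), (0, 0), (1, 0)] (k + m) := by
  decide +kernel

universe u

variable {F : Type u} [Field F] [Fintype F] {q : ℕ}

set_option maxHeartbeats 1000000 in
/-- The cubic field normaliser is not maximal for q = 3. -/
theorem field_three_not_maximal_three (hF : Fintype.card F = q ^ 2) (hq : q = 3)
    {K : Subalgebra F (Matrix (Fin 3) (Fin 3) F)} (hK : IsFieldSubalgebra 3 K)
    (hadj : IsAdjointClosedFor (hermForm 3 F q) K) {H : Subgroup (GL (Fin 3) F)}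
    (hH : IsMaximalIn (suGL 3 F q) H) (hHK : H = subalgebraNormalizer K ⊓ suGL 3 F q) : False := by
  classical
  subst hq
  obtain ⟨P, hP, hshape⟩ := exists_field_frame hF Nat.prime_three (by norm_num) table3 selfDual3
    (fun L => exists_normal3 L) hK hadj
  obtain ⟨φ, hφ, hφ0, hφ1, hφa, hφm, hφn⟩ := Nine.exists_iso hF
  have h3 := three_eq_zero hF
  have hφ2 : φ (2, 0) = 2 := by
    rw [show ((2 : ZMod 3), (0 : ZMod 3)) = add9 (1, 0) (1, 0) by decide, hφa, hφ1]
    norm_num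
  have hφc : ∀ n : ℕ, φ ((n : ZMod 3), 0) = (n : F) := by
    intro n
    induction n with
    | zero => simpa using hφ0
    | succ n ih =>
      rw [Nat.cast_succ, Nat.cast_succ, ← ih, ← hφ1, ← hφa]
      congr 1
  have hnorm : ∀ (c : Fin 3 → M9) k, normT table3 3 (fun i => φ (c i)) k = φ (norm9 c k) := by
    intro c k
    simp only [normT, mulT, norm9, Fin.sum_univ_three, hφa, hφm, hφc]
    ring
  have hmodel : ∀ c : Fin 3 → M9, inX3 (fun i => φ (c i)) ↔ inX9 c = true := by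
    intro c
    simp only [inX3, inX9, decide_eq_true_eq, hnorm]
    refine exists_congr fun i => forall_congr' fun k => ?_
    rw [← hφ.1.eq_iff (b := if k = i then _ else _), apply_ite φ, hφ0, hφ2]
  let T : Matrix (Fin 3) (Fin 3) F := t9.map φ
  have hTT : T * T = 1 := by
    ext i j
    rw [Matrix.mul_apply, Fin.sum_univ_three]
    simp only [T, Matrix.map_apply, ← hφm, ← hφa, Matrix.one_apply]
    rw [← hφ0, ← hφ1, ← apply_ite φ]
    congr 1
    revert i j
    decide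
  let t : GL (Fin 3) F := ⟨T, T, hTT, hTT⟩
  have hcube : ∀ x, φ x ^ 3 = φ (mul9 (mul9 x x) x) := fun x => by rw [hφm, hφm]; ring
  have hT3 : ∀ i j, φ (t9 i j) ^ 3 = φ (t9 j i) := by
    intro i j
    rw [hcube]
    congr 1
    revert i j
    decide
  have htU : t ∈ GU 3 F 3 := by
    intro u v
    show hermForm 3 F 3 (T *ᵥ u) (T *ᵥ v) = hermForm 3 F 3 u v
    have hadd : ∀ x y : F, (x + y) ^ 3 = x ^ 3 + y ^ 3 := fun x y => by
      linear_combination (x ^ 2 * y + x * y ^ 2) * h3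
    have e : ∀ i j, (T * T) i j = (1 : Matrix (Fin 3) (Fin 3) F) i j := fun i j => by rw [hTT]
    have e00 := e 0 0
    have e01 := e 0 1
    have e02 := e 0 2
    have e10 := e 1 0
    have e11 := e 1 1
    have e12 := e 1 2
    have e20 := e 2 0
    have e21 := e 2 1
    have e22 := e 2 2
    simp [T, Matrix.mul_apply, Fin.sum_univ_three] at e00 e01 e02 e10 e11 e12 e20 e21 e22
    simp only [hermForm, Matrix.mulVec, dotProduct, Fin.sum_univ_three, hadd, mul_pow, T, Matrix.map_apply, hT3]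
    linear_combination (u 0 * v 0 ^ 3) * e00 + (u 1 * v 0 ^ 3) * e01 + (u 2 * v 0 ^ 3) * e02 +
      (u 0 * v 1 ^ 3) * e10 + (u 1 * v 1 ^ 3) * e11 + (u 2 * v 1 ^ 3) * e12 +
      (u 0 * v 2 ^ 3) * e20 + (u 1 * v 2 ^ 3) * e21 + (u 2 * v 2 ^ 3) * e22
  have htSU : t ∈ suGL 3 F 3 := by
    refine ⟨htU, mem_specialLinear_iff.2 ?_⟩
    show T.det = 1
    rw [Matrix.det_fin_three]
    simp only [T, Matrix.map_apply, ← hφm, ← hφa, sub_eq_add_neg, ← hφn]
    rw [← hφ1]
    congr 1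
  have hact : ∀ c : Fin 3 → M9, T *ᵥ (fun i => φ (c i)) = fun i => φ (act9 c i) := by
    intro c
    funext i
    simp only [T, act9, Matrix.mulVec, dotProduct, Fin.sum_univ_three, Matrix.map_apply, hφa, hφm]
  choose r hr using hφ.2
  have hrep : ∀ c : Fin 3 → F, c = fun i => φ (![r (c 0), r (c 1), r (c 2)] i) := fun c => by
    funext i; fin_cases i <;> simp [hr]
  have htM : t ∈ stabX 3 inX3 := by
    refine mem_stabX_of_mapsTo htSU fun u hu => ?_
    rw [hrep u] at hu ⊢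
    show inX3 (T *ᵥ _)
    rw [hact, hmodel]
    exact inX9_act _ _ _ ((hmodel _).1 hu)
  have hH' := conj_maximal hF hH hP
  have hmemH : ∀ g ∈ H.map (MulAut.conj P⁻¹).toMonoidHom, ∀ c : Fin 3 → F, ∃ m : Fin 3, ∀ k,
      normT table3 3 ((g : Matrix (Fin 3) (Fin 3) F) *ᵥ c) k = normT table3 3 c (k + m) := by
    rintro _ ⟨g, hg, rfl⟩ c
    obtain ⟨m, hm⟩ := (hshape g (hHK ▸ hg) c).2
    refine ⟨m, fun k => ?_⟩
    show normT table3 3 (((P⁻¹ * g * (P⁻¹)⁻¹ : GL (Fin 3) F) : Matrix (Fin 3) (Fin 3) F) *ᵥ c) k = _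
    rw [inv_inv]
    exact hm k
  have hle : H.map (MulAut.conj P⁻¹).toMonoidHom ≤ stabX 3 inX3 := by
    intro g hg
    refine mem_stabX_of_mapsTo (hH'.1.le hg) fun u hu => ?_
    obtain ⟨i, hi⟩ := hu
    obtain ⟨m, hm⟩ := hmemH g hg u
    refine ⟨i - m, fun k => ?_⟩
    rw [hm, hi]
    exact if_congr eq_sub_iff_add_eq.symm rfl rfl
  let c0 : Fin 3 → M9 := ![(0, 0), (1, 1), (2, 2)]
  let c1 : Fin 3 → M9 := ![(0, 0), (0, 0), (1, 0)]
  have htH : t ∉ H.map (MulAut.conj P⁻¹).toMonoidHom := by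
    intro hmem
    obtain ⟨m, hm⟩ := hmemH t hmem (fun i => φ (c1 i))
    obtain ⟨k, hk⟩ := inX9_witness.2.2 m
    have h := hm k
    rw [show (t : Matrix (Fin 3) (Fin 3) F) = T from rfl, hact, hnorm, hnorm] at h
    exact hk (hφ.1 h)
  refine false_of_le_stabX hF (by norm_num) hH' hle htM htH (u := fun i => φ (c0 i)) (v := fun i => φ (c1 i))
    (fun e => ?_) (fun e => ?_) ?_ ((hmodel c0).2 inX9_witness.1) (fun e => ?_)
  · have h := congrFun e 1
    rw [Pi.zero_apply, ← hφ0] at h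
    exact absurd (hφ.1 h) (by decide)
  · have h := congrFun e 2
    rw [Pi.zero_apply, ← hφ0] at h
    exact absurd (hφ.1 h) (by decide)
  · simp only [hermForm, Fin.sum_univ_three, hcube, ← hφm, ← hφa]
    congr 1
    decide
  · have h := (hmodel c1).1 e
    rw [inX9_witness.2.1] at h
    exact Bool.false_ne_true h

end Cfsg.Agent.H3.UMax
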