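import Cfsg.Agent.H3.UMax.Nine
import Cfsg.Agent.H99.Aschbacher.UnitaryLists

/-!
For q at most three the stabiliser in SU of dimension four of two totally isotropic planes lies in a subfield group
of symplectic type.
-/

set_option autoImplicit false

open scoped MatrixGroups Matrix

namespace Cfsg.Agent.H3.UMax

open Cfsg.Geo H99.Asch

variable {F : Type*} [Field F] [Fintype F] {q : ℕ}

/-- A scalar changing the sign of the conjugate. -/
lemma exists_twist (hF : Fintype.card F = q ^ 2) (hq : q ≤ 3) {μ : F} (hμ : μ * μ = 1) :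
    ∃ l : F, l ≠ 0 ∧ l ^ q = μ * l := by
  rcases mul_self_eq_one_iff.1 hμ with rfl | rfl
  · exact ⟨1, one_ne_zero, by rw [one_pow, one_mul]⟩
  · have h2 := H3.two_le_q hF
    interval_cases q
    · refine ⟨1, one_ne_zero, ?_⟩
      have h : (Fintype.card F : F) = 0 := FiniteField.cast_card_eq_zero F
      rw [hF] at h
      push_cast at h
      have h' : (2 : F) = 0 := mul_self_eq_zero.1 (by linear_combination h)
      linear_combination h'
    · obtain ⟨φ, -, hφ0, hφ1, -, hφm, hφn⟩ := Nine.exists_iso hF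
      have hj : φ (0, 1) * φ (0, 1) = -1 := by rw [← hφm, ← hφ1, ← hφn]; rfl
      refine ⟨φ (0, 1), fun e => by simp [e] at hj, ?_⟩
      linear_combination φ (0, 1) * hj

set_option maxHeartbeats 1000000 in
/-- The stabiliser of two totally isotropic planes for q at most three. -/
theorem halves_four_subfield (hF : Fintype.card F = q ^ 2) (hq : q ≤ 3)
    {V : Fin 2 → Submodule F (Fin 4 → F)} (hV : IsMDecomposition 2 V)
    (hts : ∀ i, IsTotallySingularFor (hermForm 4 F q) (V i)) :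
    ∃ (F₀ : Subfield F) (P : GL (Fin 4) F) (ζ : F), Fintype.card F = Nat.card F₀ ^ 2 ∧ ζ ≠ 0 ∧ ζ + ζ ^ q = 0 ∧
      IsFormRationalStructure (hermForm 4 F q) F₀ ζ P ∧
      (∀ u : Fin 4 → F, (∀ i, u i ∈ F₀) →
        hermForm 4 F q ((P : Matrix (Fin 4) (Fin 4) F) *ᵥ u) ((P : Matrix (Fin 4) (Fin 4) F) *ᵥ u) = 0) ∧
      decompositionStabilizer V ⊓ suGL 4 F q ≤ subfieldSubgroup F₀ P := by
  classical
  have hq2 := H3.two_le_q hF
  have hqp : q.Prime := by interval_cases q <;> norm_num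
  have hpp : ∀ a : F, (a ^ q) ^ q = a := fun a => H3.pow_q_pow_q hF a
  have : Fact q.Prime := ⟨hqp⟩
  have hchar : CharP F q := charP_of_card_eq_prime_pow hF
  have hadd : ∀ a b : F, (a + b) ^ q = a ^ q + b ^ q := fun a b => add_pow_char _ _ _
  have hsub : ∀ a b : F, (a - b) ^ q = a ^ q - b ^ q := fun a b => sub_pow_char _ _
  have hneg : ∀ a : F, (-a) ^ q = -a ^ q := fun a => by
    rw [← zero_sub, hsub, zero_pow hqp.ne_zero, zero_sub]
  have htop : ∀ v, ∃ a ∈ V 0, ∃ b ∈ V 1, a + b = v := by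
    intro v
    have h : v ∈ V 0 ⊔ V 1 := by
      have : iSup V = V 0 ⊔ V 1 := le_antisymm (iSup_le fun i => by
        fin_cases i
        exacts [le_sup_left, le_sup_right]) (sup_le (le_iSup V 0) (le_iSup V 1))
      rw [← this, hV.iSup_eq_top]
      exact Submodule.mem_top
    exact Submodule.mem_sup.1 h
  obtain ⟨bw⟩ : Nonempty (Module.Basis (Fin 2) F (V 0)) := ⟨Module.finBasisOfFinrankEq F _ (hV.finrank_eq 0)⟩
  set w₁ : Fin 4 → F := ((bw 0 : V 0) : Fin 4 → F)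
  set w₂ : Fin 4 → F := ((bw 1 : V 0) : Fin 4 → F)
  have hw0 : ∀ x ∈ V 0, ∃ a b : F, x = a • w₁ + b • w₂ := by
    intro x hx
    refine ⟨bw.repr ⟨x, hx⟩ 0, bw.repr ⟨x, hx⟩ 1, ?_⟩
    have h := congrArg Subtype.val (bw.sum_repr ⟨x, hx⟩).symm
    rw [Fin.sum_univ_two, Submodule.coe_add, Submodule.coe_smul, Submodule.coe_smul] at h
    exact h
  have hinjz : ∀ z ∈ V 1, hermForm 4 F q w₁ z = 0 → hermForm 4 F q w₂ z = 0 → z = 0 := by
    intro z hz h1 h2
    by_contra hz0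
    obtain ⟨x, hx⟩ := H3.exists_hermForm_eq_one hF hz0
    obtain ⟨a, ha, b, hb, rfl⟩ := htop x
    obtain ⟨c, d, rfl⟩ := hw0 a ha
    have h1' := (H3.hermForm_eq_zero_comm hF).1 h1
    have h2' := (H3.hermForm_eq_zero_comm hF).1 h2
    simp only [H3.hermForm_add_left hF, H3.hermForm_add_right hF, H3.hermForm_smul_left hF,
      H3.hermForm_smul_right hF, h1, h2, h1', h2', hts 1 b hb z hz, hts 1 z hz b hb, mul_zero, add_zero] at hx
    exact zero_ne_one hx
  let pr : V 1 → Fin 2 → F := fun z => ![hermForm 4 F q w₁ z, hermForm 4 F q w₂ z]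
  have hpr : Function.Bijective pr := by
    rw [Fintype.bijective_iff_injective_and_card]
    refine ⟨fun z z' e => ?_, ?_⟩
    · have e0 : hermForm 4 F q w₁ z = hermForm 4 F q w₁ z' := congrFun e 0
      have e1 : hermForm 4 F q w₂ z = hermForm 4 F q w₂ z' := congrFun e 1
      refine Subtype.ext (sub_eq_zero.1 (hinjz _ ((V 1).sub_mem z.2 z'.2) ?_ ?_))
      · rw [H3.hermForm_sub_right hF, e0, sub_self]
      · rw [H3.hermForm_sub_right hF, e1, sub_self]
    · rw [Module.card_eq_pow_finrank (K := F), hV.finrank_eq, Fintype.card_fun, Fintype.card_fin]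
  obtain ⟨⟨z₁, hz₁⟩, hz₁p⟩ := hpr.2 ![1, 0]
  obtain ⟨⟨z₂, hz₂⟩, hz₂p⟩ := hpr.2 ![0, 1]
  have hw₁ : w₁ ∈ V 0 := (bw 0).2
  have hw₂ : w₂ ∈ V 0 := (bw 1).2
  have e11 : hermForm 4 F q w₁ z₁ = 1 := congrFun hz₁p 0
  have e21 : hermForm 4 F q w₂ z₁ = 0 := congrFun hz₁p 1
  have e12 : hermForm 4 F q w₁ z₂ = 0 := congrFun hz₂p 0
  have e22 : hermForm 4 F q w₂ z₂ = 1 := congrFun hz₂p 1
  have d11 : hermForm 4 F q z₁ w₁ = 1 := by rw [← H3.hermForm_pow_q hF, e11, one_pow]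
  have d12 : hermForm 4 F q z₁ w₂ = 0 := (H3.hermForm_eq_zero_comm hF).1 e21
  have d21 : hermForm 4 F q z₂ w₁ = 0 := (H3.hermForm_eq_zero_comm hF).1 e12
  have d22 : hermForm 4 F q z₂ w₂ = 1 := by rw [← H3.hermForm_pow_q hF, e22, one_pow]
  have hww : ∀ x ∈ V 0, ∀ y ∈ V 0, hermForm 4 F q x y = 0 := hts 0
  have hzz : ∀ x ∈ V 1, ∀ y ∈ V 1, hermForm 4 F q x y = 0 := hts 1
  have hw1 : ∀ z ∈ V 1, ∃ a b : F, z = a • z₁ + b • z₂ := by
    intro z hz
    refine ⟨hermForm 4 F q w₁ z ^ q, hermForm 4 F q w₂ z ^ q, sub_eq_zero.1 (hinjz _ ((V 1).sub_mem hz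
      ((V 1).add_mem ((V 1).smul_mem _ hz₁) ((V 1).smul_mem _ hz₂))) ?_ ?_)⟩ <;>
      simp [H3.hermForm_sub_right hF, H3.hermForm_add_right hF, H3.hermForm_smul_right hF, e11, e12, e21, e22, hpp]
  -- the frame
  let Q : (Fin 4 → F) → (Fin 4 → F) := fun c => c 0 • w₁ + c 1 • w₂ + c 2 • z₁ + c 3 • z₂
  have hQf : ∀ c d, hermForm 4 F q (Q c) (Q d) = c 0 * d 2 ^ q + c 1 * d 3 ^ q + c 2 * d 0 ^ q + c 3 * d 1 ^ q := by
    intro c d
    simp only [Q, H3.hermForm_add_left hF, H3.hermForm_add_right hF, H3.hermForm_smul_left hF,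
      H3.hermForm_smul_right hF, e11, e12, e21, e22, d11, d12, d21, d22, hww _ hw₁ _ hw₁, hww _ hw₁ _ hw₂,
      hww _ hw₂ _ hw₁, hww _ hw₂ _ hw₂, hzz _ hz₁ _ hz₁, hzz _ hz₁ _ hz₂, hzz _ hz₂ _ hz₁, hzz _ hz₂ _ hz₂]
    ring
  have hQinj : Function.Injective Q := by
    intro c d e
    have h0 : ∀ i, hermForm 4 F q (Q c) (Q (Pi.single i 1)) = hermForm 4 F q (Q d) (Q (Pi.single i 1)) := fun i => by
      rw [e]
    have h1 := h0 0
    have h2 := h0 1
    have h3 := h0 2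
    have h4 := h0 3
    simp [hQf, zero_pow hqp.ne_zero] at h1 h2 h3 h4
    funext i
    fin_cases i <;> assumption
  let Qm : Matrix (Fin 4) (Fin 4) F := Matrix.of fun i k => (![w₁, w₂, z₁, z₂] k) i
  have hQm : ∀ c, Qm *ᵥ c = Q c := fun c => by
    funext i
    simp [Qm, Q, Matrix.mulVec, dotProduct, Fin.sum_univ_four]
    ring
  have hQdet : Qm.det ≠ 0 := by
    rw [← isUnit_iff_ne_zero, ← Matrix.isUnit_iff_isUnit_det, ← Matrix.mulVec_injective_iff_isUnit]
    intro c d e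
    rw [hQm, hQm] at e
    exact hQinj e
  -- the rational vectors
  let Φ : F → F → (Fin 4 → F) := fun s t => Q ![s, t, t ^ q, -s ^ q]
  have hΦ : ∀ s t s' t', hermForm 4 F q (Φ s t) (Φ s' t') = (s * t' - t * s') - (s * t' - t * s') ^ q := by
    intro s t s' t'
    rw [hQf]
    simp [hpp, hneg, hsub, mul_pow]
    ring
  obtain ⟨θ, hθ⟩ := H3.exists_conj_ne hF
  have hθ' : θ ^ q ≠ θ := by rwa [← H3.conjQ_apply hF]
  obtain ⟨F₀, hF₀⟩ : ∃ F₀ : Subfield F, Nat.card F₀ = q := by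
    obtain ⟨F₀, h⟩ := exists_subfield (F := F) (p := q) (e := 2) (d := 1) hF (one_dvd 2)
    exact ⟨F₀, by rw [h, pow_one]⟩
  have hF₀m : ∀ a, a ∈ F₀ ↔ a ^ q = a := fun a => by rw [mem_subfield_iff, hF₀]
  let Pm : Matrix (Fin 4) (Fin 4) F := Matrix.of fun i k => (![Φ 1 0, Φ θ 0, Φ 0 1, Φ 0 θ] k) i
  have hPm : ∀ u, Pm *ᵥ u =
      Q ![u 0 + θ * u 1, u 2 + θ * u 3, u 2 + θ ^ q * u 3, -(u 0 + θ ^ q * u 1)] := fun u => by
    funext i
    simp [Pm, Φ, Q, Matrix.mulVec, dotProduct, Fin.sum_univ_four, zero_pow hqp.ne_zero]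
    ring
  have hPrat : ∀ u : Fin 4 → F, (∀ i, u i ∈ F₀) → Pm *ᵥ u = Φ (u 0 + θ * u 1) (u 2 + θ * u 3) := fun u hu => by
    rw [hPm]
    simp only [Φ, hadd, mul_pow, (hF₀m _).1 (hu _)]
  have hPu : IsUnit Pm := by
    rw [← Matrix.mulVec_injective_iff_isUnit]
    intro u v e
    rw [hPm, hPm] at e
    have e' := hQinj e
    have a0 := congrFun e' 0
    have a1 := congrFun e' 1
    have a2 := congrFun e' 2
    have a3 := congrFun e' 3
    simp at a0 a1 a2 a3
    have hd : θ - θ ^ q ≠ 0 := sub_ne_zero.2 hθ'.symm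
    have b1 : u 1 = v 1 := mul_left_cancel₀ hd (by linear_combination a0 + a3)
    have b3 : u 3 = v 3 := mul_left_cancel₀ hd (by linear_combination a1 - a2)
    have b0 : u 0 = v 0 := by linear_combination a0 - θ * b1
    have b2 : u 2 = v 2 := by linear_combination a1 - θ * b3
    funext i
    fin_cases i <;> assumption
  obtain ⟨P, hP⟩ := hPu
  obtain ⟨ζ, hζ0, hζ⟩ : ∃ ζ : F, ζ ≠ 0 ∧ ζ + ζ ^ q = 0 := by
    refine ⟨θ - θ ^ q, sub_ne_zero.2 hθ'.symm, ?_⟩
    rw [hsub, hpp]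
    ring
  have hcomb : ∀ s, ∃ x ∈ F₀, ∃ y ∈ F₀, x + θ * y = s := by
    intro s
    have hd : θ - θ ^ q ≠ 0 := sub_ne_zero.2 hθ'.symm
    have hy : ((s - s ^ q) / (θ - θ ^ q)) ^ q = (s - s ^ q) / (θ - θ ^ q) := by
      rw [div_pow, hsub, hsub, hpp, hpp, ← neg_sub, ← neg_sub θ, neg_div_neg_eq]
    refine ⟨s - θ * ((s - s ^ q) / (θ - θ ^ q)), (hF₀m _).2 ?_, _, (hF₀m _).2 hy, by ring⟩
    rw [hsub, mul_pow, hy]
    field_simp
    ring
  refine ⟨F₀, P, ζ, by rw [hF₀, hF], hζ0, hζ, ?_, ?_, ?_⟩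
  · intro u v hu hv
    rw [hP, hPrat u hu, hPrat v hv, hΦ, hF₀m, mul_pow, hsub, hpp]
    set D := (u 0 + θ * u 1) * (v 2 + θ * v 3) - (u 2 + θ * u 3) * (v 0 + θ * v 1)
    linear_combination (D ^ q - D) * hζ
  · intro u hu
    rw [hP, hPrat u hu, hΦ]
    simp [mul_comm (u 0 + θ * u 1), zero_pow hqp.ne_zero]
  rintro g ⟨⟨π, hπ⟩, hgSU⟩
  set G := (g : Matrix (Fin 4) (Fin 4) F) with hG
  have hgf : ∀ x y, hermForm 4 F q (G *ᵥ x) (G *ᵥ y) = hermForm 4 F q x y := hgSU.1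
  have himg : ∀ i, ∀ x ∈ V i, G *ᵥ x ∈ V (π i) := fun i x hx => by rw [← hπ i]; exact ⟨x, hx, rfl⟩
  have hdet : G.det = 1 := mem_specialLinear_iff.1 hgSU.2
  -- the common shape: a scalar times a rational map
  have key : ∃ l : F, l ≠ 0 ∧ ∀ s t, ∃ s' t', G *ᵥ Φ s t = l • Φ s' t' := by
    have hG4 : ∀ c, G *ᵥ Q c = c 0 • (G *ᵥ w₁) + c 1 • (G *ᵥ w₂) + c 2 • (G *ᵥ z₁) + c 3 • (G *ᵥ z₂) := fun c => by
      simp only [Q, Matrix.mulVec_add, Matrix.mulVec_smul]
    have hfr : ∀ N : Matrix (Fin 4) (Fin 4) F, (∀ c, G *ᵥ Q c = Q (N *ᵥ c)) → N.det = 1 := by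
      intro N hN
      have h : G * Qm = Qm * N := Matrix.ext_of_mulVec_single fun i => by
        rw [← Matrix.mulVec_mulVec, ← Matrix.mulVec_mulVec, hQm, hQm, hN]
      have h' := congrArg Matrix.det h
      rw [Matrix.det_mul, Matrix.det_mul, hdet, one_mul] at h'
      exact (mul_right_eq_self₀.1 h'.symm).resolve_right hQdet
    have hsq : ∀ δ : F, δ ≠ 0 → δ ^ q = δ → δ * δ = 1 := by
      intro δ hδ hδq
      interval_cases q
      · have : δ = 1 := mul_left_cancel₀ hδ (by rw [mul_one, ← sq, hδq])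
        rw [this, one_mul]
      · exact mul_left_cancel₀ hδ (by linear_combination hδq)
    by_cases hπ0 : π 0 = 0
    · have hπ1 : π 1 = 1 := by
        by_contra h
        have : π 1 = π 0 := by omega
        exact absurd (π.injective this) (by decide)
      obtain ⟨a, c, ha⟩ := hw0 _ (hπ0 ▸ himg 0 _ hw₁)
      obtain ⟨b, d, hb⟩ := hw0 _ (hπ0 ▸ himg 0 _ hw₂)
      obtain ⟨x₁, y₁, hx⟩ := hw1 _ (hπ1 ▸ himg 1 _ hz₁)
      obtain ⟨x₂, y₂, hy⟩ := hw1 _ (hπ1 ▸ himg 1 _ hz₂)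
      have q1 := hgf w₁ z₁
      have q2 := hgf w₁ z₂
      have q3 := hgf w₂ z₁
      have q4 := hgf w₂ z₂
      simp [ha, hb, hx, hy, H3.hermForm_add_left hF, H3.hermForm_add_right hF, H3.hermForm_smul_left hF,
        H3.hermForm_smul_right hF, e11, e12, e21, e22] at q1 q2 q3 q4
      set δ := a * d - b * c with hδdef
      have hN : ∀ u, G *ᵥ Q u = Q ((!![a, b, 0, 0; c, d, 0, 0; 0, 0, x₁, x₂; 0, 0, y₁, y₂] :
          Matrix (Fin 4) (Fin 4) F) *ᵥ u) := fun u => by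
        rw [hG4, ha, hb, hx, hy]
        simp [Q, Matrix.mulVec, dotProduct, Fin.sum_univ_four]
        module
      have h1 : δ * (x₁ * y₂ - x₂ * y₁) = 1 := by
        have h := hfr _ hN
        simp [Matrix.det_succ_row_zero, Fin.sum_univ_succ, Fin.succAbove] at h
        linear_combination h
      have hδ : δ ≠ 0 := left_ne_zero_of_mul (h1 ▸ one_ne_zero)
      have X1 : δ * x₁ ^ q = d := by linear_combination d * q1 - c * q3
      have Y1 : δ * y₁ ^ q = -b := by linear_combination a * q3 - b * q1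
      have X2 : δ * x₂ ^ q = -c := by linear_combination d * q2 - c * q4
      have Y2 : δ * y₂ ^ q = a := by linear_combination a * q4 - b * q2
      have hδq : δ ^ q = δ := by
        have h := congrArg (· ^ q) h1
        simp only [mul_pow, hsub, one_pow] at h
        calc δ ^ q = δ ^ q * (x₁ ^ q * y₂ ^ q - x₂ ^ q * y₁ ^ q) * δ := by
              have h2 : δ * δ * (x₁ ^ q * y₂ ^ q - x₂ ^ q * y₁ ^ q) = δ := by
                linear_combination (δ * y₂ ^ q) * X1 + d * Y2 - (δ * y₁ ^ q) * X2 + c * Y1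
              apply mul_left_cancel₀ hδ
              linear_combination -δ ^ q * h2
          _ = δ := by rw [h, one_mul]
      have conjE : ∀ x A : F, δ * x ^ q = A → δ * x = A ^ q := fun x A e => by
        rw [← e, mul_pow, hδq, hpp]
      have X1' := conjE _ _ X1
      have Y1' := conjE _ _ Y1
      have X2' := conjE _ _ X2
      have Y2' := conjE _ _ Y2
      rw [hneg] at Y1' X2'
      obtain ⟨l, hl0, hl⟩ := exists_twist hF hq (hsq δ hδ hδq)
      refine ⟨l, hl0, fun s t => ⟨(a * s + b * t) / l, (c * s + d * t) / l, ?_⟩⟩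
      have hb2 : ∀ A : F, (A / l) ^ q * l = A ^ q / δ := fun A => by
        rw [div_pow, hl]; field_simp
      show G *ᵥ Q ![s, t, t ^ q, -s ^ q] = _
      rw [hN]
      have hz1c : x₁ * t ^ q + x₂ * -s ^ q = ((c * s + d * t) / l) ^ q * l := by
        rw [hb2, eq_div_iff hδ, hadd, mul_pow, mul_pow]
        linear_combination (t ^ q) * X1' - (s ^ q) * X2'
      have hz2c : y₁ * t ^ q + y₂ * -s ^ q = -(((a * s + b * t) / l) ^ q * l) := by
        rw [hb2, ← neg_div, eq_div_iff hδ, hadd, mul_pow, mul_pow]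
        linear_combination (t ^ q) * Y1' - (s ^ q) * Y2'
      simp [Φ, Q, Matrix.mulVec, dotProduct, Fin.sum_univ_four, smul_smul, mul_div_cancel₀ _ hl0]
      linear_combination (norm := module) congrArg (· • z₁) hz1c + congrArg (· • z₂) hz2c
    · have hπ0' : π 0 = 1 := by omega
      have hπ1 : π 1 = 0 := by
        by_contra h
        have : π 1 = π 0 := by omega
        exact absurd (π.injective this) (by decide)
      obtain ⟨a, c, ha⟩ := hw1 _ (hπ0' ▸ himg 0 _ hw₁)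
      obtain ⟨b, d, hb⟩ := hw1 _ (hπ0' ▸ himg 0 _ hw₂)
      obtain ⟨x₁, y₁, hx⟩ := hw0 _ (hπ1 ▸ himg 1 _ hz₁)
      obtain ⟨x₂, y₂, hy⟩ := hw0 _ (hπ1 ▸ himg 1 _ hz₂)
      have q1 := hgf z₁ w₁
      have q2 := hgf z₂ w₁
      have q3 := hgf z₁ w₂
      have q4 := hgf z₂ w₂
      simp [ha, hb, hx, hy, H3.hermForm_add_left hF, H3.hermForm_add_right hF, H3.hermForm_smul_left hF,
        H3.hermForm_smul_right hF, e11, e12, e21, e22, d11, d12, d21, d22] at q1 q2 q3 q4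
      set δ := a * d - b * c with hδdef
      have hN : ∀ u, G *ᵥ Q u = Q ((!![0, 0, x₁, x₂; 0, 0, y₁, y₂; a, b, 0, 0; c, d, 0, 0] :
          Matrix (Fin 4) (Fin 4) F) *ᵥ u) := fun u => by
        rw [hG4, ha, hb, hx, hy]
        simp [Q, Matrix.mulVec, dotProduct, Fin.sum_univ_four]
        module
      have h1 : δ * (x₁ * y₂ - x₂ * y₁) = 1 := by
        have h := hfr _ hN
        simp [Matrix.det_succ_row_zero, Fin.sum_univ_succ, Fin.succAbove] at h
        linear_combination h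
      have hδ : δ ≠ 0 := left_ne_zero_of_mul (h1 ▸ one_ne_zero)
      have hδ' : δ ^ q = a ^ q * d ^ q - b ^ q * c ^ q := by rw [hδdef, hsub, mul_pow, mul_pow]
      have X1 : δ ^ q * x₁ = d ^ q := by rw [hδ']; linear_combination d ^ q * q1 - c ^ q * q3
      have Y1 : δ ^ q * y₁ = -b ^ q := by rw [hδ']; linear_combination a ^ q * q3 - b ^ q * q1
      have X2 : δ ^ q * x₂ = -c ^ q := by rw [hδ']; linear_combination d ^ q * q2 - c ^ q * q4
      have Y2 : δ ^ q * y₂ = a ^ q := by rw [hδ']; linear_combination a ^ q * q4 - b ^ q * q2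
      have hδq : δ ^ q = δ := by
        have h2 : δ ^ q * δ ^ q * (x₁ * y₂ - x₂ * y₁) = δ ^ q := by
          rw [show δ ^ q * δ ^ q * (x₁ * y₂ - x₂ * y₁) =
            (δ ^ q * x₁) * (δ ^ q * y₂) - (δ ^ q * x₂) * (δ ^ q * y₁) by ring, X1, Y2, X2, Y1, hδ']
          ring
        apply mul_left_cancel₀ (pow_ne_zero q hδ)
        linear_combination δ * h2 - δ ^ q * δ ^ q * h1
      rw [hδq] at X1 Y1 X2 Y2
      have hδδ := hsq δ hδ hδq
      obtain ⟨l, hl0, hl⟩ := exists_twist hF hq (μ := -δ) (by linear_combination hδδ)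
      refine ⟨l, hl0, fun s t => ⟨(c * s + d * t) ^ q / δ / l, -(a * s + b * t) ^ q / δ / l, ?_⟩⟩
      show G *ᵥ Q ![s, t, t ^ q, -s ^ q] = _
      rw [hN]
      have hw1c : x₁ * t ^ q + x₂ * -s ^ q = (c * s + d * t) ^ q / δ := by
        rw [eq_div_iff hδ, hadd, mul_pow, mul_pow]
        linear_combination (t ^ q) * X1 - (s ^ q) * X2
      have hw2c : y₁ * t ^ q + y₂ * -s ^ q = -(a * s + b * t) ^ q / δ := by
        rw [eq_div_iff hδ, hadd, mul_pow, mul_pow]
        linear_combination (t ^ q) * Y1 - (s ^ q) * Y2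
      have hback : ∀ A : F, ((A ^ q) / δ / l) ^ q * l = -A := fun A => by
        rw [div_pow, div_pow, hpp, hδq, hl]
        field_simp
        linear_combination A * hδδ
      have hz1c : ((-(a * s + b * t) ^ q / δ / l) ^ q) * l = a * s + b * t := by
        rw [neg_div, neg_div, hneg, neg_mul, hback, neg_neg]
      have hz2c : ((c * s + d * t) ^ q / δ / l) ^ q * l = -(c * s + d * t) := hback _
      simp [Φ, Q, Matrix.mulVec, dotProduct, Fin.sum_univ_four, smul_smul, mul_div_cancel₀ _ hl0]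
      linear_combination (norm := module) congrArg (· • w₁) hw1c + congrArg (· • w₂) hw2c
        - congrArg (· • z₁) hz1c + congrArg (· • z₂) hz2c
  obtain ⟨l, hl0, hl⟩ := key
  let M : Matrix (Fin 4) (Fin 4) F := ((P⁻¹ : GL (Fin 4) F) : Matrix (Fin 4) (Fin 4) F) * (l⁻¹ • G) * P
  refine mem_subfieldSubgroup_of_entries F₀ P g (c := l) (M := M) hl0 (fun i k => ?_) ?_
  · have hz : ∀ m, (Pi.single k (1 : F) : Fin 4 → F) m ∈ F₀ := fun m => by
      by_cases hm : m = k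
      · subst hm; rw [Pi.single_eq_same]; exact F₀.one_mem
      · rw [Pi.single_eq_of_ne hm]; exact F₀.zero_mem
    obtain ⟨s', t', he⟩ := hl _ _ |> fun h => (h : ∃ s' t', G *ᵥ Φ
      ((Pi.single k (1 : F) : Fin 4 → F) 0 + θ * (Pi.single k (1 : F) : Fin 4 → F) 1)
      ((Pi.single k (1 : F) : Fin 4 → F) 2 + θ * (Pi.single k (1 : F) : Fin 4 → F) 3) = l • Φ s' t')
    obtain ⟨x, hx, y, hy, rfl⟩ := hcomb s'
    obtain ⟨x', hx', y', hy', rfl⟩ := hcomb t'
    let u : Fin 4 → F := ![x, y, x', y']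
    have hu : ∀ m, u m ∈ F₀ := fun m => by fin_cases m <;> assumption
    have hPM : (P : Matrix (Fin 4) (Fin 4) F) *ᵥ (M *ᵥ Pi.single k 1) = (P : Matrix (Fin 4) (Fin 4) F) *ᵥ u := by
      conv_lhs => simp only [M, Matrix.mulVec_mulVec, ← mul_assoc, Units.mul_inv, one_mul]
      rw [← Matrix.mulVec_mulVec, Matrix.smul_mulVec, hP, hPrat _ hz, he, smul_smul, inv_mul_cancel₀ hl0, one_smul,
        hPrat _ hu]
      rfl
    have := congrFun (Matrix.mulVec_injective_of_isUnit (Units.isUnit P) hPM) i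
    rw [Matrix.mulVec_single_one, Matrix.col_apply] at this
    rw [this]; exact hu i
  · rw [Units.val_mul, Units.val_mul]
    simp only [M, G, Matrix.mul_smul, Matrix.smul_mul, smul_smul, mul_inv_cancel₀ hl0, one_smul]

end Cfsg.Agent.H3.UMax
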