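import Cfsg.Agent.H3.UMax.TwentyFive

/-!
The field of twenty-five elements on natural numbers below twenty-five, for kernel computation.
-/

set_option autoImplicit false

namespace Cfsg.Agent.H3.UMax.TwentyFive

/-- Addition on codes. -/
def addN (x y : ℕ) : ℕ := (x % 5 + y % 5) % 5 + 5 * ((x / 5 + y / 5) % 5)

/-- Multiplication on codes. -/
def mulN (x y : ℕ) : ℕ :=
  (x % 5 * (y % 5) + 2 * (x / 5) * (y / 5)) % 5 + 5 * ((x % 5 * (y / 5) + x / 5 * (y % 5)) % 5)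

/-- Negation on codes. -/
def negN (x : ℕ) : ℕ := (5 - x % 5) % 5 + 5 * ((5 - x / 5 % 5) % 5)

/-- Fifth power on codes. -/
def p5N (x : ℕ) : ℕ := mulN (mulN (mulN x x) (mulN x x)) x

/-- A natural multiple on codes. -/
def smN (n x : ℕ) : ℕ := n * (x % 5) % 5 + 5 * (n * (x / 5) % 5)

/-- The element with a given code. -/
def toM (x : ℕ) : M25 := ((x : ZMod 5), ((x / 5 : ℕ) : ZMod 5))

lemma code_mod (a b : ℕ) : (a % 5 + 5 * (b % 5)) % 5 = a % 5 ∧ (a % 5 + 5 * (b % 5)) / 5 = b % 5 := by omega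

lemma toM_mk (a b : ℕ) : toM (a % 5 + 5 * (b % 5)) = ((a : ZMod 5), (b : ZMod 5)) := by
  refine Prod.ext ?_ ?_
  · show ((a % 5 + 5 * (b % 5) : ℕ) : ZMod 5) = a
    rw [← ZMod.natCast_mod, (code_mod a b).1, ZMod.natCast_mod]
  · show (((a % 5 + 5 * (b % 5)) / 5 : ℕ) : ZMod 5) = b
    rw [(code_mod a b).2, ZMod.natCast_mod]

lemma addN_lt (x y : ℕ) : addN x y < 25 := by unfold addN; omega
lemma mulN_lt (x y : ℕ) : mulN x y < 25 := by
  have : ∀ a b : ℕ, a % 5 + 5 * (b % 5) < 25 := fun a b => by omega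
  exact this _ _

lemma toM_addN (x y : ℕ) : toM (addN x y) = add25 (toM x) (toM y) := by
  rw [addN, toM_mk]
  simp [toM, add25, ZMod.natCast_mod]

lemma toM_mulN (x y : ℕ) : toM (mulN x y) = mul25 (toM x) (toM y) := by
  rw [mulN, toM_mk]
  simp [toM, mul25, ZMod.natCast_mod, mul_assoc]

lemma toM_negN (x : ℕ) : toM (negN x) = neg25 (toM x) := by
  rw [negN, toM_mk]
  have h : ∀ z : ℕ, ((5 - z % 5 : ℕ) : ZMod 5) = -(z : ZMod 5) := fun z => by
    rw [Nat.cast_sub (by omega), ZMod.natCast_mod, ZMod.natCast_self, zero_sub]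
  simp [toM, neg25, h]

lemma toM_smN (n x : ℕ) : toM (smN n x) = mul25 ((n : ZMod 5), 0) (toM x) := by
  rw [smN, toM_mk]
  simp [toM, mul25, ZMod.natCast_mod]

/-- The code of an element. -/
def ofM (z : M25) : ℕ := z.1.val + 5 * z.2.val

lemma toM_ofM : ∀ z : M25, toM (ofM z) = z ∧ ofM z < 25 := by decide +kernel

lemma toM_inj_lt {x y : ℕ} (hx : x < 25) (hy : y < 25) (h : toM x = toM y) : x = y := by
  have h1 := (ZMod.natCast_eq_natCast_iff' x y 5).1 (congrArg Prod.fst h)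
  have h2 := (ZMod.natCast_eq_natCast_iff' (x / 5) (y / 5) 5).1 (congrArg Prod.snd h)
  omega

end Cfsg.Agent.H3.UMax.TwentyFive
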