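import Cfsg.Agent.H3.UMax.Nine
import Cfsg.Agent.H99.Aschbacher.UnitaryLists

/-!
For q = 3 the monomial subgroup of SU of dimension four is not maximal: it preserves a set of 240 vectors of norm
one which is also preserved by a Hadamard matrix.
-/

set_option autoImplicit false

open scoped MatrixGroups Matrix

namespace Cfsg.Agent.H3.UMax.Nine

open Cfsg.Geo H99.Asch

/-- The 240 vectors. -/
def inZ {F : Type*} [Field F] [DecidableEq F] (c : Fin 4 → F) : Prop :=
  ∑ i, c i * c i * (c i * c i) = 1 ∧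
    ((Finset.univ.filter fun i => c i ≠ 0).card ≤ 2 ∨ c 0 * c 1 * c 2 * c 3 * (c 0 * c 1 * c 2 * c 3) = 1)

/-- The model of `inZ`. -/
def inZ9 (c : Fin 4 → M9) : Bool :=
  let q := fun x => mul9 (mul9 x x) (mul9 x x)
  let p := mul9 (mul9 (mul9 (c 0) (c 1)) (c 2)) (c 3)
  decide (add9 (add9 (add9 (q (c 0)) (q (c 1))) (q (c 2))) (q (c 3)) = (1, 0)) &&
    (decide ((Finset.univ.filter fun i => c i ≠ (0, 0)).card ≤ 2) || decide (mul9 p p = (1, 0)))

/-- The Hadamard map. -/
def had9 (c : Fin 4 → M9) : Fin 4 → M9 :=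
  ![add9 (add9 (add9 (c 0) (c 1)) (c 2)) (c 3), add9 (add9 (add9 (c 0) (neg9 (c 1))) (c 2)) (neg9 (c 3)),
    add9 (add9 (add9 (c 0) (c 1)) (neg9 (c 2))) (neg9 (c 3)), add9 (add9 (add9 (c 0) (neg9 (c 1))) (neg9 (c 2))) (c 3)]

set_option maxHeartbeats 4000000 in
theorem inZ9_had : ∀ a b c d : M9, inZ9 (had9 ![a, b, c, d]) = inZ9 ![a, b, c, d] := by
  decide +kernel

/-- The Hadamard matrix. -/
def hadMat (F : Type*) [Field F] : Matrix (Fin 4) (Fin 4) F :=
  !![1, 1, 1, 1; 1, -1, 1, -1; 1, 1, -1, -1; 1, -1, -1, 1]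

/-- The monomial subgroup is not maximal in SU of dimension four for q = 3. -/
theorem mono_four_not_maximal {F : Type*} [Field F] [Fintype F] {q : ℕ} (hF : Fintype.card F = q ^ 2) (hq : q = 3)
    {V : Fin 4 → Submodule F (Fin 4 → F)} (hV : IsNondegenerateMDecomposition (hermForm 4 F q) 1 V)
    {H : Subgroup (GL (Fin 4) F)} (hH : IsMaximalIn (suGL 4 F q) H)
    (hHV : H = decompositionStabilizer V ⊓ suGL 4 F q) : False := by
  classical
  subst hq
  have h3 := three_eq_zero hF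
  have hne : ∀ i, V i ≠ ⊥ := fun i e => by
    have h := hV.decomp.finrank_eq i
    rw [e, finrank_bot] at h
    omega
  choose b hb hbb using fun i => exists_norm_one_mem hF (hne i) (hV.nondegenerate i)
  have hb0 : ∀ i, b i ≠ 0 := fun i e => by
    have h := hbb i
    rw [e, H3.hermForm_zero_left hF] at h
    exact zero_ne_one h
  have horth : H3.Orth (H3.hermB hF 4) b := by
    intro i j
    rw [H3.hermB_apply]
    by_cases hij : i = j
    · subst hij; rw [if_pos rfl, hbb]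
    · rw [if_neg hij, hV.orthogonal j i (Ne.symm hij) _ (hb j) _ (hb i)]
  obtain ⟨g₀, hg₀⟩ := H3.exists_GU_of_orth hF b horth
  have hspan : ∀ i, V i = Submodule.span F {b i} := fun i => (Submodule.eq_of_le_of_finrank_eq
    ((Submodule.span_singleton_le_iff_mem _ _).2 (hb i))
    (by rw [finrank_span_singleton (hb0 i), hV.decomp.finrank_eq])).symm
  let P : GL (Fin 4) F := g₀.1
  let co : (Fin 4 → F) → (Fin 4 → F) := fun u => ((P⁻¹ : GL (Fin 4) F) : Matrix (Fin 4) (Fin 4) F) *ᵥ u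
  have hco : ∀ c, co ((P : Matrix (Fin 4) (Fin 4) F) *ᵥ c) = c := fun c => by
    simp only [co, Matrix.mulVec_mulVec, Units.inv_mul, Matrix.one_mulVec]
  have hsurj : ∀ u, ∃ c, (P : Matrix (Fin 4) (Fin 4) F) *ᵥ c = u := fun u => ⟨co u, by
    simp only [co, Matrix.mulVec_mulVec, Units.mul_inv, Matrix.one_mulVec]⟩
  have hPb : ∀ c, (P : Matrix (Fin 4) (Fin 4) F) *ᵥ c = ∑ i, c i • b i := fun c => by
    conv_lhs => rw [pi_eq_sum_univ' c]
    simp only [Matrix.mulVec_sum, Matrix.mulVec_smul]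
    exact Finset.sum_congr rfl fun i _ => congrArg _ (hg₀ i)
  have hPherm : ∀ c d, hermForm 4 F 3 ((P : Matrix (Fin 4) (Fin 4) F) *ᵥ c) ((P : Matrix (Fin 4) (Fin 4) F) *ᵥ d) =
      hermForm 4 F 3 c d := fun c d => g₀.2 c d
  let M : Subgroup (GL (Fin 4) F) :=
    { carrier := {g | g ∈ suGL 4 F 3 ∧ ∀ u, inZ (co ((g : Matrix (Fin 4) (Fin 4) F) *ᵥ u)) ↔ inZ (co u)}
      one_mem' := ⟨one_mem _, fun u => by simp⟩
      mul_mem' := fun {g h} hg hh => ⟨mul_mem hg.1 hh.1, fun u => by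
        rw [Units.val_mul, ← Matrix.mulVec_mulVec, hg.2, hh.2]⟩
      inv_mem' := fun {g} hg => ⟨inv_mem hg.1, fun u => by
        rw [← hg.2, Matrix.mulVec_mulVec, ← Units.val_mul, mul_inv_cancel, Units.val_one, Matrix.one_mulVec]⟩ }
  -- monomial elements
  have hmono : ∀ g ∈ H, ∃ (π : Equiv.Perm (Fin 4)) (a : Fin 4 → F), (∀ i, a i * a i * (a i * a i) = 1) ∧
      (∏ i, a i) * (∏ i, a i) = 1 ∧
      ∀ c i, co ((g : Matrix (Fin 4) (Fin 4) F) *ᵥ ((P : Matrix (Fin 4) (Fin 4) F) *ᵥ c)) (π i) = a i * c i := by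
    intro g hg
    rw [hHV] at hg
    obtain ⟨⟨π, hπ⟩, hgSU⟩ := hg
    have himg : ∀ i, ∃ a : F, (g : Matrix (Fin 4) (Fin 4) F) *ᵥ b i = a • b (π i) := by
      intro i
      have hm : (g : Matrix (Fin 4) (Fin 4) F) *ᵥ b i ∈ V (π i) := by
        rw [← hπ i]; exact ⟨_, hb i, rfl⟩
      rw [hspan, Submodule.mem_span_singleton] at hm
      obtain ⟨a, ha⟩ := hm
      exact ⟨a, ha.symm⟩
    choose a ha using himg
    have hnorm : ∀ i, a i * a i * (a i * a i) = 1 := by
      intro i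
      have h : hermForm 4 F 3 ((g : Matrix (Fin 4) (Fin 4) F) *ᵥ b i) ((g : Matrix (Fin 4) (Fin 4) F) *ᵥ b i) =
          hermForm 4 F 3 (b i) (b i) := hgSU.1 _ _
      rw [ha, H3.hermForm_smul_left hF, H3.hermForm_smul_right hF, hbb, hbb] at h
      linear_combination h
    have hact : ∀ c i, co ((g : Matrix (Fin 4) (Fin 4) F) *ᵥ ((P : Matrix (Fin 4) (Fin 4) F) *ᵥ c)) (π i) =
        a i * c i := by
      intro c i
      have e : (g : Matrix (Fin 4) (Fin 4) F) *ᵥ ((P : Matrix (Fin 4) (Fin 4) F) *ᵥ c) =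
          (P : Matrix (Fin 4) (Fin 4) F) *ᵥ (fun j => a (π.symm j) * c (π.symm j)) := by
        rw [hPb, hPb, Matrix.mulVec_sum, ← Equiv.sum_comp π (fun j => (a (π.symm j) * c (π.symm j)) • b j)]
        refine Finset.sum_congr rfl fun j _ => ?_
        rw [Matrix.mulVec_smul, ha, smul_smul, Equiv.symm_apply_apply, mul_comm]
      rw [e, hco, Equiv.symm_apply_apply]
    have hMeq : ((P⁻¹ : GL (Fin 4) F) : Matrix (Fin 4) (Fin 4) F) * (g : Matrix (Fin 4) (Fin 4) F) * P =
        Equiv.Perm.permMatrix F π.symm * Matrix.diagonal a := by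
      refine Matrix.ext_of_mulVec_single fun j => funext fun k => ?_
      rw [← Matrix.mulVec_mulVec, ← Matrix.mulVec_mulVec, ← Matrix.mulVec_mulVec, Matrix.permMatrix_mulVec,
        Function.comp_apply, Matrix.mulVec_diagonal]
      obtain ⟨i, rfl⟩ := π.surjective k
      rw [Equiv.symm_apply_apply]
      exact hact _ i
    have hdet := congrArg Matrix.det hMeq
    rw [Matrix.det_units_conj', mem_specialLinear_iff.1 hgSU.2, Matrix.det_mul, Matrix.det_permutation,
      Matrix.det_diagonal] at hdet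
    refine ⟨π, a, hnorm, ?_, hact⟩
    rcases Int.units_eq_one_or (Equiv.Perm.sign π.symm) with e | e <;> rw [e] at hdet <;> simp at hdet
    · rw [← hdet, one_mul]
    · linear_combination ((∏ i, a i) - 1) * hdet
  have hle : H ≤ M := by
    intro g hg
    obtain ⟨π, a, ha, hprod, hact⟩ := hmono g hg
    refine ⟨hH.1.le hg, fun u => ?_⟩
    obtain ⟨c, rfl⟩ := hsurj u
    rw [hco]
    set d := co ((g : Matrix (Fin 4) (Fin 4) F) *ᵥ ((P : Matrix (Fin 4) (Fin 4) F) *ᵥ c))
    have ha0 : ∀ i, a i ≠ 0 := fun i e => by simpa [e] using ha i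
    have hd : ∀ i, d (π i) = a i * c i := fun i => hact c i
    have h1 : (Finset.univ.filter fun i => d i ≠ 0).card = (Finset.univ.filter fun i => c i ≠ 0).card := by
      symm
      refine Finset.card_equiv π fun i => ?_
      simp only [Finset.mem_filter, Finset.mem_univ, true_and, hd]
      exact ⟨fun h => mul_ne_zero (ha0 i) h, fun h => right_ne_zero_of_mul h⟩
    have h2 : ∑ i, d i * d i * (d i * d i) = ∑ i, c i * c i * (c i * c i) := by
      rw [← Equiv.sum_comp π fun i => d i * d i * (d i * d i)]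
      refine Finset.sum_congr rfl fun i _ => ?_
      rw [hd]
      linear_combination (c i * c i * (c i * c i)) * ha i
    have h5 : d 0 * d 1 * d 2 * d 3 * (d 0 * d 1 * d 2 * d 3) = c 0 * c 1 * c 2 * c 3 * (c 0 * c 1 * c 2 * c 3) := by
      have h : ∏ i, d i = (∏ i, a i) * ∏ i, c i := by
        rw [← Equiv.prod_comp π d, Finset.prod_congr rfl fun i _ => hd i, Finset.prod_mul_distrib]
      rw [Fin.prod_univ_four d, Fin.prod_univ_four c] at h
      rw [h]
      linear_combination (c 0 * c 1 * c 2 * c 3 * (c 0 * c 1 * c 2 * c 3)) * hprod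
    rw [inZ, inZ, h1, h2, h5]
  -- the Hadamard element
  have hWW : (hadMat F) * (hadMat F) = 1 := by
    ext i j
    fin_cases i <;> fin_cases j <;> simp [hadMat, Matrix.mul_apply, Fin.sum_univ_four] <;> linear_combination h3
  let W : GL (Fin 4) F := ⟨hadMat F, hadMat F, hWW, hWW⟩
  have hWu : W ∈ GU 4 F 3 := by
    intro u v
    show hermForm 4 F 3 (hadMat F *ᵥ u) (hadMat F *ᵥ v) = hermForm 4 F 3 u v
    have hadd : ∀ x y : F, (x + y) ^ 3 = x ^ 3 + y ^ 3 := fun x y => by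
      linear_combination (x ^ 2 * y + x * y ^ 2) * h3
    have hneg : ∀ x : F, (-x) ^ 3 = -x ^ 3 := fun x => by ring
    simp [hadMat, hermForm, Matrix.mulVec, dotProduct, Fin.sum_univ_four, hadd, hneg]
    linear_combination (u 0 * v 0 ^ 3 + u 1 * v 1 ^ 3 + u 2 * v 2 ^ 3 + u 3 * v 3 ^ 3) * h3
  let t : GL (Fin 4) F := P * W * P⁻¹
  have htSU : t ∈ suGL 4 F 3 := by
    refine ⟨(GU 4 F 3).mul_mem ((GU 4 F 3).mul_mem g₀.2 hWu) ((GU 4 F 3).inv_mem g₀.2), mem_specialLinear_iff.2 ?_⟩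
    rw [Units.val_mul, Units.val_mul, Matrix.det_units_conj]
    show (hadMat F).det = 1
    simp [hadMat, Matrix.det_succ_row_zero, Fin.sum_univ_succ, Fin.succAbove]
    linear_combination 5 * h3
  have htc : ∀ c : Fin 4 → F, co ((t : Matrix (Fin 4) (Fin 4) F) *ᵥ ((P : Matrix (Fin 4) (Fin 4) F) *ᵥ c)) =
      hadMat F *ᵥ c := by
    intro c
    have e : (t : Matrix (Fin 4) (Fin 4) F) *ᵥ ((P : Matrix (Fin 4) (Fin 4) F) *ᵥ c) =
        (P : Matrix (Fin 4) (Fin 4) F) *ᵥ (hadMat F *ᵥ c) := by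
      rw [Matrix.mulVec_mulVec, Matrix.mulVec_mulVec, Units.val_mul, Units.val_mul, mul_assoc, Units.inv_mul,
        mul_one]
    rw [e, hco]
  obtain ⟨φ, hφ, hφ0, hφ1, hφa, hφm, hφn⟩ := exists_iso hF
  choose r hr using hφ.2
  have hmodel : ∀ c : Fin 4 → M9, inZ (fun i => φ (c i)) ↔ inZ9 c = true := by
    intro c
    simp only [inZ, inZ9, Bool.and_eq_true, Bool.or_eq_true, decide_eq_true_eq, Fin.sum_univ_four, ← hφm, ← hφa]
    rw [← hφ1, ← hφ0, hφ.1.eq_iff, hφ.1.eq_iff]
    simp only [hφ.1.ne_iff]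
  have htM : t ∈ M := by
    refine ⟨htSU, fun u => ?_⟩
    obtain ⟨c, rfl⟩ := hsurj u
    rw [hco, htc]
    let c9 : Fin 4 → M9 := ![r (c 0), r (c 1), r (c 2), r (c 3)]
    have hc : c = fun i => φ (c9 i) := by funext i; fin_cases i <;> simp [c9, hr]
    rw [hc, show hadMat F *ᵥ (fun i => φ (c9 i)) = fun i => φ (had9 c9 i) by
        funext i
        fin_cases i <;> simp [hadMat, had9, hφa, hφn, Matrix.mulVec, dotProduct, Fin.sum_univ_four],
      hmodel, hmodel, inZ9_had]
  have htH : t ∉ H := by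
    intro hmem
    obtain ⟨π, a, -, -, hact⟩ := hmono t hmem
    have h0 := hact (Pi.single 0 1) 1
    rw [htc, Matrix.mulVec_single_one, Matrix.col_apply, Pi.single_eq_of_ne (show (1 : Fin 4) ≠ 0 by decide),
      mul_zero] at h0
    revert h0
    generalize π 1 = k
    fin_cases k <;> simp [hadMat]
  rcases hH.2 M hle (fun g hg => hg.1) with e | e
  · exact htH (e ▸ htM)
  · obtain ⟨j, hjdef⟩ : ∃ j, φ (0, 1) = j := ⟨_, rfl⟩
    have hj : j * j = -1 := by rw [← hjdef, ← hφm, ← hφ1, ← hφn]; rfl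
    let u : Fin 4 → F := ![1, 0, 0, 0]
    let u' : Fin 4 → F := ![1, 1, 1, j]
    have hu : inZ u := ⟨by simp [u, Fin.sum_univ_four], Or.inl (by
      rw [show (Finset.univ.filter fun i => u i ≠ 0) = {0} by ext i; fin_cases i <;> simp [u]]
      simp)⟩
    have hu' : ¬ inZ u' := by
      rintro ⟨-, h | h⟩
      · have hj0 : j ≠ 0 := fun e => by simp [e] at hj
        rw [show (Finset.univ.filter fun i => u' i ≠ 0) = Finset.univ by
          ext i; fin_cases i <;> simp [u', hj0]] at h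
        simp at h
      · simp [u', hj] at h
        exact one_ne_zero (show (1 : F) = 0 by linear_combination h + h3)
    obtain ⟨g, hg, hguv⟩ := exists_su_mulVec hF (by norm_num) (v := (P : Matrix (Fin 4) (Fin 4) F) *ᵥ u)
      (w := (P : Matrix (Fin 4) (Fin 4) F) *ᵥ u')
      (fun h => by
        have h0 := congrFun ((hco u).symm.trans ((congrArg co h).trans (Matrix.mulVec_zero _))) 0
        simp [u] at h0)
      (fun h => by
        have h0 := congrFun ((hco u').symm.trans ((congrArg co h).trans (Matrix.mulVec_zero _))) 0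
        simp [u'] at h0)
      (by
        rw [hPherm, hPherm]
        simp [u, u', hermForm, Fin.sum_univ_four]
        linear_combination (-1 : F) * h3 - (j * j - 1) * hj)
    have hgM : g ∈ M := e.symm ▸ hg
    have h := (hgM.2 ((P : Matrix (Fin 4) (Fin 4) F) *ᵥ u)).2 (by rw [hco]; exact hu)
    rw [hguv, hco] at h
    exact hu' h

end Cfsg.Agent.H3.UMax.Nine
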