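import Cfsg.Agent.H3.UMax.Quintic
import Cfsg.Agent.H99.Aschbacher.UnitaryLists

/-!
For q = 2 the monomial subgroup of SU of dimension six is not maximal: it preserves a set of 126 isotropic points
which is also preserved by a transvection.
-/

set_option autoImplicit false

open scoped MatrixGroups Matrix

namespace Cfsg.Agent.H3.UMax

open Cfsg.Geo H99.Asch

/-- The root vectors: two non-zero coordinates, or product one. -/
def inY {F : Type*} [Field F] [DecidableEq F] (c : Fin 6 → F) : Prop :=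
  (Finset.univ.filter fun i => c i ≠ 0).card = 2 ∨ ∏ i, c i = 1

/-- The model of `inY`. -/
def inY4 (c : Fin 6 → Bool × Bool) : Bool :=
  decide ((Finset.univ.filter fun i => c i ≠ (false, false)).card = 2) ||
    decide (mul4 (mul4 (mul4 (mul4 (mul4 (c 0) (c 1)) (c 2)) (c 3)) (c 4)) (c 5) = (true, false))

/-- The transvection with centre of all ones. -/
def shear4 (c : Fin 6 → Bool × Bool) (i : Fin 6) : Bool × Bool :=
  add4 (c i) (add4 (add4 (add4 (add4 (add4 (c 0) (c 1)) (c 2)) (c 3)) (c 4)) (c 5))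

set_option maxHeartbeats 4000000 in
theorem inY4_shear : ∀ a b c d e f : Bool × Bool, inY4 (shear4 ![a, b, c, d, e, f]) = inY4 ![a, b, c, d, e, f] := by
  decide +kernel

/-- The monomial subgroup is not maximal in SU of dimension six for q = 2. -/
theorem mono_six_not_maximal {F : Type*} [Field F] [Fintype F] {q : ℕ} (hF : Fintype.card F = q ^ 2) (hq : q = 2)
    {V : Fin 6 → Submodule F (Fin 6 → F)} (hV : IsNondegenerateMDecomposition (hermForm 6 F q) 1 V)
    {H : Subgroup (GL (Fin 6) F)} (hH : IsMaximalIn (suGL 6 F q) H)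
    (hHV : H = decompositionStabilizer V ⊓ suGL 6 F q) : False := by
  classical
  subst hq
  obtain ⟨w, hw, h2⟩ := exists_omega hF
  have hw0 : w ≠ 0 := fun e => by simp [e] at hw
  have hne : ∀ i, V i ≠ ⊥ := fun i e => by
    have h := hV.decomp.finrank_eq i
    rw [e, finrank_bot] at h
    omega
  choose b hb hbb using fun i => exists_norm_one_mem hF (hne i) (hV.nondegenerate i)
  have hb0 : ∀ i, b i ≠ 0 := fun i e => by
    have h := hbb i
    rw [e, H3.hermForm_zero_left hF] at h
    exact zero_ne_one h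
  have horth : H3.Orth (H3.hermB hF 6) b := by
    intro i j
    rw [H3.hermB_apply]
    by_cases hij : i = j
    · subst hij; rw [if_pos rfl, hbb]
    · rw [if_neg hij, hV.orthogonal j i (Ne.symm hij) _ (hb j) _ (hb i)]
  obtain ⟨g₀, hg₀⟩ := H3.exists_GU_of_orth hF b horth
  have hspan : ∀ i, V i = Submodule.span F {b i} := fun i => (Submodule.eq_of_le_of_finrank_eq
    ((Submodule.span_singleton_le_iff_mem _ _).2 (hb i))
    (by rw [finrank_span_singleton (hb0 i), hV.decomp.finrank_eq])).symm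
  let P : GL (Fin 6) F := g₀.1
  let co : (Fin 6 → F) → (Fin 6 → F) := fun u => ((P⁻¹ : GL (Fin 6) F) : Matrix (Fin 6) (Fin 6) F) *ᵥ u
  have hco : ∀ c, co ((P : Matrix (Fin 6) (Fin 6) F) *ᵥ c) = c := fun c => by
    simp only [co, Matrix.mulVec_mulVec, Units.inv_mul, Matrix.one_mulVec]
  have hsurj : ∀ u, ∃ c, (P : Matrix (Fin 6) (Fin 6) F) *ᵥ c = u := fun u => ⟨co u, by
    simp only [co, Matrix.mulVec_mulVec, Units.mul_inv, Matrix.one_mulVec]⟩
  have hPb : ∀ c, (P : Matrix (Fin 6) (Fin 6) F) *ᵥ c = ∑ i, c i • b i := fun c => by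
    conv_lhs => rw [pi_eq_sum_univ' c]
    simp only [Matrix.mulVec_sum, Matrix.mulVec_smul]
    exact Finset.sum_congr rfl fun i _ => congrArg _ (hg₀ i)
  have hPherm : ∀ c d, hermForm 6 F 2 ((P : Matrix (Fin 6) (Fin 6) F) *ᵥ c) ((P : Matrix (Fin 6) (Fin 6) F) *ᵥ d) =
      hermForm 6 F 2 c d := fun c d => g₀.2 c d
  let M : Subgroup (GL (Fin 6) F) :=
    { carrier := {g | g ∈ suGL 6 F 2 ∧ ∀ u, inY (co ((g : Matrix (Fin 6) (Fin 6) F) *ᵥ u)) ↔ inY (co u)}
      one_mem' := ⟨one_mem _, fun u => by simp⟩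
      mul_mem' := fun {g h} hg hh => ⟨mul_mem hg.1 hh.1, fun u => by
        rw [Units.val_mul, ← Matrix.mulVec_mulVec, hg.2, hh.2]⟩
      inv_mem' := fun {g} hg => ⟨inv_mem hg.1, fun u => by
        rw [← hg.2, Matrix.mulVec_mulVec, ← Units.val_mul, mul_inv_cancel, Units.val_one, Matrix.one_mulVec]⟩ }
  -- monomial elements
  have hmono : ∀ g ∈ H, ∃ (π : Equiv.Perm (Fin 6)) (a : Fin 6 → F), (∀ i, a i ≠ 0) ∧ ∏ i, a i = 1 ∧
      ∀ c i, co ((g : Matrix (Fin 6) (Fin 6) F) *ᵥ ((P : Matrix (Fin 6) (Fin 6) F) *ᵥ c)) (π i) = a i * c i := by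
    intro g hg
    rw [hHV] at hg
    obtain ⟨⟨π, hπ⟩, hgSU⟩ := hg
    have himg : ∀ i, ∃ a : F, (g : Matrix (Fin 6) (Fin 6) F) *ᵥ b i = a • b (π i) := by
      intro i
      have hm : (g : Matrix (Fin 6) (Fin 6) F) *ᵥ b i ∈ V (π i) := by
        rw [← hπ i]; exact ⟨_, hb i, rfl⟩
      rw [hspan, Submodule.mem_span_singleton] at hm
      obtain ⟨a, ha⟩ := hm
      exact ⟨a, ha.symm⟩
    choose a ha using himg
    have hact : ∀ c i, co ((g : Matrix (Fin 6) (Fin 6) F) *ᵥ ((P : Matrix (Fin 6) (Fin 6) F) *ᵥ c)) (π i) =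
        a i * c i := by
      intro c i
      have e : (g : Matrix (Fin 6) (Fin 6) F) *ᵥ ((P : Matrix (Fin 6) (Fin 6) F) *ᵥ c) =
          (P : Matrix (Fin 6) (Fin 6) F) *ᵥ (fun j => a (π.symm j) * c (π.symm j)) := by
        rw [hPb, hPb, Matrix.mulVec_sum, ← Equiv.sum_comp π (fun j => (a (π.symm j) * c (π.symm j)) • b j)]
        refine Finset.sum_congr rfl fun j _ => ?_
        rw [Matrix.mulVec_smul, ha, smul_smul, Equiv.symm_apply_apply, mul_comm]
      rw [e, hco, Equiv.symm_apply_apply]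
    have hMeq : ((P⁻¹ : GL (Fin 6) F) : Matrix (Fin 6) (Fin 6) F) * (g : Matrix (Fin 6) (Fin 6) F) * P =
        Equiv.Perm.permMatrix F π.symm * Matrix.diagonal a := by
      refine Matrix.ext_of_mulVec_single fun j => funext fun k => ?_
      rw [← Matrix.mulVec_mulVec, ← Matrix.mulVec_mulVec, ← Matrix.mulVec_mulVec, Matrix.permMatrix_mulVec,
        Function.comp_apply, Matrix.mulVec_diagonal]
      obtain ⟨i, rfl⟩ := π.surjective k
      rw [Equiv.symm_apply_apply]
      exact hact _ i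
    have hdet := congrArg Matrix.det hMeq
    rw [Matrix.det_units_conj', mem_specialLinear_iff.1 hgSU.2, Matrix.det_mul, Matrix.det_permutation,
      Matrix.det_diagonal] at hdet
    have hsign : ((Equiv.Perm.sign π.symm : ℤ) : F) = 1 := by
      rcases Int.units_eq_one_or (Equiv.Perm.sign π.symm) with e | e <;> rw [e] <;> simp
      linear_combination -h2
    rw [hsign, one_mul] at hdet
    exact ⟨π, a, fun i => (Finset.prod_ne_zero_iff.1 (hdet ▸ one_ne_zero)) i (Finset.mem_univ i), hdet.symm, hact⟩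
  have hle : H ≤ M := by
    intro g hg
    obtain ⟨π, a, ha, hprod, hact⟩ := hmono g hg
    refine ⟨hH.1.le hg, fun u => ?_⟩
    obtain ⟨c, rfl⟩ := hsurj u
    rw [hco]
    set d := co ((g : Matrix (Fin 6) (Fin 6) F) *ᵥ ((P : Matrix (Fin 6) (Fin 6) F) *ᵥ c))
    have h1 : (Finset.univ.filter fun i => d i ≠ 0).card = (Finset.univ.filter fun i => c i ≠ 0).card := by
      symm
      refine Finset.card_equiv π fun i => ?_
      simp only [Finset.mem_filter, Finset.mem_univ, true_and]
      rw [show d (π i) = a i * c i from hact c i]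
      exact ⟨fun h => mul_ne_zero (ha i) h, fun h => right_ne_zero_of_mul h⟩
    have h3 : ∏ i, d i = ∏ i, c i := by
      rw [← Equiv.prod_comp π d, Finset.prod_congr rfl fun i _ => hact c i, Finset.prod_mul_distrib, hprod, one_mul]
    rw [inY, inY, h1, h3]
  -- the transvection
  set o : Fin 6 → F := fun _ => 1
  set v := (P : Matrix (Fin 6) (Fin 6) F) *ᵥ o with hv
  have ho : hermForm 6 F 2 o o = 0 := by
    simp [o, hermForm]
    linear_combination 3 * h2
  obtain ⟨t, htSU, ht⟩ := exists_transGL hF (v := v) (c := 1) (by rw [hv, hPherm, ho])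
    (by rw [one_pow]; linear_combination h2)
  have hsum : ∀ c : Fin 6 → F, hermForm 6 F 2 c o = ∑ i, c i := fun c => by simp [o, hermForm]
  have htc : ∀ c : Fin 6 → F, co ((t : Matrix (Fin 6) (Fin 6) F) *ᵥ ((P : Matrix (Fin 6) (Fin 6) F) *ᵥ c)) =
      fun i => c i + ∑ j, c j := by
    intro c
    have e : (t : Matrix (Fin 6) (Fin 6) F) *ᵥ ((P : Matrix (Fin 6) (Fin 6) F) *ᵥ c) =
        (P : Matrix (Fin 6) (Fin 6) F) *ᵥ (c + (∑ j, c j) • o) := by
      rw [Matrix.mulVec_add, Matrix.mulVec_smul, ← hsum, ← hPherm c o, ← hv, ht, H3.unitaryTransvection_mulVec, one_mul]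
    rw [e, hco]
    funext i
    simp [o]
  have hinj := toF_injective h2 hw
  have hs : Function.Surjective (toF w) :=
    ((Fintype.bijective_iff_injective_and_card _).2 ⟨hinj, by rw [hF]; rfl⟩).2
  choose r hr using hs
  have hmodel : ∀ c : Fin 6 → Bool × Bool, inY (fun i => toF w (c i)) ↔ inY4 c = true := by
    intro c
    have hz : toF w (false, false) = 0 := by simp [toF]
    have hone : toF w (true, false) = 1 := by simp [toF]
    simp only [inY, inY4, Bool.or_eq_true, decide_eq_true_eq, Fin.prod_univ_six]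
    rw [← hz, ← hone, ← toF_mul h2 hw, ← toF_mul h2 hw, ← toF_mul h2 hw, ← toF_mul h2 hw, ← toF_mul h2 hw,
      hinj.eq_iff]
    simp only [hinj.ne_iff]
  have htM : t ∈ M := by
    refine ⟨htSU, fun u => ?_⟩
    obtain ⟨c, rfl⟩ := hsurj u
    rw [hco, htc]
    let c4 : Fin 6 → Bool × Bool := ![r (c 0), r (c 1), r (c 2), r (c 3), r (c 4), r (c 5)]
    have hc : c = fun i => toF w (c4 i) := by funext i; fin_cases i <;> simp [c4, hr]
    rw [hc, show (fun i => (fun i => toF w (c4 i)) i + ∑ j, (fun i => toF w (c4 i)) j) =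
      fun i => toF w (shear4 c4 i) by
        funext i; simp only [shear4, toF_add h2, Fin.sum_univ_six],
      hmodel, hmodel, inY4_shear]
  have htH : t ∉ H := by
    intro hmem
    obtain ⟨π, a, -, -, hact⟩ := hmono t hmem
    have h0 := hact (Pi.single 0 1) 1
    have h1 := hact (Pi.single 0 1) 2
    rw [htc] at h0 h1
    simp only [Finset.sum_pi_single', Finset.mem_univ, if_true] at h0 h1
    rw [Pi.single_eq_of_ne (show (1 : Fin 6) ≠ 0 by decide), mul_zero] at h0
    rw [Pi.single_eq_of_ne (show (2 : Fin 6) ≠ 0 by decide), mul_zero] at h1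
    by_cases e : π 1 = 0
    · rw [Pi.single_eq_of_ne (show π 2 ≠ 0 from fun e' => absurd (π.injective (e.trans e'.symm)) (by decide)),
        zero_add] at h1
      exact one_ne_zero h1
    · rw [Pi.single_eq_of_ne e, zero_add] at h0
      exact one_ne_zero h0
  rcases hH.2 M hle (fun g hg => hg.1) with e | e
  · exact htH (e ▸ htM)
  · let u : Fin 6 → F := ![1, 1, 0, 0, 0, 0]
    let u' : Fin 6 → F := ![1, 1, 1, 1, 0, 0]
    have hu : inY u := Or.inl (by
      rw [show (Finset.univ.filter fun i => u i ≠ 0) = {0, 1} by ext i; fin_cases i <;> simp [u]]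
      rfl)
    have hu' : ¬ inY u' := by
      rintro (h | h)
      · rw [show (Finset.univ.filter fun i => u' i ≠ 0) = {0, 1, 2, 3} by ext i; fin_cases i <;> simp [u']] at h
        simp at h
      · simp [u', Fin.prod_univ_six] at h
    obtain ⟨g, hg, hguv⟩ := exists_su_mulVec hF (by norm_num) (v := (P : Matrix (Fin 6) (Fin 6) F) *ᵥ u)
      (w := (P : Matrix (Fin 6) (Fin 6) F) *ᵥ u')
      (fun h => by
        have h0 := congrFun ((hco u).symm.trans ((congrArg co h).trans (Matrix.mulVec_zero _))) 0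
        simp [u] at h0)
      (fun h => by
        have h0 := congrFun ((hco u').symm.trans ((congrArg co h).trans (Matrix.mulVec_zero _))) 0
        simp [u'] at h0)
      (by
        rw [hPherm, hPherm]
        simp [u, u', hermForm, Fin.sum_univ_six]
        grind)
    have hgM : g ∈ M := e.symm ▸ hg
    have h := (hgM.2 ((P : Matrix (Fin 6) (Fin 6) F) *ᵥ u)).2 (by rw [hco]; exact hu)
    rw [hguv, hco] at h
    exact hu' h

end Cfsg.Agent.H3.UMax
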