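import Cfsg.Agent.H3.UMax.ThreeFive

/-!
Monomial elements of SU in dimension three; for q = 5 the monomial subgroup is not maximal.
-/

set_option autoImplicit false

open scoped MatrixGroups Matrix

namespace Cfsg.Agent.H3.UMax

open Cfsg.Geo H99.Asch TwentyFive ThreeFive Fin.NatCast

variable {F : Type*} [Field F] [Fintype F] {q : ℕ}

/-- An element which maps every axis to an axis. -/
def MapsAxes (g : GL (Fin 3) F) (π : Equiv.Perm (Fin 3)) (a : Fin 3 → F) : Prop :=
  ∀ j, (g : Matrix (Fin 3) (Fin 3) F) *ᵥ Pi.single j 1 = a j • Pi.single (π j) (1 : F)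

/-- The data of a monomial element of SU. -/
theorem mono_data (hF : Fintype.card F = q ^ 2) {g : GL (Fin 3) F} (hg : g ∈ suGL 3 F q) {π : Equiv.Perm (Fin 3)}
    {a : Fin 3 → F} (h : MapsAxes g π a) :
    (∀ j, a j ^ (q + 1) = 1) ∧ (∏ j, a j) ^ 2 = 1 ∧
      ∀ u i, ((g : Matrix (Fin 3) (Fin 3) F) *ᵥ u) (π i) = a i * u i := by
  classical
  have hu : ∀ u i, ((g : Matrix (Fin 3) (Fin 3) F) *ᵥ u) (π i) = a i * u i := by
    intro u i
    conv_lhs => rw [pi_eq_sum_univ' u, Matrix.mulVec_sum, Finset.sum_apply]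
    rw [Finset.sum_eq_single i]
    · rw [Matrix.mulVec_smul, h i, Pi.smul_apply, Pi.smul_apply, Pi.single_eq_same, smul_eq_mul, smul_eq_mul,
        mul_one, mul_comm]
    · intro j _ hj
      rw [Matrix.mulVec_smul, h j, Pi.smul_apply, Pi.smul_apply, Pi.single_eq_of_ne (π.injective.ne hj.symm),
        smul_zero, smul_zero]
    · exact fun hi => absurd (Finset.mem_univ i) hi
  refine ⟨fun j => ?_, ?_, hu⟩
  · have h1 : hermForm 3 F q ((g : Matrix (Fin 3) (Fin 3) F) *ᵥ Pi.single j 1) ((g : Matrix (Fin 3) (Fin 3) F) *ᵥ Pi.single j 1) =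
        hermForm 3 F q (Pi.single j 1) (Pi.single j 1) := hg.1 _ _
    rw [h j, H3.hermForm_smul_left hF, H3.hermForm_smul_right hF, H3.hermForm_single_left, H3.hermForm_single_left,
      Pi.single_eq_same, Pi.single_eq_same, one_pow, mul_one, mul_one] at h1
    rw [pow_succ']
    exact h1
  · have hM : (g : Matrix (Fin 3) (Fin 3) F) = Equiv.Perm.permMatrix F π.symm * Matrix.diagonal a := by
      refine Matrix.ext_of_mulVec_single fun j => funext fun k => ?_
      rw [← Matrix.mulVec_mulVec, Matrix.permMatrix_mulVec, Function.comp_apply, Matrix.mulVec_diagonal]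
      obtain ⟨i, rfl⟩ := π.surjective k
      rw [Equiv.symm_apply_apply]
      exact hu _ i
    have hd := congrArg Matrix.det hM
    rw [mem_specialLinear_iff.1 hg.2, Matrix.det_mul, Matrix.det_permutation, Matrix.det_diagonal] at hd
    rcases Int.units_eq_one_or (Equiv.Perm.sign π.symm) with e | e <;> rw [e] at hd <;> simp at hd
    · rw [← hd, one_pow]
    · linear_combination ((∏ j, a j) - 1) * hd

/-- A decomposition into three lines has a unitary frame. -/
theorem exists_frame_of_decomp (hF : Fintype.card F = q ^ 2) {V : Fin 3 → Submodule F (Fin 3 → F)}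
    (hV : IsNondegenerateMDecomposition (hermForm 3 F q) 1 V) :
    ∃ P : GL (Fin 3) F, P ∈ GU 3 F q ∧
      ∀ i, V i = Submodule.span F {(P : Matrix (Fin 3) (Fin 3) F) *ᵥ Pi.single i 1} := by
  classical
  have hne : ∀ i, V i ≠ ⊥ := fun i e => by
    have h := hV.decomp.finrank_eq i
    rw [e, finrank_bot] at h
    omega
  choose b hb hbb using fun i => exists_norm_one_mem hF (hne i) (hV.nondegenerate i)
  have hb0 : ∀ i, b i ≠ 0 := fun i e => by
    have h := hbb i
    rw [e, H3.hermForm_zero_left hF] at h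
    exact zero_ne_one h
  have horth : H3.Orth (H3.hermB hF 3) b := by
    intro i j
    rw [H3.hermB_apply]
    by_cases hij : i = j
    · subst hij; rw [if_pos rfl, hbb]
    · rw [if_neg hij, hV.orthogonal j i (Ne.symm hij) _ (hb j) _ (hb i)]
  obtain ⟨g₀, hg₀⟩ := H3.exists_GU_of_orth hF b horth
  refine ⟨g₀.1, g₀.2, fun i => ?_⟩
  rw [hg₀]
  exact (Submodule.eq_of_le_of_finrank_eq ((Submodule.span_singleton_le_iff_mem _ _).2 (hb i))
    (by rw [finrank_span_singleton (hb0 i), hV.decomp.finrank_eq])).symm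

omit [Fintype F] in
/-- In its frame, an element of a decomposition stabiliser maps axes to axes. -/
theorem mapsAxes_of_decomp {V : Fin 3 → Submodule F (Fin 3 → F)} {P g : GL (Fin 3) F}
    (hP : ∀ i, V i = Submodule.span F {(P : Matrix (Fin 3) (Fin 3) F) *ᵥ Pi.single i 1})
    (hg : g ∈ decompositionStabilizer V) : ∃ π a, MapsAxes (P⁻¹ * g * P) π a := by
  obtain ⟨π, hπ⟩ := hg
  have himg : ∀ i, ∃ a : F, (g : Matrix (Fin 3) (Fin 3) F) *ᵥ ((P : Matrix (Fin 3) (Fin 3) F) *ᵥ Pi.single i 1) =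
      a • ((P : Matrix (Fin 3) (Fin 3) F) *ᵥ Pi.single (π i) 1) := by
    intro i
    have hm : (g : Matrix (Fin 3) (Fin 3) F) *ᵥ ((P : Matrix (Fin 3) (Fin 3) F) *ᵥ Pi.single i 1) ∈ V (π i) := by
      rw [← hπ i]
      exact ⟨_, by rw [hP]; exact Submodule.mem_span_singleton_self _, rfl⟩
    rw [hP, Submodule.mem_span_singleton] at hm
    obtain ⟨a, ha⟩ := hm
    exact ⟨a, ha.symm⟩
  choose a ha using himg
  refine ⟨π, a, fun j => ?_⟩
  rw [Units.val_mul, Units.val_mul, ← Matrix.mulVec_mulVec, ← Matrix.mulVec_mulVec, ha, Matrix.mulVec_smul,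
    Matrix.mulVec_mulVec, Units.inv_mul, Matrix.one_mulVec]

/-- For q = 5 the monomial subgroup is not maximal. -/
theorem mono_three_not_maximal (hF : Fintype.card F = q ^ 2) (hq : q = 5) {V : Fin 3 → Submodule F (Fin 3 → F)}
    (hV : IsNondegenerateMDecomposition (hermForm 3 F q) 1 V) {H : Subgroup (GL (Fin 3) F)}
    (hH : IsMaximalIn (suGL 3 F q) H) (hle : H ≤ decompositionStabilizer V) : False := by
  classical
  subst hq
  obtain ⟨P, hP, hPV⟩ := exists_frame_of_decomp hF hV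
  obtain ⟨ψ, hψ⟩ := ThreeFive.exists_coding hF
  have hH' := conj_maximal hF hH hP
  have hmem : ∀ g ∈ H.map (MulAut.conj P⁻¹).toMonoidHom, ∃ π a, MapsAxes g π a := by
    rintro _ ⟨g, hg, rfl⟩
    show ∃ π a, MapsAxes (P⁻¹ * g * (P⁻¹)⁻¹) π a
    rw [inv_inv]
    exact mapsAxes_of_decomp hPV (hle hg)
  have hle' : H.map (MulAut.conj P⁻¹).toMonoidHom ≤ stabX 5 inX := by
    intro g hg
    obtain ⟨π, a, hm⟩ := hmem g hg
    obtain ⟨ha, hp, hu⟩ := mono_data hF (hH'.1.le hg) hm
    exact mem_stabX_of_mapsTo (hH'.1.le hg) fun u hx => inX_mono π a ha hp (hu u) hx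
  obtain ⟨t, ht, hent⟩ := hψ.exists_mem_su hF inSU_tN
  have htM := hψ.mem_stab hψ.inX_iff inS_tN ht hent
  have htH : t ∉ H.map (MulAut.conj P⁻¹).toMonoidHom := by
    intro hmem'
    obtain ⟨π, a, hm⟩ := hmem t hmem'
    have hne : ∀ r : Fin 3, (t : Matrix (Fin 3) (Fin 3) F) r 0 ≠ 0 := by
      intro r
      rw [hent, ← hψ.zero]
      have key : ∀ r : Fin 3, entN tN r 0 ≠ 0 ∧ entN tN r 0 < 25 := by decide
      exact fun e => (key r).1 (hψ.inj (key r).2 (by norm_num) e)
    have h := congrFun (hm 0) (π 0 + 1)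
    rw [Matrix.mulVec_single_one, Matrix.col_apply, Pi.smul_apply,
      Pi.single_eq_of_ne (by simp), smul_zero] at h
    exact hne _ h
  refine false_of_le_stabX hF (by norm_num) hH' hle' htM htH (u := ![ψ 0, ψ 0, ψ 1]) (v := ![ψ 7, ψ 2, ψ 0])
    (fun e => ?_) (fun e => ?_) ?_ ((hψ.inX_iff 0 0 1).2 (by decide)) (fun e => ?_)
  · exact one_ne_zero (α := F) (by simpa [hψ.one] using congrFun e 2)
  · have h := congrFun e 1
    exact absurd (hψ.inj (by norm_num) (by norm_num) (h.trans hψ.zero.symm)) (by norm_num)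
  · have e1 : ψ (addN (addN (n6N 0) (n6N 0)) (n6N 1)) = ψ (addN (addN (n6N 7) (n6N 2)) (n6N 0)) :=
      congrArg ψ (by decide)
    simp only [hψ.add, hψ.norm] at e1
    simp only [hermForm, Fin.sum_univ_three, Matrix.cons_val]
    linear_combination e1
  · exact Bool.false_ne_true (((by decide : inS 7 2 0 = false)).symm.trans ((hψ.inX_iff 7 2 0).1 e))

end Cfsg.Agent.H3.UMax
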