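import Mathlib

/-!
A model of the field of nine elements.
-/

set_option autoImplicit false

namespace Cfsg.Agent.H3.UMax.Nine

/-- Pairs over the field of three elements, the second entry the coefficient of a square root of minus one. -/
abbrev M9 : Type := ZMod 3 × ZMod 3

/-- Addition in the model. -/
def add9 (x y : M9) : M9 := (x.1 + y.1, x.2 + y.2)

/-- Negation in the model. -/
def neg9 (x : M9) : M9 := (-x.1, -x.2)

/-- Multiplication in the model. -/
def mul9 (x y : M9) : M9 := (x.1 * y.1 - x.2 * y.2, x.1 * y.2 + x.2 * y.1)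

lemma sq_ne_neg_sq : ∀ a b : ZMod 3, a * a = -(b * b) → b = 0 := by decide

variable {F : Type*} [Field F] [Fintype F] (h9 : Fintype.card F = 3 ^ 2)
include h9

lemma three_eq_zero : (3 : F) = 0 := by
  have h : (Fintype.card F : F) = 0 := FiniteField.cast_card_eq_zero F
  rw [h9] at h
  push_cast at h
  exact mul_self_eq_zero.1 (by linear_combination h)

lemma two_ne_zero' : (2 : F) ≠ 0 := fun e => one_ne_zero (show (1 : F) = 0 by linear_combination three_eq_zero h9 - e)

/-- The field of nine elements is the model. -/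
theorem exists_iso : ∃ φ : M9 → F, Function.Bijective φ ∧ φ (0, 0) = 0 ∧ φ (1, 0) = 1 ∧
    (∀ x y, φ (add9 x y) = φ x + φ y) ∧ (∀ x y, φ (mul9 x y) = φ x * φ y) ∧ (∀ x, φ (neg9 x) = -φ x) := by
  classical
  obtain ⟨g, hg⟩ := IsCyclic.exists_ofOrder_eq_natCard (α := Fˣ)
  rw [Nat.card_units, Nat.card_eq_fintype_card, h9] at hg
  norm_num at hg
  set j : F := ((g ^ 2 : Fˣ) : F) with hj
  have h4 : j ^ 4 = 1 := by
    have hg8 : g ^ (2 * 4) = 1 := by
      rw [show 2 * 4 = orderOf g by omega, pow_orderOf_eq_one]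
    rw [hj, ← Units.val_pow_eq_pow_val, ← pow_mul, hg8]
    rfl
  have hne : j ^ 2 ≠ 1 := by
    rw [hj, ← Units.val_pow_eq_pow_val, ← pow_mul, Ne, Units.val_eq_one]
    intro e
    have h := orderOf_dvd_of_pow_eq_one e
    rw [hg] at h
    omega
  have hj2 : j * j = -1 := by
    have h : (j ^ 2 - 1) * (j ^ 2 + 1) = 0 := by linear_combination h4
    linear_combination (mul_eq_zero.1 h).resolve_left (sub_ne_zero.2 hne)
  have : Fact (Nat.Prime 3) := ⟨Nat.prime_three⟩
  have : CharP F 3 := charP_of_card_eq_prime_pow h9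
  let f : ZMod 3 →+* F := ZMod.castHom dvd_rfl F
  have hf : Function.Injective f := ZMod.castHom_injective F
  refine ⟨fun x => f x.1 + f x.2 * j, ?_, by simp, by simp, fun x y => ?_, fun x y => ?_, fun x => ?_⟩
  · rw [Fintype.bijective_iff_injective_and_card]
    refine ⟨fun x y e => ?_, by rw [h9]; rfl⟩
    by_cases hd : x.2 = y.2
    · simp only [hd, add_left_inj] at e
      exact Prod.ext (hf e) hd
    · exfalso
      have hd' : f (x.2 - y.2) ≠ 0 := fun h => hd (sub_eq_zero.1 (hf (h.trans (map_zero f).symm)))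
      have h1 : f (x.2 - y.2) * j = f (y.1 - x.1) := by
        rw [map_sub, map_sub]; linear_combination e
      refine hd' ?_
      rw [sq_ne_neg_sq (y.1 - x.1) (x.2 - y.2) (hf ?_), map_zero]
      rw [map_neg, map_mul, map_mul, ← h1]
      linear_combination (f (x.2 - y.2) * f (x.2 - y.2)) * hj2
  · simp only [add9, map_add]; ring
  · simp only [mul9, map_add, map_sub, map_mul]
    linear_combination (-(f x.2 * f y.2)) * hj2
  · simp only [neg9, map_neg]; ring

end Cfsg.Agent.H3.UMax.Nine
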