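import Cfsg.Agent.H97.SingerNormalizer
import Cfsg.Agent.H99.Aschbacher.UnitaryLists

/-!
A unitary frame for a cubic field in dimension three from a self-dual normal basis: the field normaliser then acts
on the coordinates of the norm by cyclic shifts.
-/

set_option autoImplicit false

open scoped MatrixGroups Matrix

namespace Cfsg.Agent.H3.UMax.Normal

open Cfsg.Geo H99.Asch Fin.NatCast

universe u

/-- The product in coordinates. -/
def mulT {R : Type*} [CommSemiring R] (T : Fin 3 → Fin 3 → Fin 3 → ℕ) (c d : Fin 3 → R) (k : Fin 3) : R :=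
  ∑ i, ∑ j, (T i j k : R) * c i * d j

/-- The coordinates of the norm. -/
def normT {R : Type*} [CommSemiring R] (T : Fin 3 → Fin 3 → Fin 3 → ℕ) (q : ℕ) (c : Fin 3 → R) : Fin 3 → R :=
  mulT T c fun i => c i ^ q

/-- The norm to the ground field, read off in one coordinate. -/
def nuT {R : Type*} [CommSemiring R] (T : Fin 3 → Fin 3 → Fin 3 → ℕ) (c : Fin 3 → R) : R :=
  mulT T (mulT T c fun i => c (i - 1)) (fun i => c (i - 2)) 0

/-- A normal basis with table T. -/
structure IsNormal {K : Type*} [Field K] (q : ℕ) (T : Fin 3 → Fin 3 → Fin 3 → ℕ) (e : Fin 3 → K) : Prop where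
  frob : ∀ i, e i ^ (q * q) = e (i + 1)
  fix : ∀ i, e i ^ q ^ 3 = e i
  sum : ∑ i, e i = 1
  mul : ∀ i j, e i * e j = ∑ k, (T i j k : K) * e k

/-- The trace is self-dual for the table. -/
def IsSelfDual (q : ℕ) (T : Fin 3 → Fin 3 → Fin 3 → ℕ) : Prop :=
  ∀ i j : Fin 3, (∑ k, T i j k) % q = if i = j then 1 else 0

variable {F : Type u} [Field F] [Fintype F] {q : ℕ}

set_option maxHeartbeats 2000000 in
/-- The frame of a cubic field. -/
theorem exists_field_frame (hF : Fintype.card F = q ^ 2) (hqp : q.Prime) (hq2 : q ≠ 2)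
    (T : Fin 3 → Fin 3 → Fin 3 → ℕ) (hT : IsSelfDual q T)
    (hex : ∀ (L : Type u) [Field L] [Fintype L], Fintype.card L = q ^ 6 → ∃ e : Fin 3 → L, IsNormal q T e)
    {K : Subalgebra F (Matrix (Fin 3) (Fin 3) F)} (hK : IsFieldSubalgebra 3 K)
    (hadj : IsAdjointClosedFor (hermForm 3 F q) K) :
    ∃ P : GL (Fin 3) F, P ∈ GU 3 F q ∧ ∀ g ∈ subalgebraNormalizer K ⊓ suGL 3 F q, ∀ c : Fin 3 → F,
      nuT T (((P⁻¹ * g * P : GL (Fin 3) F) : Matrix (Fin 3) (Fin 3) F) *ᵥ c) = nuT T c ∧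
      ∃ m : Fin 3, ∀ k, normT T q (((P⁻¹ * g * P : GL (Fin 3) F) : Matrix (Fin 3) (Fin 3) F) *ᵥ c) k =
        normT T q c (k + m) := by
  classical
  let _ : Field K := (H97.isField_fieldSubalgebra (by norm_num) hK).toField
  let _ : Fintype K := Fintype.ofFinite K
  have hK3 : Module.finrank F K = 3 := hK.finrank_eq
  have hcard : Fintype.card K = q ^ 6 := by
    rw [Module.card_eq_pow_finrank (K := F), hK3, hF, ← pow_mul]
  obtain ⟨e, he⟩ := hex K hcard
  have : Fact q.Prime := ⟨hqp⟩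
  have : CharP K q := charP_of_card_eq_prime_pow hcard
  have : CharP F q := charP_of_card_eq_prime_pow hF
  have hpF : ∀ a : F, a ^ (q * q) = a := fun a => by
    rw [← sq, ← hF, FiniteField.pow_card]
  have hcast : ∀ i j, (∑ k, (T i j k : F)) = if i = j then 1 else 0 := fun i j => by
    rw [← Nat.cast_sum, CharP.natCast_eq_natCast' F q (by
      show (∑ k, T i j k) ≡ (if i = j then 1 else 0) [MOD q]
      rw [Nat.ModEq, hT]
      split_ifs
      exacts [(Nat.mod_eq_of_lt hqp.one_lt).symm, (Nat.zero_mod q).symm])]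
    split_ifs <;> simp
  let ofC : (Fin 3 → F) →ₗ[F] K := Fintype.linearCombination F e
  have hofC : ∀ c, ofC c = ∑ i, algebraMap F K (c i) * e i := fun c => by
    simp [ofC, Fintype.linearCombination_apply, Algebra.smul_def]
  have hsingle : ∀ i, ofC (Pi.single i 1) = e i := fun i => by
    simp [ofC, Fintype.linearCombination_apply_single]
  have hmul : ∀ c d, ofC c * ofC d = ofC (mulT T c d) := by
    intro c d
    simp only [hofC, mulT, map_sum, map_mul, map_natCast, Fin.sum_univ_three, map_add]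
    linear_combination (algebraMap F K (c 0) * algebraMap F K (d 0)) * (he.mul 0 0).trans (Fin.sum_univ_three _) +
      (algebraMap F K (c 0) * algebraMap F K (d 1)) * (he.mul 0 1).trans (Fin.sum_univ_three _) +
      (algebraMap F K (c 0) * algebraMap F K (d 2)) * (he.mul 0 2).trans (Fin.sum_univ_three _) +
      (algebraMap F K (c 1) * algebraMap F K (d 0)) * (he.mul 1 0).trans (Fin.sum_univ_three _) +
      (algebraMap F K (c 1) * algebraMap F K (d 1)) * (he.mul 1 1).trans (Fin.sum_univ_three _) +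
      (algebraMap F K (c 1) * algebraMap F K (d 2)) * (he.mul 1 2).trans (Fin.sum_univ_three _) +
      (algebraMap F K (c 2) * algebraMap F K (d 0)) * (he.mul 2 0).trans (Fin.sum_univ_three _) +
      (algebraMap F K (c 2) * algebraMap F K (d 1)) * (he.mul 2 1).trans (Fin.sum_univ_three _) +
      (algebraMap F K (c 2) * algebraMap F K (d 2)) * (he.mul 2 2).trans (Fin.sum_univ_three _)
  have hs1 : ofC (fun _ => 1) = 1 := by rw [hofC]; simp [he.sum]
  have hbij : Function.Bijective ofC := by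
    let A : Subalgebra F K := (LinearMap.range ofC).toSubalgebra ⟨fun _ => 1, hs1⟩
      (by rintro _ _ ⟨c, rfl⟩ ⟨d, rfl⟩; exact ⟨_, (hmul c d).symm⟩)
    have hA : e 0 ∈ A := ⟨Pi.single 0 1, hsingle 0⟩
    have := Subalgebra.isSimpleOrder_of_finrank_prime F K (by rw [hK3]; norm_num)
    have htop : A = ⊤ := (eq_bot_or_eq_top A).resolve_left fun hb => by
      obtain ⟨w, hw⟩ : e 0 ∈ (⊥ : Subalgebra F K) := hb ▸ hA
      change algebraMap F K w = e 0 at hw
      have h1 : e 1 = e 0 := by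
        show e (0 + 1) = e 0
        rw [← he.frob, ← hw, ← map_pow, hpF]
      have h2 : e 2 = e 0 := by
        show e (1 + 1) = e 0
        rw [← he.frob, h1, ← hw, ← map_pow, hpF]
      have h00 := he.mul 0 0
      rw [Fin.sum_univ_three, h1, h2, ← add_mul, ← add_mul] at h00
      have hc : ((T 0 0 0 : K) + T 0 0 1 + T 0 0 2) = 1 := by
        rw [← Nat.cast_add, ← Nat.cast_add, ← map_natCast (algebraMap F K), ← map_one (algebraMap F K)]
        congr 1
        simpa [Fin.sum_univ_three] using hcast 0 0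
      have hsum := he.sum
      rw [Fin.sum_univ_three, h1, h2] at hsum
      have he0 : e 0 ≠ 0 := fun h => by simp [h] at hsum
      rw [hc, one_mul] at h00
      have he1 : e 0 = 1 := mul_left_cancel₀ he0 (h00.trans (mul_one _).symm)
      rw [he1] at hsum
      have h2K : ((2 : ℕ) : K) = 0 := by push_cast; linear_combination hsum
      exact hq2 ((Nat.prime_dvd_prime_iff_eq hqp Nat.prime_two).1 ((CharP.cast_eq_zero_iff K q 2).1 h2K))
    have hs : Function.Surjective ofC := fun x => (htop ▸ Algebra.mem_top : x ∈ A)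
    exact ⟨(LinearMap.injective_iff_surjective_of_finrank_eq_finrank (by rw [Module.finrank_fin_fun, hK3])).2 hs, hs⟩
  let E := LinearEquiv.ofBijective ofC hbij
  have hE : ∀ c, E c = ofC c := fun c => rfl
  have hconj : ∀ c, ofC c ^ q ^ 3 = ofC (fun i => c i ^ q) := by
    intro c
    rw [hofC, hofC, sum_pow_char_pow]
    refine Finset.sum_congr rfl fun i _ => ?_
    rw [mul_pow, he.fix, ← map_pow]
    congr 2
    rw [show q ^ 3 = q * q * q by ring, pow_mul, hpF]
  have hfrob : ∀ (m : ℕ) c, ofC c ^ (q * q) ^ m = ofC (fun i => c (i - (m : Fin 3))) := by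
    intro m
    induction m with
    | zero => intro c; simp
    | succ m ih =>
      intro c
      rw [pow_succ, pow_mul, ih, hofC, hofC, ← sq, show q ^ 2 = q ^ 2 from rfl, sum_pow_char_pow]
      rw [← Equiv.sum_comp (Equiv.addRight (1 : Fin 3)) (fun i => algebraMap F K (c (i - ((m + 1 : ℕ) : Fin 3))) * e i)]
      refine Finset.sum_congr rfl fun i _ => ?_
      rw [mul_pow, sq, he.frob, ← map_pow, hpF, Equiv.coe_addRight]
      congr 2
      rw [Nat.cast_succ]
      exact congrArg c (add_sub_add_right_eq_sub _ _ _).symm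
  let L0 : K →ₗ[F] F := (∑ k : Fin 3, LinearMap.proj k) ∘ₗ E.symm.toLinearMap
  have hL0E : ∀ c, L0 (ofC c) = ∑ k, c k := fun c => by
    rw [← hE]
    simp [L0]
  have hL0 : ∀ c d, L0 (ofC c * ofC d) = ∑ i, c i * d i := by
    intro c d
    rw [hmul, hL0E]
    simp only [mulT]
    rw [Finset.sum_comm]
    refine Finset.sum_congr rfl fun i _ => ?_
    rw [Finset.sum_comm, Finset.sum_eq_single i (fun j _ hj => ?_) (fun h => absurd (Finset.mem_univ i) h)]
    · rw [← Finset.sum_mul, ← Finset.sum_mul, hcast, if_pos rfl, one_mul]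
    · rw [← Finset.sum_mul, ← Finset.sum_mul, hcast, if_neg (Ne.symm hj), zero_mul, zero_mul]
  have hL0j : ∀ c j, L0 (ofC c * e j) = c j := fun c j => by
    rw [← hsingle, hL0]
    simp [Pi.single_apply]
  -- the adjoint map of K
  let D := unitaryData hF 3
  have hadjK : ∀ k ∈ K, D.adj k ∈ K := by
    intro k hk
    obtain ⟨k', hk', hkk⟩ := hadj k hk
    have e' : D.adj k = k' := by
      refine Matrix.ext_of_mulVec_single fun i => ?_
      have hpt : ∀ u, hermForm 3 F q u (D.adj k *ᵥ Pi.single i 1) = hermForm 3 F q u (k' *ᵥ Pi.single i 1) := by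
        intro u
        rw [← hkk, ← unitaryData_form hF, D.form_adj]
      funext j
      have h1 := hpt (Pi.single j 1)
      rw [H3.hermForm_single_left, H3.hermForm_single_left, one_mul, one_mul] at h1
      exact (H3.conjQ hF).injective (by rwa [H3.conjQ_apply, H3.conjQ_apply])
    rw [e']; exact hk'
  let τ : K →+* K :=
    { toFun := fun x => ⟨D.adj x, hadjK _ x.2⟩
      map_one' := Subtype.ext D.adj_one
      map_mul' := fun x y => Subtype.ext (by
        show D.adj ((x : Matrix (Fin 3) (Fin 3) F) * y) = D.adj x * D.adj y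
        rw [hK.comm x x.2 y y.2, D.adj_mul])
      map_zero' := Subtype.ext D.adj_zero
      map_add' := fun x y => Subtype.ext (D.adj_add _ _) }
  have hττ : ∀ x, τ (τ x) = x := fun x => Subtype.ext (D.adj_adj _)
  have hτid : τ ≠ RingHom.id K := fun h => by
    obtain ⟨c, hc⟩ := H3.exists_conj_ne hF
    have h1 : D.adj (algebraMap F _ c) = algebraMap F _ c :=
      congrArg Subtype.val (RingHom.congr_fun h ⟨_, K.algebraMap_mem c⟩)
    rw [D.adj_algebraMap] at h1
    exact hc ((algebraMap F (Matrix (Fin 3) (Fin 3) F)).injective h1)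
  obtain ⟨K', hK', hK'c⟩ := card_eq_sq_fixed τ hττ hτid
  have hK'q : Nat.card K' = q ^ 3 := Nat.pow_left_injective two_ne_zero (by
    show Nat.card K' ^ 2 = (q ^ 3) ^ 2
    rw [← hK'c, hcard, ← pow_mul])
  have hmem : ∀ x : K, τ x = x ↔ x ^ q ^ 3 = x := fun x => by
    rw [← hK', mem_subfield_iff, hK'q]
  have hτpow : ∀ x : K, τ x = x ^ q ^ 3 := fun x => by
    have hs := (hmem (x + τ x)).1 (by rw [map_add, hττ, add_comm])
    have hp := (hmem (x * τ x)).1 (by rw [map_mul, hττ, mul_comm])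
    rw [add_pow_char_pow] at hs
    rw [mul_pow] at hp
    have key : (x ^ q ^ 3 - x) * (x ^ q ^ 3 - τ x) = 0 := by linear_combination (x ^ q ^ 3) * hs - hp
    rcases mul_eq_zero.1 key with h | h
    · rw [(hmem x).2 (sub_eq_zero.1 h), sub_eq_zero.1 h]
    · exact (sub_eq_zero.1 h).symm
  -- the form on the line over K
  let ev : K → (Fin 3 → F) → (Fin 3 → F) := fun k v => (k : Matrix (Fin 3) (Fin 3) F) *ᵥ v
  have hev : ∀ (k l : K) v, ev k (ev l v) = ev (k * l) v := fun k l v => by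
    simp [ev, Matrix.mulVec_mulVec]
  have hform : ∀ (k l : K) v, hermForm 3 F q (ev k v) (ev l v) = hermForm 3 F q (ev (k * l ^ q ^ 3) v) v := by
    intro k l v
    rw [mul_comm k, ← hτpow, ← hev]
    show _ = hermForm 3 F q ((τ l : Matrix (Fin 3) (Fin 3) F) *ᵥ ev k v) v
    rw [← unitaryData_form hF]
    conv_rhs => rw [D.form_adj]
    show _ = D.form _ (D.adj (D.adj (l : Matrix (Fin 3) (Fin 3) F)) *ᵥ v)
    rw [D.adj_adj]
  let v₀ : Fin 3 → F := Pi.single 0 1
  have hv₀ : v₀ ≠ 0 := fun h => by simpa [v₀] using congrFun h 0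
  obtain ⟨Φ, hΦ⟩ := H97.exists_eval_equiv (by norm_num) hK hv₀
  have hΦ' : ∀ k, Φ k = ev k v₀ := hΦ
  let L : K →ₗ[F] F :=
    { toFun := fun k => hermForm 3 F q (ev k v₀) v₀
      map_add' := fun a b => by
        simp only [ev]
        rw [Subalgebra.coe_add, Matrix.add_mulVec, H3.hermForm_add_left hF]
      map_smul' := fun a k => by
        simp only [ev, RingHom.id_apply, smul_eq_mul]
        rw [Subalgebra.coe_smul, Matrix.smul_mulVec, H3.hermForm_smul_left hF] }
  let cL : Fin 3 → F := fun i => L (e i)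
  have hL : ∀ z, L z = L0 (ofC cL * z) := by
    intro z
    obtain ⟨d, rfl⟩ := E.surjective z
    rw [hE, hL0, show ofC d = ∑ i, d i • e i from Fintype.linearCombination_apply F e d, map_sum]
    simp [cL, mul_comm]
  have hcconj : ∀ i, cL i ^ q = cL i := by
    intro i
    have h1 : τ (e i) = e i := (hmem _).2 (he.fix i)
    show (hermForm 3 F q (ev (e i) v₀) v₀) ^ q = hermForm 3 F q (ev (e i) v₀) v₀
    rw [H3.hermForm_pow_q hF]
    conv_rhs => rw [← h1]
    show _ = hermForm 3 F q ((τ (e i) : Matrix (Fin 3) (Fin 3) F) *ᵥ v₀) v₀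
    rw [← unitaryData_form hF, D.form_adj]
    show _ = D.form _ (D.adj (D.adj _) *ᵥ v₀)
    rw [D.adj_adj]
  set cK := ofC cL
  have hcq : cK ^ q ^ 3 = cK := by
    rw [hconj]
    exact congrArg _ (funext hcconj)
  have hc0 : cK ≠ 0 := by
    intro h
    obtain ⟨x, hx⟩ := H3.exists_hermForm_eq_one hF hv₀
    obtain ⟨k, rfl⟩ := Φ.surjective x
    have h1 : L k = 1 := by
      show hermForm 3 F q (ev k v₀) v₀ = 1
      rw [← hΦ']; exact hx
    rw [hL, h, zero_mul, map_zero] at h1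
    exact zero_ne_one h1
  obtain ⟨a, ha⟩ : ∃ a : K, a ^ (q ^ 3 + 1) = cK⁻¹ := by
    obtain ⟨g, hg⟩ := IsCyclic.exists_generator (α := Kˣ)
    obtain ⟨j, hj⟩ := (mem_powers_iff_mem_zpowers (x := g)).2 (hg (Units.mk0 cK⁻¹ (inv_ne_zero hc0)))
    have hgo : orderOf g = (q ^ 3 - 1) * (q ^ 3 + 1) := by
      rw [orderOf_eq_card_of_forall_mem_zpowers hg, Nat.card_units, Nat.card_eq_fintype_card, hcard,
        show q ^ 6 = q ^ 3 * q ^ 3 by ring]
      have h0 : 1 ≤ q ^ 3 := Nat.one_le_pow _ _ hqp.pos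
      obtain ⟨r, hr⟩ := Nat.exists_eq_add_of_le h0
      rw [hr, Nat.add_sub_cancel_left]
      ring_nf
      omega
    have h1 : g ^ ((q ^ 3 - 1) * j) = 1 := by
      rw [mul_comm, pow_mul, show g ^ j = _ from hj]
      refine Units.ext ?_
      show cK⁻¹ ^ (q ^ 3 - 1) = 1
      rw [inv_pow, inv_eq_one]
      exact mul_left_cancel₀ hc0 (by rw [← pow_succ', Nat.sub_add_cancel (Nat.one_le_pow _ _ hqp.pos), hcq, mul_one])
    have hdvd := orderOf_dvd_of_pow_eq_one h1
    rw [hgo] at hdvd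
    have hpos : 0 < q ^ 3 - 1 := by
      have : 2 ^ 3 ≤ q ^ 3 := Nat.pow_le_pow_left hqp.two_le 3
      omega
    obtain ⟨i, hi⟩ := Nat.dvd_of_mul_dvd_mul_left hpos hdvd
    refine ⟨((g ^ i : Kˣ) : K), ?_⟩
    rw [← Units.val_pow_eq_pow_val, ← pow_mul, mul_comm, ← hi, show g ^ j = _ from hj]
    rfl
  have ha0 : a ≠ 0 := fun h => inv_ne_zero hc0 (by rw [← ha, h, zero_pow (by omega)])
  let v₁ := ev a v₀
  have hv₁ : v₁ ≠ 0 := fun h => hv₀ (H97.mulVec_injective hK a.2 (fun h' => ha0 (Subtype.ext h')) h)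
  have hiso : ∀ k l, hermForm 3 F q (ev k v₁) (ev l v₁) = L0 (k * l ^ q ^ 3) := by
    intro k l
    simp only [v₁]
    rw [hev, hev, hform]
    show L _ = _
    rw [hL]
    congr 1
    rw [show cK * (k * a * (l * a) ^ q ^ 3) = (cK * a ^ (q ^ 3 + 1)) * (k * l ^ q ^ 3) by ring, ha,
      mul_inv_cancel₀ hc0, one_mul]
  obtain ⟨Φ₁, hΦ₁⟩ := H97.exists_eval_equiv (by norm_num) hK hv₁
  have hΦ₁' : ∀ k, Φ₁ k = ev k v₁ := hΦ₁
  let G : (Fin 3 → F) ≃ₗ[F] (Fin 3 → F) := E.trans Φ₁
  have hG : ∀ c d, hermForm 3 F q (G c) (G d) = hermForm 3 F q c d := by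
    intro c d
    show hermForm 3 F q (Φ₁ (E c)) (Φ₁ (E d)) = _
    rw [hΦ₁', hΦ₁', hiso, hE, hE, hconj, hL0]
    rfl
  refine ⟨(H3.guOfEquiv G hG).1, (H3.guOfEquiv G hG).2, fun g hg c => ?_⟩
  set P := (H3.guOfEquiv G hG).1
  have hP : ∀ u, (P : Matrix (Fin 3) (Fin 3) F) *ᵥ u = G u := H3.guOfEquiv_mulVec G hG
  obtain ⟨hgK, hgSU⟩ := hg
  set Mg := (g : Matrix (Fin 3) (Fin 3) F)
  set Mg' := ((g⁻¹ : GL (Fin 3) F) : Matrix (Fin 3) (Fin 3) F)
  have hgg : Mg' * Mg = 1 := Units.inv_mul g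
  let σ : K →ₐ[F] K :=
    { toFun := fun y => ⟨Mg * y * Mg', (hgK y).1 y.2⟩
      map_one' := Subtype.ext (by simp [Mg, Mg'])
      map_mul' := fun x y => Subtype.ext (by
        show Mg * (x * y : Matrix (Fin 3) (Fin 3) F) * Mg' = Mg * x * Mg' * (Mg * y * Mg')
        rw [show Mg * (x : Matrix (Fin 3) (Fin 3) F) * Mg' * (Mg * y * Mg') =
          Mg * x * (Mg' * Mg) * y * Mg' by simp only [mul_assoc], hgg, mul_one]
        simp only [mul_assoc])
      map_zero' := Subtype.ext (by simp)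
      map_add' := fun x y => Subtype.ext (by simp [mul_add, add_mul])
      commutes' := fun c => Subtype.ext (by simp [Algebra.algebraMap_eq_smul_one, Mg, Mg']) }
  have : Algebra.IsAlgebraic F K := Algebra.IsAlgebraic.of_finite F K
  obtain ⟨⟨m, _hm⟩, hmσ⟩ := (FiniteField.bijective_frobeniusAlgEquivOfAlgebraic_pow F K).2
    (AlgEquiv.ofBijective σ ⟨σ.toRingHom.injective, Finite.injective_iff_surjective.1 σ.toRingHom.injective⟩)
  have hσ : ∀ k : K, σ k = k ^ ((q * q) ^ m) := fun k => by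
    have h1 := DFunLike.congr_fun hmσ k
    simp only [AlgEquiv.coe_pow, FiniteField.coe_frobeniusAlgEquivOfAlgebraic_iterate] at h1
    rw [hF, sq] at h1
    exact h1.symm
  obtain ⟨b, hb⟩ := Φ₁.surjective (Mg *ᵥ v₁)
  rw [hΦ₁'] at hb
  have hgk : ∀ k : K, Mg *ᵥ ev k v₁ = ev (σ k * b) v₁ := by
    intro k
    rw [← hev, hb]
    show Mg *ᵥ ((k : Matrix (Fin 3) (Fin 3) F) *ᵥ v₁) =
      (Mg * (k : Matrix (Fin 3) (Fin 3) F) * Mg') *ᵥ (Mg *ᵥ v₁)
    exact ((Matrix.mulVec_mulVec v₁ _ _).trans (by rw [mul_assoc (Mg * _), hgg, mul_one])).trans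
      (Matrix.mulVec_mulVec v₁ _ _).symm
  have hσe : ∀ j, σ (e (j - (m : Fin 3))) = e j := fun j => by
    rw [hσ, ← hsingle, hfrob, ← hsingle]
    refine congrArg ofC (funext fun i => ?_)
    simp only [Pi.single_apply, sub_left_inj]
  have hbN : b ^ (q ^ 3 + 1) = 1 := by
    obtain ⟨bc, hbc⟩ := E.surjective (b ^ (q ^ 3 + 1))
    have h1 : ∀ j, bc j = 1 := fun j => by
      have h2 : hermForm 3 F q (Mg *ᵥ ev (e (j - (m : Fin 3))) v₁) (Mg *ᵥ ev 1 v₁) =
          hermForm 3 F q (ev (e (j - (m : Fin 3))) v₁) (ev 1 v₁) := hgSU.1 _ _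
      rw [hgk, hgk, hσe, map_one, one_mul, hiso, hiso, one_pow, mul_one,
        show e j * b * b ^ q ^ 3 = ofC bc * e j by rw [← hE, hbc]; ring, hL0j,
        ← hsingle, hL0E] at h2
      rw [h2]
      simp
    rw [← hbc, hE, show bc = fun _ => 1 from funext h1, hs1]
  obtain ⟨d, hd⟩ := E.surjective (σ (E c) * b)
  have hgc : ((P⁻¹ * g * P : GL (Fin 3) F) : Matrix (Fin 3) (Fin 3) F) *ᵥ c = d := by
    have h1 : Mg *ᵥ ((P : Matrix (Fin 3) (Fin 3) F) *ᵥ c) = (P : Matrix (Fin 3) (Fin 3) F) *ᵥ d := by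
      rw [hP, hP]
      show _ *ᵥ Φ₁ (E c) = Φ₁ (E d)
      rw [hΦ₁', hΦ₁', hgk, hd]
    rw [Units.val_mul, Units.val_mul, ← Matrix.mulVec_mulVec, ← Matrix.mulVec_mulVec, h1,
      Matrix.mulVec_mulVec, Units.inv_mul, Matrix.one_mulVec]
  have hnorm : ∀ x, ofC (normT T q x) = ofC x ^ (q ^ 3 + 1) := fun x => by
    rw [pow_succ', hconj, hmul]
    rfl
  refine ⟨?_, -(m : Fin 3), fun k => ?_⟩
  · -- the norm of the multiplier is one
    let sh : (Fin 3 → F) ≃ₗ[F] (Fin 3 → F) := LinearEquiv.funCongrLeft F F (Equiv.addRight (-(m : Fin 3)))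
    have hshv : ∀ x : Fin 3 → F, sh x = fun i => x (i - (m : Fin 3)) := fun x => by
      funext i
      simp [sh, LinearEquiv.funCongrLeft, sub_eq_add_neg]
    have hshdet : LinearMap.det (sh : (Fin 3 → F) →ₗ[F] (Fin 3 → F)) = 1 := by
      rw [show (sh : (Fin 3 → F) →ₗ[F] (Fin 3 → F)) =
          Matrix.toLin' (Equiv.Perm.permMatrix F (Equiv.addRight (-(m : Fin 3)))) by
        refine LinearMap.ext fun x => ?_
        rw [Matrix.toLin'_apply, Matrix.permMatrix_mulVec]
        rfl, LinearMap.det_toLin', Matrix.det_permutation]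
      generalize (m : Fin 3) = m'
      have hsgn : ∀ x : Fin 3, Equiv.Perm.sign (Equiv.addRight x) = 1 := by decide
      simp [hsgn]
    have hgdet : Algebra.norm F b = 1 := by
      have h1 : ((P⁻¹ * g * P : GL (Fin 3) F) : Matrix (Fin 3) (Fin 3) F).det = 1 := by
        rw [Units.val_mul, Units.val_mul, Matrix.det_units_conj']
        exact mem_specialLinear_iff.1 hgSU.2
      have h2 : Matrix.toLin' ((P⁻¹ * g * P : GL (Fin 3) F) : Matrix (Fin 3) (Fin 3) F) =
          (((E.symm : K ≃ₗ[F] (Fin 3 → F)) : K →ₗ[F] (Fin 3 → F)) ∘ₗ ((Algebra.lmul F K b) ∘ₗ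
            ((E.symm.symm : (Fin 3 → F) ≃ₗ[F] K) : (Fin 3 → F) →ₗ[F] K))) ∘ₗ (sh : (Fin 3 → F) →ₗ[F] (Fin 3 → F)) := by
        refine LinearMap.ext fun x => ?_
        rw [Matrix.toLin'_apply]
        obtain ⟨d', hd'⟩ := E.surjective (σ (E x) * b)
        have h1' : Mg *ᵥ ((P : Matrix (Fin 3) (Fin 3) F) *ᵥ x) = (P : Matrix (Fin 3) (Fin 3) F) *ᵥ d' := by
          rw [hP, hP]
          show _ *ᵥ Φ₁ (E x) = Φ₁ (E d')
          rw [hΦ₁', hΦ₁', hgk, hd']
        rw [Units.val_mul, Units.val_mul, ← Matrix.mulVec_mulVec, ← Matrix.mulVec_mulVec, h1',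
          Matrix.mulVec_mulVec, Units.inv_mul, Matrix.one_mulVec]
        refine E.injective ?_
        simp only [LinearMap.comp_apply, LinearEquiv.coe_coe, LinearEquiv.symm_symm, LinearEquiv.apply_symm_apply,
          hshv, hd']
        rw [hσ, hE, hfrob, ← hE, mul_comm]
        rfl
      rw [← LinearMap.det_toLin', h2, LinearMap.det_comp, hshdet, mul_one, LinearMap.det_conj] at h1
      rwa [Algebra.norm_apply]
    have hQQ : (q ^ 6 - 1) / (q ^ 2 - 1) = (q * q) * (q * q) + q * q + 1 := by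
      have h4 : 4 ≤ q ^ 2 := le_trans (by norm_num) (Nat.pow_le_pow_left hqp.two_le 2)
      refine Nat.div_eq_of_eq_mul_left (by omega) ?_
      obtain ⟨r, hr⟩ := Nat.exists_eq_add_of_le (show 1 ≤ q ^ 2 by omega)
      rw [show q ^ 6 = q ^ 2 * q ^ 2 * q ^ 2 by ring, ← sq q, hr, Nat.add_sub_cancel_left]
      ring_nf
      omega
    have hpow : ∀ x : K, x ^ ((q * q) * (q * q) + q * q + 1) = algebraMap F K (Algebra.norm F x) := by
      intro x
      rw [FiniteField.algebraMap_norm_eq_pow, Nat.card_eq_fintype_card, Nat.card_eq_fintype_card, hcard, hF, hQQ]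
    have hnu : ∀ x, nuT T x = Algebra.norm F (ofC x) := by
      intro x
      have h1 : ofC (mulT T (mulT T x fun i => x (i - 1)) fun i => x (i - 2)) =
          ofC (fun _ => Algebra.norm F (ofC x)) := by
        rw [← hmul, ← hmul]
        have e1 : ofC (fun i => x (i - 1)) = ofC x ^ (q * q) ^ 1 := by rw [hfrob]; simp
        have e2 : ofC (fun i => x (i - 2)) = ofC x ^ (q * q) ^ 2 := by rw [hfrob]; simp
        rw [e1, e2, show (fun _ : Fin 3 => Algebra.norm F (ofC x)) = Algebra.norm F (ofC x) • fun _ => (1 : F) by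
          funext i; simp, map_smul, hs1, ← Algebra.algebraMap_eq_smul_one, ← hpow]
        ring
      exact congrFun (hbij.1 h1) 0
    have hσnorm : Algebra.norm F (σ (E c)) = Algebra.norm F (E c) := by
      apply (algebraMap F K).injective
      rw [← hpow, ← hpow, ← map_pow, hpow, AlgHom.commutes]
    rw [hgc, hnu, hnu, ← hE, hd, map_mul, hgdet, mul_one, hσnorm, hE]
  rw [hgc]
  have key : normT T q d = fun i => normT T q c (i - (m : Fin 3)) := hbij.1 (by
    rw [hnorm, ← hE d, hd, mul_pow, hbN, mul_one, ← map_pow, hE, ← hnorm, hσ, hfrob])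
  simp only [key, sub_eq_add_neg]

end Cfsg.Agent.H3.UMax.Normal
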