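import Mathlib

/-!
The field of 64 elements in a self-dual normal basis over the field of four elements.
-/

set_option autoImplicit false

namespace Cfsg.Agent.H3.UMax.Three

variable {F K : Type*} [Field F] [Field K] [Algebra F K] {β : K}

/-- The product in the normal basis. -/
def mulC (c d : Fin 3 → F) (k : Fin 3) : F :=
  c (k + 2) * d (k + 2) + c k * d (k + 1) + c (k + 1) * d k + c (k + 1) * d (k + 2) + c (k + 2) * d (k + 1)

lemma sum_mulC (h2 : (2 : F) = 0) (c d : Fin 3 → F) : ∑ k, mulC c d k = ∑ i, c i * d i := by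
  simp [mulC, Fin.sum_univ_three]
  grind

/-- The conjugates of the root. -/
def nb (β : K) (i : Fin 3) : K := β ^ 2 ^ (i : ℕ)

/-- The element with the given coordinates. -/
noncomputable def ofCoord (β : K) : (Fin 3 → F) →ₗ[F] K := Fintype.linearCombination F (nb β)

lemma ofCoord_apply (c : Fin 3 → F) : ofCoord β c = ∑ i, algebraMap F K (c i) * nb β i := by
  simp [ofCoord, Fintype.linearCombination_apply, Algebra.smul_def]

lemma ofCoord_single (i : Fin 3) : ofCoord β (Pi.single i (1 : F)) = nb β i := by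
  simp [ofCoord, Fintype.linearCombination_apply_single]

/-- A root of x^3 + x^2 + 1. -/
structure IsCubic (β : K) : Prop where
  two : (2 : K) = 0
  root : β ^ 3 + β ^ 2 + 1 = 0

variable (hβ : IsCubic β)
include hβ

lemma fix : β ^ 8 = β := by
  obtain ⟨h2, hp⟩ := hβ
  grind

lemma sum_nb : ∑ i, nb β i = 1 := by
  obtain ⟨h2, hp⟩ := hβ
  simp [nb, Fin.sum_univ_three]
  grind

lemma table : nb β 0 * nb β 1 = nb β 0 + nb β 2 ∧ nb β 1 * nb β 2 = nb β 1 + nb β 0 ∧
    nb β 2 * nb β 0 = nb β 2 + nb β 1 ∧ nb β 0 * nb β 0 = nb β 1 ∧ nb β 1 * nb β 1 = nb β 2 ∧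
    nb β 2 * nb β 2 = nb β 0 := by
  obtain ⟨h2, hp⟩ := hβ
  simp only [nb, Fin.val_zero, Fin.val_one, Fin.val_two]
  refine ⟨?_, ?_, ?_, ?_, ?_, ?_⟩ <;> grind

lemma nb_sq (i : Fin 3) : nb β i ^ 2 = nb β (i + 1) := by
  obtain ⟨-, -, -, a, b, c⟩ := table hβ
  fin_cases i <;> simpa [sq] using (by assumption)

lemma nb_fix (i : Fin 3) : nb β i ^ 8 = nb β i := by
  rw [nb, ← pow_mul, mul_comm, pow_mul, fix hβ]

/-- Multiplication in coordinates. -/
lemma ofCoord_mul (c d : Fin 3 → F) : ofCoord β c * ofCoord β d = ofCoord β (mulC c d) := by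
  obtain ⟨p01, p12, p20, s0, s1, s2⟩ := table hβ
  simp only [ofCoord_apply, Fin.sum_univ_three, mulC, Fin.reduceAdd, map_add, map_mul]
  generalize algebraMap F K (c 0) = a0, algebraMap F K (c 1) = a1, algebraMap F K (c 2) = a2,
    algebraMap F K (d 0) = b0, algebraMap F K (d 1) = b1, algebraMap F K (d 2) = b2
  linear_combination (a0 * b0) * s0 + (a1 * b1) * s1 + (a2 * b2) * s2 +
    (a0 * b1 + a1 * b0) * p01 + (a1 * b2 + a2 * b1) * p12 + (a2 * b0 + a0 * b2) * p20

variable [Fintype F] (h4 : Fintype.card F = 2 ^ 2)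
include h4

/-- The conjugates form a basis. -/
theorem ofCoord_bijective [FiniteDimensional F K] (h3 : Module.finrank F K = 3) :
    Function.Bijective (ofCoord (F := F) β) := by
  let A : Subalgebra F K := (LinearMap.range (ofCoord (F := F) β)).toSubalgebra
    ⟨fun _ => 1, by rw [ofCoord_apply]; simp [sum_nb hβ]⟩
    (by rintro _ _ ⟨c, rfl⟩ ⟨d, rfl⟩; exact ⟨_, (ofCoord_mul hβ c d).symm⟩)
  have hA : β ∈ A := ⟨Pi.single 0 1, by rw [ofCoord_single]; simp [nb]⟩
  have := Subalgebra.isSimpleOrder_of_finrank_prime F K (by rw [h3]; norm_num)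
  have htop : A = ⊤ := (eq_bot_or_eq_top A).resolve_left fun e => by
    obtain ⟨w, hw⟩ : β ∈ (⊥ : Subalgebra F K) := e ▸ hA
    have h : w ^ 4 = w := by
      have h := FiniteField.pow_card w
      rwa [h4] at h
    have hr := hβ.root
    have h2 := hβ.two
    have h4' : β ^ 4 = β := by rw [← hw, ← map_pow]; exact congrArg _ h
    grind
  have hs : Function.Surjective (ofCoord (F := F) β) := fun x => (htop ▸ Algebra.mem_top : x ∈ A)
  exact ⟨(LinearMap.injective_iff_surjective_of_finrank_eq_finrank (by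
    rw [Module.finrank_fin_fun, h3])).2 hs, hs⟩

/-- The involution of the field in coordinates. -/
theorem ofCoord_pow8 (c : Fin 3 → F) : ofCoord β c ^ 8 = ofCoord β (fun i => c i * c i) := by
  have hc : CharP K 2 := CharTwo.of_one_ne_zero_of_two_eq_zero one_ne_zero hβ.two
  have hw : ∀ w : F, w ^ 8 = w * w := fun w => by
    have h := FiniteField.pow_card w
    rw [h4] at h
    norm_num at h
    calc w ^ 8 = (w ^ 4) ^ 2 := by ring
      _ = w * w := by rw [h, sq]
  rw [ofCoord_apply, ofCoord_apply, show (8 : ℕ) = 2 ^ 3 by norm_num, sum_pow_char_pow]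
  refine Finset.sum_congr rfl fun i _ => ?_
  rw [show 2 ^ 3 = (8 : ℕ) by norm_num, mul_pow, nb_fix hβ, ← map_pow, hw]

omit hβ h4 in
/-- The field of 64 elements contains a root. -/
theorem exists_cubic [Fintype K] (hK : Fintype.card K = 64) : ∃ β : K, IsCubic β := by
  classical
  have h2 : (2 : K) = 0 := by
    have h : (Fintype.card K : K) = 0 := FiniteField.cast_card_eq_zero K
    rw [hK] at h
    push_cast at h
    exact (pow_eq_zero_iff (n := 6) (by norm_num)).1 (by linear_combination h)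
  obtain ⟨g, hg⟩ := IsCyclic.exists_ofOrder_eq_natCard (α := Kˣ)
  rw [Nat.card_units, Nat.card_eq_fintype_card, hK] at hg
  let z : K := ((g ^ 9 : Kˣ) : K)
  have hzo : orderOf z = 7 := by
    show orderOf ((g ^ 9 : Kˣ) : K) = 7
    rw [orderOf_units, orderOf_pow, hg]
    norm_num
  have h7 : z ^ 7 = 1 := hzo ▸ pow_orderOf_eq_one z
  have hne : z ≠ 1 := fun e => by rw [e, orderOf_one] at hzo; norm_num at hzo
  have key : (z - 1) * ((z ^ 3 + z + 1) * (z ^ 3 + z ^ 2 + 1)) = 0 := by
    linear_combination h7 + (z ^ 4 - z ^ 3) * h2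
  rcases mul_eq_zero.1 ((mul_eq_zero.1 key).resolve_left (sub_ne_zero.2 hne)) with h | h
  · exact ⟨z + 1, h2, by linear_combination h + (2 * z ^ 2 + 2 * z + 1) * h2⟩
  · exact ⟨z, h2, h⟩

end Cfsg.Agent.H3.UMax.Three
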