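import Mathlib

/-!
The field of 1024 elements in a self-dual normal basis over the field of four elements, and a set of values of the
norm to the field of 32 elements which is invariant under an even permutation of the coordinates.
-/

set_option autoImplicit false

namespace Cfsg.Agent.H3.UMax

/-- The product in the normal basis. -/
def mulE {R : Type*} (ad mu : R → R → R) (c d : Fin 5 → R) (k : Fin 5) : R :=
  let t := fun i j => mu (c (k + i)) (d (k + j))
  ad (ad (ad (ad (t 4 4) (ad (t 0 1) (t 1 0))) (ad (t 2 3) (t 3 2))) (ad (t 2 4) (t 4 2))) (ad (t 1 3) (t 3 1))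

/-- The coordinates of the norm to the field of 32 elements. -/
def normE {R : Type*} (ad mu : R → R → R) (c : Fin 5 → R) : Fin 5 → R :=
  mulE ad mu c fun i => mu (c i) (c i)

/-- The target values: all coordinates one but one. -/
def target {R : Type*} (o l : R) (i : Fin 5) (k : Fin 5) : R := if k = i then o else l

/-- Vectors whose norm takes a target value. -/
def inX {F : Type*} [Field F] (c : Fin 5 → F) : Prop :=
  ∃ i, ∀ k, normE (· + ·) (· * ·) c k = target (0 : F) 1 i k

/-! ### The model of the field of four elements -/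

/-- Addition of pairs of bits. -/
def add4 (x y : Bool × Bool) : Bool × Bool := (x.1.xor y.1, x.2.xor y.2)

/-- Multiplication of pairs of bits. -/
def mul4 (x y : Bool × Bool) : Bool × Bool :=
  ((x.1 && y.1).xor (x.2 && y.2), ((x.1 && y.2).xor (x.2 && y.1)).xor (x.2 && y.2))

/-- The model of `inX`. -/
def inX4 (c : Fin 5 → Bool × Bool) : Bool :=
  decide (∃ i, ∀ k, normE add4 mul4 c k = target (false, false) (true, false) i k)

set_option maxHeartbeats 4000000 in
theorem inX4_perm : ∀ a b c d e : Bool × Bool, inX4 ![a, b, c, d, e] = inX4 ![c, b, a, e, d] := by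
  decide +kernel

theorem inX4_witness : inX4 ![(false, false), (false, false), (false, false), (true, false), (false, true)] = true ∧
    inX4 ![(false, false), (false, false), (false, false), (true, false), (true, false)] = false := by
  decide +kernel

section Four

variable {F : Type*} [Field F] {ω : F} (htwo : (2 : F) = 0) (hω : ω ^ 2 = ω + 1)

/-- The map from the model. -/
def toF (ω : F) (x : Bool × Bool) : F := (if x.1 then 1 else 0) + (if x.2 then ω else 0)

include htwo in
lemma toF_add (x y : Bool × Bool) : toF ω (add4 x y) = toF ω x + toF ω y := by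
  obtain ⟨a, b⟩ := x; obtain ⟨c, d⟩ := y
  cases a <;> cases b <;> cases c <;> cases d <;> simp [toF, add4] <;> grind

include htwo hω in
lemma toF_mul (x y : Bool × Bool) : toF ω (mul4 x y) = toF ω x * toF ω y := by
  obtain ⟨a, b⟩ := x; obtain ⟨c, d⟩ := y
  cases a <;> cases b <;> cases c <;> cases d <;> simp [toF, mul4] <;> grind

include htwo hω in
lemma toF_injective : Function.Injective (toF ω) := by
  have h0 : ω ≠ 0 := fun e => by simp [e] at hω
  have h1 : ω ≠ 1 := fun e => by subst e; simp at hω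
  rintro ⟨a, b⟩ ⟨c, d⟩ h
  cases a <;> cases b <;> cases c <;> cases d <;> simp [toF] at h ⊢ <;> grind

include htwo hω in
lemma normE_toF (c : Fin 5 → Bool × Bool) (k : Fin 5) :
    normE (· + ·) (· * ·) (fun i => toF ω (c i)) k = toF ω (normE add4 mul4 c k) := by
  simp only [normE, mulE, toF_add htwo, toF_mul htwo hω]

include htwo hω in
lemma inX_toF (c : Fin 5 → Bool × Bool) : inX (fun i => toF ω (c i)) ↔ inX4 c = true := by
  have ht : ∀ i k : Fin 5, target (0 : F) 1 i k = toF ω (target (false, false) (true, false) i k) := fun i k => by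
    simp only [target]; split_ifs <;> simp [toF]
  simp only [inX, inX4, decide_eq_true_eq, ht, normE_toF htwo hω, (toF_injective htwo hω).eq_iff]

variable [Fintype F] (h4 : Fintype.card F = 2 ^ 2)

include h4 in
omit htwo hω in
lemma exists_omega : ∃ w : F, w ^ 2 = w + 1 ∧ (2 : F) = 0 := by
  classical
  obtain ⟨w, -, hw⟩ := Finset.exists_mem_notMem_of_card_lt_card (s := ({0, 1} : Finset F)) (t := Finset.univ)
    (lt_of_le_of_lt Finset.card_le_two (by rw [Finset.card_univ, h4]; norm_num))
  simp only [Finset.mem_insert, Finset.mem_singleton, not_or] at hw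
  have h2 : (2 : F) = 0 := by
    have h : (Fintype.card F : F) = 0 := FiniteField.cast_card_eq_zero F
    rw [h4] at h
    push_cast at h
    exact mul_self_eq_zero.1 (by linear_combination h)
  have h3 := FiniteField.pow_card_sub_one_eq_one w hw.1
  rw [h4] at h3
  norm_num at h3
  refine ⟨w, ?_, h2⟩
  have h5 : (w - 1) * (w ^ 2 + w + 1) = 0 := by linear_combination h3
  have h6 := (mul_eq_zero.1 h5).resolve_left (sub_ne_zero.2 hw.2)
  linear_combination h6 - (w + 1) * h2

include h4 in
omit htwo hω in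
/-- The invariance of the target set under the even permutation. -/
theorem inX_perm (c : Fin 5 → F) : inX c ↔ inX ![c 2, c 1, c 0, c 4, c 3] := by
  obtain ⟨w, hw, h2⟩ := exists_omega h4
  have hs : Function.Surjective (toF w) :=
    ((Fintype.bijective_iff_injective_and_card _).2 ⟨toF_injective h2 hw, by rw [h4]; rfl⟩).2
  choose g hg using hs
  have h := fun d => inX_toF h2 hw (c := d)
  rw [show c = fun i => toF w (![g (c 0), g (c 1), g (c 2), g (c 3), g (c 4)] i) by
    funext i; fin_cases i <;> simp [hg], h, inX4_perm, ← h]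
  simp only [Matrix.cons_val]
  refine iff_of_eq (congrArg inX (funext fun i => ?_))
  fin_cases i <;> simp [hg]

include h4 in
omit htwo hω in
/-- An isotropic vector in the set and one outside it. -/
theorem inX_witness : ∃ u v : Fin 5 → F, u ≠ 0 ∧ v ≠ 0 ∧ ∑ i, u i * u i ^ 2 = 0 ∧ ∑ i, v i * v i ^ 2 = 0 ∧
    inX u ∧ ¬ inX v := by
  obtain ⟨w, hw, h2⟩ := exists_omega h4
  let cu : Fin 5 → Bool × Bool := ![(false, false), (false, false), (false, false), (true, false), (false, true)]
  let cv : Fin 5 → Bool × Bool := ![(false, false), (false, false), (false, false), (true, false), (true, false)]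
  refine ⟨fun i => toF w (cu i), fun i => toF w (cv i), fun e => ?_, fun e => ?_, ?_, ?_,
    (inX_toF h2 hw cu).2 inX4_witness.1, fun e => ?_⟩
  · simpa [cu, toF] using congrFun e 3
  · simpa [cv, toF] using congrFun e 3
  · simp [cu, toF, Fin.sum_univ_five]
    grind
  · simp [cv, toF, Fin.sum_univ_five]
    grind
  · have := (inX_toF h2 hw cv).1 e
    rw [inX4_witness.2] at this
    exact Bool.false_ne_true this

end Four

/-! ### The normal basis -/

section Basis

variable {F K : Type*} [Field F] [Field K] [Algebra F K] {β : K}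

/-- The conjugates of the root. -/
def nb (β : K) (i : Fin 5) : K := β ^ 2 ^ (i : ℕ)

/-- The element with the given coordinates. -/
noncomputable def ofCoord (β : K) : (Fin 5 → F) →ₗ[F] K := Fintype.linearCombination F (nb β)

lemma ofCoord_apply (c : Fin 5 → F) : ofCoord β c = ∑ i, algebraMap F K (c i) * nb β i := by
  simp [ofCoord, Fintype.linearCombination_apply, Algebra.smul_def]

lemma ofCoord_single (i : Fin 5) : ofCoord β (Pi.single i (1 : F)) = nb β i := by
  simp [ofCoord, Fintype.linearCombination_apply_single]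

/-- A root of x^5 + x^4 + x^2 + x + 1 whose conjugates lie in the field of 32 elements. -/
structure IsQuintic (β : K) : Prop where
  two : (2 : K) = 0
  root : β ^ 5 + β ^ 4 + β ^ 2 + β + 1 = 0
  fix : β ^ 32 = β

variable (hβ : IsQuintic β)
include hβ

lemma nb_sq (i : Fin 5) : nb β i ^ 2 = nb β (i + 1) := by
  fin_cases i <;> simp [nb, ← pow_mul, hβ.fix]

lemma sum_nb : ∑ i, nb β i = 1 := by
  obtain ⟨h2, hp, -⟩ := hβ
  simp [nb, Fin.sum_univ_five]
  grind

lemma base_products : β * β ^ 2 = β + β ^ 8 ∧ β * β ^ 4 = β ^ 8 + β ^ 16 ∧ β * β ^ 8 = β ^ 2 + β ^ 4 ∧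
    β * β ^ 16 = β ^ 4 + β ^ 16 := by
  obtain ⟨h2, hp, -⟩ := hβ
  refine ⟨?_, ?_, ?_, ?_⟩ <;> grind

lemma pair_shift {a b c d : Fin 5} (h : nb β a * nb β b = nb β c + nb β d) :
    nb β (a + 1) * nb β (b + 1) = nb β (c + 1) + nb β (d + 1) := by
  rw [← nb_sq hβ, ← nb_sq hβ, ← nb_sq hβ, ← nb_sq hβ, ← mul_pow, h]
  linear_combination (nb β c * nb β d) * hβ.two

/-- The multiplication table. -/
lemma nb_table : ∀ k : Fin 5, nb β k * nb β (k + 1) = nb β k + nb β (k + 3) ∧
    nb β k * nb β (k + 2) = nb β (k + 3) + nb β (k + 4) ∧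
    nb β k * nb β (k + 3) = nb β (k + 1) + nb β (k + 2) ∧
    nb β k * nb β (k + 4) = nb β (k + 2) + nb β (k + 4) := by
  have h0 : nb β 0 * nb β (0 + 1) = nb β 0 + nb β (0 + 3) ∧
      nb β 0 * nb β (0 + 2) = nb β (0 + 3) + nb β (0 + 4) ∧
      nb β 0 * nb β (0 + 3) = nb β (0 + 1) + nb β (0 + 2) ∧
      nb β 0 * nb β (0 + 4) = nb β (0 + 2) + nb β (0 + 4) := by
    simpa [nb] using base_products hβ
  have step : ∀ k : Fin 5, (nb β k * nb β (k + 1) = nb β k + nb β (k + 3) ∧
      nb β k * nb β (k + 2) = nb β (k + 3) + nb β (k + 4) ∧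
      nb β k * nb β (k + 3) = nb β (k + 1) + nb β (k + 2) ∧
      nb β k * nb β (k + 4) = nb β (k + 2) + nb β (k + 4)) →
      (nb β (k + 1) * nb β (k + 1 + 1) = nb β (k + 1) + nb β (k + 1 + 3) ∧
      nb β (k + 1) * nb β (k + 1 + 2) = nb β (k + 1 + 3) + nb β (k + 1 + 4) ∧
      nb β (k + 1) * nb β (k + 1 + 3) = nb β (k + 1 + 1) + nb β (k + 1 + 2) ∧
      nb β (k + 1) * nb β (k + 1 + 4) = nb β (k + 1 + 2) + nb β (k + 1 + 4)) := by
    rintro k ⟨a, b, c, d⟩
    refine ⟨?_, ?_, ?_, ?_⟩ <;> [have := pair_shift hβ a; have := pair_shift hβ b; have := pair_shift hβ c;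
      have := pair_shift hβ d] <;> simpa only [add_right_comm k 1] using this
  have h1 := step 0 h0
  have h2 := step _ h1
  have h3 := step _ h2
  have h4 := step _ h3
  intro k
  fin_cases k <;> assumption

set_option maxHeartbeats 2000000 in
/-- Multiplication in coordinates. -/
lemma ofCoord_mul (c d : Fin 5 → F) :
    ofCoord β c * ofCoord β d = ofCoord β (mulE (· + ·) (· * ·) c d) := by
  obtain ⟨p01, p02, p03, p04⟩ := nb_table hβ 0
  obtain ⟨p12, p13, p14, -⟩ := nb_table hβ 1
  obtain ⟨p23, p24, -, -⟩ := nb_table hβ 2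
  obtain ⟨p34, -, -, -⟩ := nb_table hβ 3
  have s0 := nb_sq hβ 0
  have s1 := nb_sq hβ 1
  have s2 := nb_sq hβ 2
  have s3 := nb_sq hβ 3
  have s4 := nb_sq hβ 4
  simp only [Fin.reduceAdd] at p01 p02 p03 p04 p12 p13 p14 p23 p24 p34 s0 s1 s2 s3 s4
  simp only [ofCoord_apply, Fin.sum_univ_five, mulE, Fin.reduceAdd, map_add, map_mul]
  generalize algebraMap F K (c 0) = a0, algebraMap F K (c 1) = a1, algebraMap F K (c 2) = a2,
    algebraMap F K (c 3) = a3, algebraMap F K (c 4) = a4, algebraMap F K (d 0) = b0, algebraMap F K (d 1) = b1,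
    algebraMap F K (d 2) = b2, algebraMap F K (d 3) = b3, algebraMap F K (d 4) = b4
  linear_combination (a0 * b0) * s0 + (a1 * b1) * s1 + (a2 * b2) * s2 + (a3 * b3) * s3 + (a4 * b4) * s4 +
    (a0 * b1 + a1 * b0) * p01 + (a0 * b2 + a2 * b0) * p02 + (a0 * b3 + a3 * b0) * p03 +
    (a0 * b4 + a4 * b0) * p04 + (a1 * b2 + a2 * b1) * p12 + (a1 * b3 + a3 * b1) * p13 +
    (a1 * b4 + a4 * b1) * p14 + (a2 * b3 + a3 * b2) * p23 + (a2 * b4 + a4 * b2) * p24 +
    (a3 * b4 + a4 * b3) * p34

omit hβ in
/-- The sum of the coordinates of a product. -/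
lemma sum_mulE (h2 : (2 : F) = 0) (c d : Fin 5 → F) : ∑ k, mulE (· + ·) (· * ·) c d k = ∑ i, c i * d i := by
  simp [mulE, Fin.sum_univ_five]
  grind

end Basis

end Cfsg.Agent.H3.UMax
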