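import Cfsg.Agent.H99.Aschbacher.UnitaryDims

/-!
The residue of the characteristic modulo five in the unitary symplectic-type case.
-/

set_option autoImplicit false

namespace Cfsg.Agent.H3.UMax

open Cfsg.Geo H99.Asch

lemma residue_five {F : Type*} [Field F] [Fintype F] {q : ℕ} (hF : Fintype.card F = q ^ 2) {p e : ℕ}
    (hmin : IsMinimalFieldFor 5 p e F) : (q = p ∧ p % 5 = 4) ∨ (q = p ^ 2 ∧ (p % 5 = 2 ∨ p % 5 = 3)) := by
  obtain ⟨h, he, hh, hq, h1, hd⟩ := minimal_unitary hF (by norm_num) hmin
  have hm : p % 5 < 5 := Nat.mod_lt _ (by norm_num)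
  generalize p % 5 = m at *
  have hle : e ≤ 4 := by
    by_contra hlt
    have h3 := hd 4 (by norm_num) (by omega)
    interval_cases m <;> simp_all [zero_pow (show e ≠ 0 by omega)]
  subst he
  have hh2 : h ≤ 2 := by omega
  interval_cases h
  · left
    refine ⟨by rw [hq, pow_one], ?_⟩
    have := hd 1 one_pos (by norm_num)
    interval_cases m <;> simp_all
  · right
    refine ⟨hq, ?_⟩
    have := hd 2 (by norm_num) (by norm_num)
    interval_cases m <;> simp_all

end Cfsg.Agent.H3.UMax
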