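import Cfsg.Agent.H3.UMax.RationalFrame
import Cfsg.Agent.H3.UMax.MonoThree

/-!
The subfield groups of index two of SU in dimension three for q = 3 and q = 5.
-/

set_option autoImplicit false

open scoped MatrixGroups Matrix

namespace Cfsg.Agent.H3.UMax

open Cfsg.Geo H99.Asch TwentyFive ThreeFive Fin.NatCast

variable {F : Type*} [Field F] [Fintype F] {q : ℕ}

/-- An element of SU which is a multiple of a rational matrix is a multiple of an orthogonal one. -/
theorem exists_orth_of_rational (hF : Fintype.card F = q ^ 2) (hqp : q.Prime) {F₀ : Subfield F}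
    (hcard : Nat.card F₀ = q) : ∃ ι : ZMod q →+* F, ∀ (g : GL (Fin 3) F) (l : F) (A : Matrix (Fin 3) (Fin 3) F),
      g ∈ suGL 3 F q → (∀ i j, A i j ∈ F₀) → (g : Matrix (Fin 3) (Fin 3) F) = l • A →
      ∃ (m : F) (B : Matrix (Fin 3) (Fin 3) (ZMod q)), m ^ (q + 1) = 1 ∧ Bᵀ * B = 1 ∧
        (g : Matrix (Fin 3) (Fin 3) F) = m • B.map ι := by
  classical
  have : Fact q.Prime := ⟨hqp⟩
  let φ : ZMod q ≃+* F₀ := ZMod.ringEquivOfPrime F₀ hqp (by rw [← Nat.card_eq_fintype_card]; exact hcard)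
  let ι : ZMod q →+* F := F₀.subtype.comp φ.toRingHom
  have hιq : ∀ x, ι x ^ q = ι x := fun x => by rw [← map_pow, ZMod.pow_card]
  refine ⟨ι, fun g l A hg hA hgA => ?_⟩
  let B₀ : Matrix (Fin 3) (Fin 3) (ZMod q) := Matrix.of fun i j => φ.symm ⟨A i j, hA i j⟩
  have hB₀ : B₀.map ι = A := by
    ext i j
    show (F₀.subtype (φ (φ.symm ⟨A i j, hA i j⟩)) : F) = A i j
    rw [φ.apply_symm_apply]
    rfl
  have hl : l ≠ 0 := by
    intro e
    have := Matrix.GeneralLinearGroup.det_ne_zero g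
    rw [hgA, e, zero_smul, Matrix.det_zero] at this
    exact this rfl
  have hgram : ∀ i j, l ^ (q + 1) * ι ((B₀ᵀ * B₀) i j) = if i = j then 1 else 0 := by
    intro i j
    have h : hermForm 3 F q ((g : Matrix (Fin 3) (Fin 3) F) *ᵥ Pi.single i 1)
        ((g : Matrix (Fin 3) (Fin 3) F) *ᵥ Pi.single j 1) = hermForm 3 F q (Pi.single i 1) (Pi.single j 1) := hg.1 _ _
    rw [H3.hermForm_single_left, one_mul, Matrix.mulVec_single_one, Matrix.mulVec_single_one, hgA, ← hB₀] at h
    rw [Pi.single_apply] at h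
    simp only [hermForm, Matrix.col_apply, Matrix.smul_apply, Matrix.map_apply, smul_eq_mul, mul_pow, hιq] at h
    have hz : (if i = j then (1 : F) else 0) ^ q = if i = j then 1 else 0 := by
      split <;> simp [hqp.ne_zero]
    rw [hz] at h
    rw [Matrix.mul_apply, map_sum, Finset.mul_sum, ← h]
    refine Finset.sum_congr rfl fun k _ => ?_
    rw [Matrix.transpose_apply, map_mul, pow_succ']
    ring
  obtain ⟨μ, hμ⟩ : ∃ μ, μ = (B₀ᵀ * B₀) 0 0 := ⟨_, rfl⟩
  have hlμ : l ^ (q + 1) * ι μ = 1 := by rw [hμ, hgram, if_pos rfl]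
  have hμ0 : μ ≠ 0 := fun e => by simp [e] at hlμ
  have hgr : B₀ᵀ * B₀ = μ • 1 := by
    ext i j
    refine ι.injective (mul_left_cancel₀ (pow_ne_zero (q + 1) hl) ?_)
    rw [hgram, Matrix.smul_apply, Matrix.one_apply, smul_eq_mul]
    split <;> simp [hlμ]
  obtain ⟨d, hd⟩ : ∃ d, d = B₀.det := ⟨_, rfl⟩
  have hdet : d * d = μ ^ 3 := by
    have h := congrArg Matrix.det hgr
    rwa [Matrix.det_mul, Matrix.det_transpose, Matrix.det_smul, Matrix.det_one, mul_one, Fintype.card_fin, ← hd] at h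
  have hd0 : d ≠ 0 := fun e => hμ0 ((pow_eq_zero_iff three_ne_zero).1 (by rw [← hdet, e, mul_zero]))
  refine ⟨l * ι (d / μ), (μ / d) • B₀, ?_, ?_, ?_⟩
  · rw [mul_pow]
    have h1 : ι (d / μ) ^ (q + 1) = ι μ := by
      rw [pow_succ, hιq, ← map_mul]
      congr 1
      field_simp
      linear_combination hdet
    rw [h1, hlμ]
  · rw [Matrix.transpose_smul, Matrix.smul_mul, Matrix.mul_smul, hgr, smul_smul, smul_smul]
    have : μ / d * (μ / d) * μ = 1 := by
      field_simp
      linear_combination -hdet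
    rw [this, one_smul]
  · rw [hgA, ← hB₀]
    ext i j
    have e : ι (d / μ) * ι (μ / d) = 1 := by
      rw [← map_mul, ← map_one ι]
      congr 1
      field_simp
    simp only [Matrix.smul_apply, Matrix.map_apply, smul_eq_mul, map_mul]
    linear_combination -(l * ι (B₀ i j)) * e

lemma axis_of_norm_three : ∀ a b c : ZMod 3, a * a + b * b + c * c = 1 →
    (a ≠ 0 ∧ b = 0 ∧ c = 0) ∨ (a = 0 ∧ b ≠ 0 ∧ c = 0) ∨ (a = 0 ∧ b = 0 ∧ c ≠ 0) := by decide

/-- For q = 3 the subfield group of index two is monomial in some frame. -/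
theorem subfield_three_mono (hF : Fintype.card F = q ^ 2) (hq : q = 3) {F₀ : Subfield F} {P₀ : GL (Fin 3) F}
    (hc : Fintype.card F = Nat.card F₀ ^ 2) (hf : IsFormRationalStructure (hermForm 3 F q) F₀ 1 P₀)
    {H : Subgroup (GL (Fin 3) F)} (hH : H ≤ suGL 3 F q) (hle : H ≤ subfieldSubgroup F₀ P₀) :
    ∃ D : Fin 3 → Submodule F (Fin 3 → F),
      IsNondegenerateMDecomposition (hermForm 3 F q) 1 D ∧ H ≤ decompositionStabilizer D := by
  classical
  subst hq
  obtain ⟨hcard, P, hP, hrat⟩ := exists_rational_frame hF (Or.inl rfl) hc hf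
  obtain ⟨ι, hι⟩ := exists_orth_of_rational hF Nat.prime_three hcard
  let b : Fin 3 × Fin 1 → Fin 3 → F := fun p => (P : Matrix (Fin 3) (Fin 3) F) *ᵥ Pi.single p.1 1
  have hb : H3.Orth (H3.hermB hF 3) b := fun p p' => by
    rw [H3.hermB_apply, show hermForm 3 F 3 (b p') (b p) = hermForm 3 F 3 (Pi.single p'.1 1) (Pi.single p.1 1) from
      hP _ _, ← H3.hermB_apply hF, H3.orth_single hF 3 p.1 p'.1]
    exact if_congr ⟨fun h => Prod.ext h (Subsingleton.elim _ _), fun h => by rw [h]⟩ rfl rfl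
  refine ⟨_, decomposition_of_orth hF (by norm_num) one_pos rfl b hb, fun g hg => ?_⟩
  obtain ⟨l, A, hA, he⟩ := hrat g (hle hg)
  have hg' : P⁻¹ * g * P ∈ suGL 3 F 3 := by
    refine ⟨(GU 3 F 3).mul_mem ((GU 3 F 3).mul_mem ((GU 3 F 3).inv_mem hP) (hH hg).1) hP,
      mem_specialLinear_iff.2 ?_⟩
    rw [Units.val_mul, Units.val_mul, Matrix.det_units_conj']
    exact mem_specialLinear_iff.1 (hH hg).2
  obtain ⟨m, B, hm, hB, hgB⟩ := hι _ l A hg' hA he
  have hm0 : m ≠ 0 := fun e => by simp [e] at hm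
  have hdot : ∀ i j, B 0 i * B 0 j + B 1 i * B 1 j + B 2 i * B 2 j = if i = j then 1 else 0 := fun i j => by
    have h := congrFun (congrFun hB i) j
    rwa [Matrix.mul_apply, Fin.sum_univ_three, Matrix.one_apply] at h
  have hax : ∀ j, ∃ i, B i j ≠ 0 ∧ ∀ r, r ≠ i → B r j = 0 := by
    intro j
    have h := hdot j j
    rw [if_pos rfl] at h
    rcases axis_of_norm_three _ _ _ h with ⟨h0, h1, h2⟩ | ⟨h0, h1, h2⟩ | ⟨h0, h1, h2⟩
    · refine ⟨0, h0, fun r hr => ?_⟩
      rcases (by decide : ∀ r : Fin 3, r ≠ 0 → r = 1 ∨ r = 2) r hr with rfl | rfl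
      · exact h1
      · exact h2
    · refine ⟨1, h1, fun r hr => ?_⟩
      rcases (by decide : ∀ r : Fin 3, r ≠ 1 → r = 0 ∨ r = 2) r hr with rfl | rfl
      · exact h0
      · exact h2
    · refine ⟨2, h2, fun r hr => ?_⟩
      rcases (by decide : ∀ r : Fin 3, r ≠ 2 → r = 0 ∨ r = 1) r hr with rfl | rfl
      · exact h0
      · exact h1
  choose f hf0 hf1 using hax
  have hinj : Function.Injective f := by
    intro i j hij
    by_contra hne
    have h : (Bᵀ * B) i j = 0 := by rw [hB, Matrix.one_apply_ne hne]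
    rw [Matrix.mul_apply, Finset.sum_eq_single (f i) (fun r _ hr => by
      rw [Matrix.transpose_apply, hf1 i r hr, zero_mul]) (fun h => absurd (Finset.mem_univ _) h)] at h
    exact mul_ne_zero (hf0 i) (hij ▸ hf0 j) h
  refine ⟨Equiv.ofBijective f (Finite.injective_iff_bijective.1 hinj), fun j => ?_⟩
  have hcol : (g : Matrix (Fin 3) (Fin 3) F) *ᵥ b (j, 0) = (m * ι (B (f j) j)) • b (f j, 0) := by
    show _ *ᵥ ((P : Matrix (Fin 3) (Fin 3) F) *ᵥ _) = _ • ((P : Matrix (Fin 3) (Fin 3) F) *ᵥ _)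
    rw [← Matrix.mulVec_smul, Matrix.mulVec_mulVec, ← Units.val_mul, show g * P = P * (P⁻¹ * g * P) by group,
      Units.val_mul, hgB, ← Matrix.mulVec_mulVec]
    congr 1
    funext r
    rw [Matrix.mulVec_single_one, Matrix.col_apply, Matrix.smul_apply, Matrix.map_apply, Pi.smul_apply,
      Pi.single_apply, smul_eq_mul, smul_eq_mul]
    split
    · next e => rw [e, mul_one]
    · next e => rw [hf1 j r e, map_zero, mul_zero, mul_zero]
  have hrange : ∀ i : Fin 3, Set.range (fun a : Fin 1 => b (i, a)) = {b (i, 0)} := fun i => by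
    rw [Set.range_unique]
  show Submodule.map _ (Submodule.span F _) = Submodule.span F _
  rw [hrange, hrange, Submodule.map_span, Set.image_singleton, Matrix.toLin'_apply, hcol]
  refine Submodule.span_singleton_smul_eq (isUnit_iff_ne_zero.2 (mul_ne_zero hm0 ?_)) _
  exact (map_ne_zero ι).2 (hf0 j)

/-- A diagonal sign times a cyclic shift, over the field of five elements. -/
def signShift (ε : Fin 3 → Bool) (k : Fin 3) : Matrix (Fin 3) (Fin 3) (ZMod 5) :=
  Matrix.of fun r c => if c = r + k then (if ε r then -1 else 1) else 0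

/-- The involution over the field of five elements. -/
def tMat : Matrix (Fin 3) (Fin 3) (ZMod 5) := !![1, 2, 4; 2, 1, 4; 4, 4, 2]

set_option maxHeartbeats 4000000 in
lemma exists_first_column : ∀ a b c : ZMod 5, a * a + b * b + c * c = 1 →
    ∃ (e₀ e₁ e₂ : Bool) (k : Fin 3) (useT : Bool), ∀ r : Fin 3,
      (signShift ![e₀, e₁, e₂] k * (if useT then tMat else 1)) r 0 = ![a, b, c] r := by
  decide +kernel

lemma signShift_orth : ∀ (e₀ e₁ e₂ : Bool) (k : Fin 3) (useT : Bool),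
    (signShift ![e₀, e₁, e₂] k * (if useT then tMat else 1))ᵀ * (signShift ![e₀, e₁, e₂] k * (if useT then tMat else 1)) = 1 := by
  decide +kernel

lemma block_cases : ∀ a b c d : ZMod 5, a * a + c * c = 1 → b * b + d * d = 1 → a * b + c * d = 0 →
    (b = 0 ∧ c = 0 ∧ a * a = 1 ∧ d * d = 1) ∨ (a = 0 ∧ d = 0 ∧ b * b = 1 ∧ c * c = 1) := by decide +kernel

lemma tMat_codes : ∀ r c : Fin 3, tMat r c = (entN tN r c : ZMod 5) ∧ entN tN r c < 5 := by
  intro r c
  fin_cases r <;> fin_cases c <;> decide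

/-- Orthogonal matrices over the field of five elements preserve the first set. -/
theorem inX_orth (hF : Fintype.card F = 5 ^ 2) (ι : ZMod 5 →+* F) {A : Matrix (Fin 3) (Fin 3) (ZMod 5)}
    (hA : Aᵀ * A = 1) {u : Fin 3 → F} (hu : inX u) : inX (A.map ι *ᵥ u) := by
  classical
  obtain ⟨ψ, hψ⟩ := ThreeFive.exists_coding hF
  have h5 : ∀ x : ZMod 5, x * x = 1 → ι x ^ 6 = 1 := fun x hx => by
    rw [show (6 : ℕ) = 2 + 2 + 2 from rfl, pow_add, pow_add, sq, ← map_mul, hx, map_one, one_mul, one_mul]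
  have hcol : A 0 0 * A 0 0 + A 1 0 * A 1 0 + A 2 0 * A 2 0 = 1 := by
    have h := congrFun (congrFun hA 0) 0
    rwa [Matrix.mul_apply, Fin.sum_univ_three] at h
  obtain ⟨e₀, e₁, e₂, k, useT, hN⟩ := exists_first_column _ _ _ hcol
  have horth := signShift_orth e₀ e₁ e₂ k useT
  generalize hNdef : signShift ![e₀, e₁, e₂] k * (if useT then tMat else 1) = N at hN horth
  let B := Nᵀ * A
  have hNB : N * B = A := by
    rw [← Matrix.mul_assoc, mul_eq_one_comm.1 horth, Matrix.one_mul]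
  have hBB : Bᵀ * B = 1 := by
    rw [Matrix.transpose_mul, Matrix.transpose_transpose, Matrix.mul_assoc, ← Matrix.mul_assoc N,
      mul_eq_one_comm.1 horth, Matrix.one_mul, hA]
  have hB0 : ∀ r, B r 0 = if r = 0 then 1 else 0 := by
    intro r
    have : A *ᵥ Pi.single 0 1 = N *ᵥ Pi.single 0 1 := funext fun s => by
      simp only [Matrix.mulVec_single_one, Matrix.col_apply, hN]
      fin_cases s <;> rfl
    have h2 : B *ᵥ Pi.single 0 1 = Pi.single 0 1 := by
      rw [← Matrix.mulVec_mulVec, this, Matrix.mulVec_mulVec, horth, Matrix.one_mulVec]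
    have h3 := congrFun h2 r
    rwa [Matrix.mulVec_single_one, Matrix.col_apply, Pi.single_apply] at h3
  have hb : ∀ i j, B 0 i * B 0 j + B 1 i * B 1 j + B 2 i * B 2 j = if i = j then 1 else 0 := fun i j => by
    have h := congrFun (congrFun hBB i) j
    rwa [Matrix.mul_apply, Fin.sum_univ_three, Matrix.one_apply] at h
  have h01 : B 0 1 = 0 := by simpa [hB0] using hb 0 1
  have h02 : B 0 2 = 0 := by simpa [hB0] using hb 0 2
  -- the block is monomial
  have hu' : inX (B.map ι *ᵥ u) := by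
    rcases block_cases (B 1 1) (B 1 2) (B 2 1) (B 2 2) (by simpa [h01] using hb 1 1)
      (by simpa [h02] using hb 2 2) (by simpa [h01] using hb 1 2) with ⟨hb0, hc0, ha1, hd1⟩ | ⟨ha0, hd0, hb1, hc1⟩
    · refine inX_mono (Equiv.refl _) ![1, ι (B 1 1), ι (B 2 2)]
        (fun i => by fin_cases i <;> simp [h5, ha1, hd1]) ?_ (fun i => ?_) hu
      · have ea : ι (B 1 1) * ι (B 1 1) = 1 := by rw [← map_mul, ha1, map_one]
        have ed : ι (B 2 2) * ι (B 2 2) = 1 := by rw [← map_mul, hd1, map_one]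
        simp only [Fin.prod_univ_three, Matrix.cons_val, one_mul, mul_pow]
        linear_combination (ι (B 2 2) * ι (B 2 2)) * ea + ed
      · fin_cases i <;> simp [Matrix.mulVec, dotProduct, Fin.sum_univ_three, hB0, h01, h02, hb0, hc0]
    · refine inX_mono (Equiv.swap 1 2) ![1, ι (B 2 1), ι (B 1 2)]
        (fun i => by fin_cases i <;> simp [h5, hb1, hc1]) ?_ (fun i => ?_) hu
      · have ea : ι (B 2 1) * ι (B 2 1) = 1 := by rw [← map_mul, hc1, map_one]
        have ed : ι (B 1 2) * ι (B 1 2) = 1 := by rw [← map_mul, hb1, map_one]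
        simp only [Fin.prod_univ_three, Matrix.cons_val, one_mul, mul_pow]
        linear_combination (ι (B 1 2) * ι (B 1 2)) * ea + ed
      · fin_cases i <;>
          simp [Matrix.mulVec, dotProduct, Fin.sum_univ_three, hB0, h01, h02, ha0, hd0,
            Equiv.swap_apply_of_ne_of_ne (show (0 : Fin 3) ≠ 1 by decide) (show (0 : Fin 3) ≠ 2 by decide)]
  -- the involution
  have hT : ∀ w, inX w → inX (tMat.map ι *ᵥ w) := by
    intro w hw
    obtain ⟨t, ht, hent⟩ := hψ.exists_mem_su hF inSU_tN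
    have he : tMat.map ι = (t : Matrix (Fin 3) (Fin 3) F) := by
      have key := tMat_codes
      ext r c
      rw [Matrix.map_apply, (key r c).1, map_natCast, hent, hψ.cast _ (key r c).2]
    rw [he]
    exact ((hψ.mem_stab hψ.inX_iff inS_tN ht hent).2 w).2 hw
  have hS : ∀ w, inX w → inX ((signShift ![e₀, e₁, e₂] k).map ι *ᵥ w) := by
    intro w hw
    let ε : Fin 3 → F := fun r => if ![e₀, e₁, e₂] r then -1 else 1
    have hε : ∀ r, ε r ^ 2 = 1 := fun r => by simp only [ε]; split <;> ring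
    refine inX_mono (Equiv.subRight k) (fun i => ε (i - k)) (fun i => ?_) ?_ (fun i => ?_) hw
    · rw [show (6 : ℕ) = 2 * 3 from rfl, pow_mul, hε, one_pow]
    · rw [← Finset.prod_pow]
      exact Finset.prod_eq_one fun i _ => hε _
    · rw [Equiv.subRight_apply, Matrix.mulVec, dotProduct, Finset.sum_eq_single i]
      · simp only [signShift, Matrix.map_apply, Matrix.of_apply, sub_add_cancel, if_pos, ε]
        split <;> simp
      · intro c _ hc
        simp [signShift, hc]
      · exact fun h => absurd (Finset.mem_univ i) h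
  rw [← hNB, ← hNdef, Matrix.map_mul, Matrix.map_mul, ← Matrix.mulVec_mulVec, ← Matrix.mulVec_mulVec]
  refine hS _ ?_
  cases useT
  · simpa using hu'
  · exact hT _ hu'

/-- For q = 5 the subfield group of index two is not maximal. -/
theorem subfield_five_not_maximal (hF : Fintype.card F = q ^ 2) (hq : q = 5) {F₀ : Subfield F} {P₀ : GL (Fin 3) F}
    (hc : Fintype.card F = Nat.card F₀ ^ 2) (hf : IsFormRationalStructure (hermForm 3 F q) F₀ 1 P₀)
    {H : Subgroup (GL (Fin 3) F)} (hH : IsMaximalIn (suGL 3 F q) H) (hle : H ≤ subfieldSubgroup F₀ P₀) : False := by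
  classical
  subst hq
  obtain ⟨hcard, P, hP, hrat⟩ := exists_rational_frame hF (Or.inr rfl) hc hf
  obtain ⟨ι, hι⟩ := exists_orth_of_rational hF Nat.prime_five hcard
  obtain ⟨ψ, hψ⟩ := ThreeFive.exists_coding hF
  have hH' := conj_maximal hF hH hP
  have hrat' : ∀ g ∈ H.map (MulAut.conj P⁻¹).toMonoidHom, ∃ (l : F) (A : Matrix (Fin 3) (Fin 3) F),
      (∀ i j, A i j ∈ F₀) ∧ (g : Matrix (Fin 3) (Fin 3) F) = l • A := by
    rintro _ ⟨g, hg, rfl⟩
    show ∃ (l : F) (A : Matrix (Fin 3) (Fin 3) F),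
      (∀ i j, A i j ∈ F₀) ∧ ((P⁻¹ * g * (P⁻¹)⁻¹ : GL (Fin 3) F) : Matrix (Fin 3) (Fin 3) F) = l • A
    rw [inv_inv]
    exact hrat g (hle hg)
  have hle' : H.map (MulAut.conj P⁻¹).toMonoidHom ≤ stabX 5 inX := by
    intro g hg
    refine mem_stabX_of_mapsTo (hH'.1.le hg) fun u hu => ?_
    obtain ⟨l, A, hA, he⟩ := hrat' g hg
    obtain ⟨m, B, hm, hB, hgB⟩ := hι g l A (hH'.1.le hg) hA he
    rw [hgB, Matrix.smul_mulVec]
    refine inX_mono (Equiv.refl _) (fun _ => m) (fun _ => hm) ?_ (fun i => rfl) (inX_orth hF ι hB hu)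
    rw [Finset.prod_const, Finset.card_univ, Fintype.card_fin, ← pow_mul]
    exact hm
  obtain ⟨t, ht, hent⟩ := hψ.exists_mem_su hF (M := [[17, 0, 0], [0, 12, 0], [0, 0, 1]]) (by decide)
  have hd : MapsAxes t (Equiv.refl _) ![ψ 17, ψ 12, 1] := by
    intro j
    funext r
    rw [Matrix.mulVec_single_one, Matrix.col_apply, hent, Pi.smul_apply]
    fin_cases r <;> fin_cases j <;> simp [entN, hψ.zero, hψ.one]
  obtain ⟨ha, hp, hu⟩ := mono_data hF ht hd
  have htM : t ∈ stabX 5 inX := mem_stabX_of_mapsTo ht fun u hx => inX_mono _ _ ha hp (hu u) hx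
  have htH : t ∉ H.map (MulAut.conj P⁻¹).toMonoidHom := by
    intro hmem
    obtain ⟨l, A, hA, he⟩ := hrat' t hmem
    have h0 : ψ 17 = l * A 0 0 := by
      rw [← smul_eq_mul, ← Matrix.smul_apply, ← he, hent]; rfl
    have h2 : (1 : F) = l * A 2 2 := by
      rw [← smul_eq_mul, ← Matrix.smul_apply, ← he, hent, ← hψ.one]; rfl
    have hl : l = (A 2 2)⁻¹ := eq_inv_of_mul_eq_one_left h2.symm
    have hmem17 : ψ 17 ∈ F₀ := by rw [h0, hl]; exact F₀.mul_mem (F₀.inv_mem (hA 2 2)) (hA 0 0)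
    have h5 := (mem_subfield_iff F₀ _).1 hmem17
    rw [hcard, ← hψ.pow5] at h5
    exact absurd (hψ.inj (by decide) (by norm_num) h5) (by decide)
  refine false_of_le_stabX hF (by norm_num) hH' hle' htM htH (u := ![ψ 0, ψ 0, ψ 1]) (v := ![ψ 7, ψ 2, ψ 0])
    (fun e => ?_) (fun e => ?_) ?_ ((hψ.inX_iff 0 0 1).2 (by decide)) (fun e => ?_)
  · exact one_ne_zero (α := F) (by simpa [hψ.one] using congrFun e 2)
  · have h := congrFun e 1
    exact absurd (hψ.inj (by norm_num) (by norm_num) (h.trans hψ.zero.symm)) (by norm_num)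
  · have e1 : ψ (addN (addN (n6N 0) (n6N 0)) (n6N 1)) = ψ (addN (addN (n6N 7) (n6N 2)) (n6N 0)) :=
      congrArg ψ (by decide)
    simp only [hψ.add, hψ.norm] at e1
    simp only [hermForm, Fin.sum_univ_three, Matrix.cons_val]
    linear_combination e1
  · exact Bool.false_ne_true (((by decide : inS 7 2 0 = false)).symm.trans ((hψ.inX_iff 7 2 0).1 e))

end Cfsg.Agent.H3.UMax
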