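import Cfsg.Agent.H3.UMax.ModelNat
import Cfsg.Agent.H3.UMax.Stab

/-!
Two sets of vectors in dimension three over the field of twenty-five elements, and matrices which preserve them.
-/

set_option autoImplicit false

open scoped MatrixGroups Matrix

namespace Cfsg.Agent.H3.UMax.ThreeFive

open Cfsg.Geo H99.Asch TwentyFive Fin.NatCast

/-- The norm of a code. -/
def n6N (x : ℕ) : ℕ := mulN x (p5N x)

/-- The cube of a code. -/
def c3N (x : ℕ) : ℕ := mulN (mulN x x) x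

/-- The square of the product of three codes. -/
def q2N (a b c : ℕ) : ℕ := mulN (mulN (mulN a b) c) (mulN (mulN a b) c)

/-- The model of the first set. -/
def inS (a b c : ℕ) : Bool :=
  Nat.beq (addN (addN (n6N a) (n6N b)) (n6N c)) 1 && (Nat.beq (q2N a b c) 2 || Nat.beq (q2N a b c) 4 ||
    (Nat.beq (mulN (mulN a b) c) 0 &&
      !Nat.beq (addN (addN (mulN (n6N a) (n6N a)) (mulN (n6N b) (n6N b))) (mulN (n6N c) (n6N c))) 0))

/-- The values of the invariants on the second set. -/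
def rowsW : List (ℕ × ℕ × ℕ) :=
  [(0, 0, 2), (4, 0, 2), (2, 20, 3), (2, 5, 3), (2, 16, 19), (2, 19, 14), (2, 11, 14), (2, 14, 19)]

lemma rowsW_lt : ∀ p ∈ rowsW, p.1 < 25 ∧ p.2.1 < 25 ∧ p.2.2 < 25 := by decide

lemma rowsW_neg : ∀ p ∈ rowsW, (p.1, negN p.2.1, p.2.2) ∈ rowsW := by decide

/-- One number for a row. -/
def wCode (p : ℕ × ℕ × ℕ) : ℕ := p.1 + 25 * p.2.1 + 625 * p.2.2

/-- The model of the second set. -/
def inW (a b c : ℕ) : Bool :=
  (rowsW.map wCode).contains (wCode (q2N a b c, addN (addN (c3N a) (c3N b)) (c3N c),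
    addN (addN (mulN (c3N a) (c3N b)) (mulN (c3N b) (c3N c))) (mulN (c3N c) (c3N a))))

/-- The action of a coded matrix on one coordinate. -/
def rowN (M : List (List ℕ)) (r : ℕ) (a b c : ℕ) : ℕ :=
  addN (addN (mulN ((M.getD r []).getD 0 0) a) (mulN ((M.getD r []).getD 1 0) b)) (mulN ((M.getD r []).getD 2 0) c)

/-- The test that a coded matrix maps a set into itself. -/
def preserves (X : ℕ → ℕ → ℕ → Bool) (M : List (List ℕ)) : Bool :=
  (List.range 25).all fun a => (List.range 25).all fun b => (List.range 25).all fun c =>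
    !X a b c || X (rowN M 0 a b c) (rowN M 1 a b c) (rowN M 2 a b c)

/-- The involution. -/
def tN : List (List ℕ) := [[1, 2, 4], [2, 1, 4], [4, 4, 2]]

/-- The Fourier matrices for the three frames. -/
def kN (i : Fin 3) : List (List ℕ) :=
  ![[[7, 7, 7], [7, 15, 8], [7, 8, 15]], [[7, 7, 8], [7, 15, 15], [15, 7, 15]],
    [[7, 7, 15], [7, 15, 7], [8, 15, 15]]] i

set_option maxHeartbeats 4000000 in
theorem inS_tN : preserves inS tN = true := by decide +kernel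

set_option maxHeartbeats 4000000 in
theorem inW_tN : preserves inW tN = true := by decide +kernel

set_option maxHeartbeats 8000000 in
theorem inW_kN : ∀ i, preserves inW (kN i) = true := by decide +kernel

/-- The entry of a coded matrix. -/
def entN (M : List (List ℕ)) (r c : Fin 3) : ℕ := (M.getD r.val []).getD c.val 0

/-- The test that a coded matrix is in SU. -/
def inSU (M : List (List ℕ)) : Bool :=
  decide (∀ i j : Fin 3, addN (addN (mulN (entN M 0 i) (p5N (entN M 0 j))) (mulN (entN M 1 i) (p5N (entN M 1 j))))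
      (mulN (entN M 2 i) (p5N (entN M 2 j))) = if i = j then 1 else 0) &&
  decide (addN (addN
      (addN (mulN (mulN (entN M 0 0) (entN M 1 1)) (entN M 2 2))
        (negN (mulN (mulN (entN M 0 0) (entN M 1 2)) (entN M 2 1))))
      (addN (negN (mulN (mulN (entN M 0 1) (entN M 1 0)) (entN M 2 2)))
        (mulN (mulN (entN M 0 1) (entN M 1 2)) (entN M 2 0))))
      (addN (mulN (mulN (entN M 0 2) (entN M 1 0)) (entN M 2 1))
        (negN (mulN (mulN (entN M 0 2) (entN M 1 1)) (entN M 2 0)))) = 1)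

theorem inSU_tN : inSU tN = true := by decide +kernel

theorem inSU_kN : ∀ i, inSU (kN i) = true := by decide +kernel

variable {F : Type*} [Field F] [Fintype F]

/-- The first set. -/
def inX (u : Fin 3 → F) : Prop :=
  ∑ i, u i ^ 6 = 1 ∧ ((∏ i, u i) ^ 2 = 2 ∨ (∏ i, u i) ^ 2 = 4 ∨ (∏ i, u i = 0 ∧ ∑ i, (u i ^ 6) ^ 2 ≠ 0))

/-- The second set, through a coding of the field. -/
def inY (ψ : ℕ → F) (u : Fin 3 → F) : Prop :=
  ∃ p ∈ rowsW, (∏ i, u i) ^ 2 = ψ p.1 ∧ ∑ i, u i ^ 3 = ψ p.2.1 ∧ ∑ i, u i ^ 3 * u (i + 1) ^ 3 = ψ p.2.2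

/-- A coding of the field of twenty-five elements. -/
structure IsCoding (ψ : ℕ → F) : Prop where
  add : ∀ x y, ψ (addN x y) = ψ x + ψ y
  mul : ∀ x y, ψ (mulN x y) = ψ x * ψ y
  neg : ∀ x, ψ (negN x) = -ψ x
  cast : ∀ n : ℕ, n < 5 → ψ n = (n : F)
  inj : ∀ {x y}, x < 25 → y < 25 → ψ x = ψ y → x = y
  surj : ∀ z : F, ∃ x, x < 25 ∧ ψ x = z
  five : (5 : F) = 0

/-- There is a coding. -/
theorem exists_coding (hF : Fintype.card F = 5 ^ 2) : ∃ ψ : ℕ → F, IsCoding ψ := by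
  obtain ⟨φ, hφ, -, -, hφa, hφm, hφn, hφc⟩ := TwentyFive.exists_iso hF
  refine ⟨fun x => φ (toM x), ⟨fun x y => by simp only [toM_addN, hφa], fun x y => by simp only [toM_mulN, hφm],
    fun x => by simp only [toM_negN, hφn], fun n hn => ?_, fun hx hy h => toM_inj_lt hx hy (hφ.1 h), fun z => ?_,
    five_eq_zero hF⟩⟩
  · show φ ((n : ZMod 5), ((n / 5 : ℕ) : ZMod 5)) = n
    rw [Nat.div_eq_of_lt hn, Nat.cast_zero, hφc]
  · obtain ⟨m, rfl⟩ := hφ.2 z
    exact ⟨ofM m, (toM_ofM m).2, by simp only [(toM_ofM m).1]⟩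

namespace IsCoding

variable {ψ : ℕ → F} (hψ : IsCoding ψ)
include hψ

lemma zero : ψ 0 = 0 := by simpa using hψ.cast 0 (by norm_num)

lemma one : ψ 1 = 1 := by simpa using hψ.cast 1 (by norm_num)

lemma pow5 (x : ℕ) : ψ (p5N x) = ψ x ^ 5 := by simp only [p5N, hψ.mul]; ring

lemma norm (x : ℕ) : ψ (n6N x) = ψ x ^ 6 := by simp only [n6N, hψ.mul, hψ.pow5]; ring

lemma cube (x : ℕ) : ψ (c3N x) = ψ x ^ 3 := by simp only [c3N, hψ.mul]; ring

lemma inX_iff (a b c : ℕ) : inX ![ψ a, ψ b, ψ c] ↔ inS a b c = true := by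
  have e1 : ∑ i, (![ψ a, ψ b, ψ c] : Fin 3 → F) i ^ 6 = ψ (addN (addN (n6N a) (n6N b)) (n6N c)) := by
    simp [Fin.sum_univ_three, hψ.add, hψ.norm]
  have e2 : ∏ i, (![ψ a, ψ b, ψ c] : Fin 3 → F) i = ψ (mulN (mulN a b) c) := by
    simp [Fin.prod_univ_three, hψ.mul]
  have e3 : ∑ i, ((![ψ a, ψ b, ψ c] : Fin 3 → F) i ^ 6) ^ 2 =
      ψ (addN (addN (mulN (n6N a) (n6N a)) (mulN (n6N b) (n6N b))) (mulN (n6N c) (n6N c))) := by
    simp [Fin.sum_univ_three, hψ.add, hψ.mul, hψ.norm, sq]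
  have e4 : ψ (mulN (mulN a b) c) ^ 2 = ψ (q2N a b c) := by rw [sq, ← hψ.mul]; rfl
  have hi : ∀ {x n : ℕ}, x < 25 → n < 5 → (ψ x = (n : F) ↔ x = n) := fun {x n} hx hn => by
    rw [← hψ.cast n hn]
    exact ⟨hψ.inj hx (by omega), congrArg ψ⟩
  have h1 := hi (addN_lt (addN (n6N a) (n6N b)) (n6N c)) (show 1 < 5 by norm_num)
  have h2 := hi (show q2N a b c < 25 from mulN_lt _ _) (show 2 < 5 by norm_num)
  have h4 := hi (show q2N a b c < 25 from mulN_lt _ _) (show 4 < 5 by norm_num)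
  have h0 := hi (mulN_lt (mulN a b) c) (show 0 < 5 by norm_num)
  have h5 := hi (addN_lt (addN (mulN (n6N a) (n6N a)) (mulN (n6N b) (n6N b))) (mulN (n6N c) (n6N c)))
    (show 0 < 5 by norm_num)
  push_cast at h1 h2 h4 h0 h5
  simp only [inX, inS, e1, e2, e3, e4, h1, h2, h4, h0, ne_eq, h5, Bool.and_eq_true, Bool.or_eq_true, Nat.beq_eq,
    Bool.not_eq_true', ← Bool.not_eq_true]
  simp only [or_assoc]

lemma inY_iff (a b c : ℕ) : inY ψ ![ψ a, ψ b, ψ c] ↔ inW a b c = true := by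
  have e1 : (∏ i, (![ψ a, ψ b, ψ c] : Fin 3 → F) i) ^ 2 = ψ (q2N a b c) := by
    rw [q2N, hψ.mul, hψ.mul, hψ.mul]; simp [Fin.prod_univ_three, sq]
  have e2 : ∑ i, (![ψ a, ψ b, ψ c] : Fin 3 → F) i ^ 3 = ψ (addN (addN (c3N a) (c3N b)) (c3N c)) := by
    simp [Fin.sum_univ_three, hψ.add, hψ.cube]
  have e3 : ∑ i, (![ψ a, ψ b, ψ c] : Fin 3 → F) i ^ 3 * (![ψ a, ψ b, ψ c] : Fin 3 → F) (i + 1) ^ 3 =
      ψ (addN (addN (mulN (c3N a) (c3N b)) (mulN (c3N b) (c3N c))) (mulN (c3N c) (c3N a))) := by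
    simp [Fin.sum_univ_three, hψ.add, hψ.mul, hψ.cube]
  simp only [inY, inW, e1, e2, e3, List.contains_iff_mem, List.mem_map]
  have m1 : q2N a b c < 25 := mulN_lt _ _
  have m2 := addN_lt (addN (c3N a) (c3N b)) (c3N c)
  have m3 := addN_lt (addN (mulN (c3N a) (c3N b)) (mulN (c3N b) (c3N c))) (mulN (c3N c) (c3N a))
  refine exists_congr fun p => and_congr_right fun hp => ?_
  obtain ⟨l0, l1, l2⟩ := rowsW_lt p hp
  constructor
  · rintro ⟨f1, f2, f3⟩
    rw [hψ.inj m1 l0 f1, hψ.inj m2 l1 f2, hψ.inj m3 l2 f3]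
  · intro e
    simp only [wCode] at e
    exact ⟨congrArg ψ (by omega), congrArg ψ (by omega), congrArg ψ (by omega)⟩

/-- The matrix with given codes. -/
theorem exists_mem_su (hF : Fintype.card F = 5 ^ 2) {M : List (List ℕ)} (hM : inSU M = true) :
    ∃ g ∈ suGL 3 F 5, ∀ r c, (g : Matrix (Fin 3) (Fin 3) F) r c = ψ (entN M r c) := by
  simp only [inSU, Bool.and_eq_true, decide_eq_true_eq] at hM
  obtain ⟨hu, hd⟩ := hM
  let b : Fin 3 → Fin 3 → F := fun c r => ψ (entN M r c)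
  have hb : H3.Orth (H3.hermB hF 3) b := by
    intro i j
    rw [H3.hermB_apply]
    have h := congrArg ψ (hu j i)
    simp only [hψ.add, hψ.mul, hψ.pow5, apply_ite ψ, hψ.zero, hψ.one] at h
    simp only [hermForm, Fin.sum_univ_three, b]
    rw [h]
    exact if_congr eq_comm rfl rfl
  obtain ⟨g₀, hg⟩ := H3.exists_GU_of_orth hF b hb
  have hent : ∀ r c, (g₀.1 : Matrix (Fin 3) (Fin 3) F) r c = ψ (entN M r c) := fun r c => by
    have := congrFun (hg c) r
    rwa [Matrix.mulVec_single_one, Matrix.col_apply] at this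
  refine ⟨g₀.1, ⟨g₀.2, mem_specialLinear_iff.2 ?_⟩, hent⟩
  have h := congrArg ψ hd
  simp only [hψ.add, hψ.mul, hψ.neg, hψ.one] at h
  rw [Matrix.det_fin_three]
  simp only [hent]
  linear_combination h

/-- A coded matrix preserving the model of a set preserves the set. -/
theorem mem_stab {X : ℕ → ℕ → ℕ → Bool} {Z : (Fin 3 → F) → Prop}
    (hiff : ∀ a b c, Z ![ψ a, ψ b, ψ c] ↔ X a b c = true) {M : List (List ℕ)} (hM : preserves X M = true)
    {g : GL (Fin 3) F} (hg : g ∈ suGL 3 F 5)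
    (hent : ∀ r c, (g : Matrix (Fin 3) (Fin 3) F) r c = ψ (entN M r c)) : g ∈ stabX 5 Z := by
  refine mem_stabX_of_mapsTo hg fun u hu => ?_
  choose r hr hr' using hψ.surj
  have hu' : u = ![ψ (r (u 0)), ψ (r (u 1)), ψ (r (u 2))] := by funext i; fin_cases i <;> simp [hr']
  have hgu : (g : Matrix (Fin 3) (Fin 3) F) *ᵥ u = ![ψ (rowN M 0 (r (u 0)) (r (u 1)) (r (u 2))),
      ψ (rowN M 1 (r (u 0)) (r (u 1)) (r (u 2))), ψ (rowN M 2 (r (u 0)) (r (u 1)) (r (u 2)))] := by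
    funext i
    fin_cases i <;> simp [Matrix.mulVec, dotProduct, Fin.sum_univ_three, hent, entN, rowN, hψ.add, hψ.mul, hr']
  rw [hgu, hiff]
  rw [hu', hiff] at hu
  simp only [preserves, List.all_eq_true, List.mem_range] at hM
  have h := hM _ (hr (u 0)) _ (hr (u 1)) _ (hr (u 2))
  simpa [hu] using h

end IsCoding

omit [Fintype F] in
/-- Monomial maps with norm-one entries whose product squares to one preserve the first set. -/
theorem inX_mono {u w : Fin 3 → F} (π : Equiv.Perm (Fin 3)) (a : Fin 3 → F) (ha : ∀ i, a i ^ 6 = 1)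
    (hp : (∏ i, a i) ^ 2 = 1) (hw : ∀ i, w (π i) = a i * u i) (hu : inX u) : inX w := by
  have e1 : ∑ i, w i ^ 6 = ∑ i, u i ^ 6 := by
    rw [← Equiv.sum_comp π]
    simp only [hw, mul_pow, ha, one_mul]
  have e2 : ∑ i, (w i ^ 6) ^ 2 = ∑ i, (u i ^ 6) ^ 2 := by
    rw [← Equiv.sum_comp π]
    simp only [hw, mul_pow, ha, one_mul]
  have e3 : ∏ i, w i = (∏ i, a i) * ∏ i, u i := by
    rw [← Equiv.prod_comp π, ← Finset.prod_mul_distrib]
    simp only [hw]
  have e4 : (∏ i, w i) ^ 2 = (∏ i, u i) ^ 2 := by rw [e3, mul_pow, hp, one_mul]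
  have e5 : ∏ i, w i = 0 ↔ ∏ i, u i = 0 := by
    rw [← pow_eq_zero_iff two_ne_zero, e4, pow_eq_zero_iff two_ne_zero]
  simpa only [inX, e1, e2, e4, e5] using hu

omit [Fintype F] in
lemma sum_cyclic {π : Equiv.Perm (Fin 3)} (x : Fin 3 → F) :
    ∑ i, x (π i) * x (π (i + 1)) = ∑ i, x i * x (i + 1) := by
  have key : ∀ a b c : Fin 3, a ≠ b → b ≠ c → c ≠ a →
      (b = a + 1 ∧ c = a + 2) ∨ (b = a + 2 ∧ c = a + 1) := by decide
  rcases key (π 0) (π 1) (π 2) (π.injective.ne (by decide)) (π.injective.ne (by decide))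
    (π.injective.ne (by decide)) with ⟨e1, e2⟩ | ⟨e1, e2⟩ <;>
  · simp only [Fin.sum_univ_three, show (0 : Fin 3) + 1 = 1 from rfl, show (1 : Fin 3) + 1 = 2 from rfl,
      show (2 : Fin 3) + 1 = 0 from rfl, e1, e2]
    generalize π 0 = k
    fin_cases k <;> simp <;> ring

omit [Fintype F] in
/-- Monomial maps whose entries have one cube, a sign, preserve the second set. -/
theorem inY_mono {ψ : ℕ → F} (hn : ∀ x, ψ (negN x) = -ψ x) {u w : Fin 3 → F} (π : Equiv.Perm (Fin 3))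
    (a : Fin 3 → F) {ε : F} (hε : ε ^ 2 = 1) (ha : ∀ i, a i ^ 3 = ε)
    (hp : (∏ i, a i) ^ 2 = 1) (hw : ∀ i, w (π i) = a i * u i) (hu : inY ψ u) : inY ψ w := by
  obtain ⟨p, hp', h1, h2, h3⟩ := hu
  have f1 : (∏ i, w i) ^ 2 = ψ p.1 := by
    rw [← Equiv.prod_comp π, Finset.prod_congr rfl fun i _ => hw i, Finset.prod_mul_distrib, mul_pow, hp, one_mul, h1]
  have f2 : ∑ i, w i ^ 3 = ε * ψ p.2.1 := by
    rw [← Equiv.sum_comp π, ← h2, Finset.mul_sum]
    simp only [hw, mul_pow, ha]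
  have f3 : ∑ i, w i ^ 3 * w (i + 1) ^ 3 = ψ p.2.2 := by
    rw [← sum_cyclic (π := π) (fun i => w i ^ 3), ← h3]
    refine Finset.sum_congr rfl fun i _ => ?_
    simp only [hw, mul_pow, ha]
    linear_combination (u i ^ 3 * u (i + 1) ^ 3) * hε
  rcases sq_eq_one_iff.1 hε with e | e
  · exact ⟨p, hp', f1, by rw [f2, e, one_mul], f3⟩
  · exact ⟨_, rowsW_neg p hp', f1, by rw [f2, e, hn, neg_one_mul], f3⟩

end Cfsg.Agent.H3.UMax.ThreeFive
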