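import Mathlib

/-!
A model of the field of twenty-five elements.
-/

set_option autoImplicit false

namespace Cfsg.Agent.H3.UMax.TwentyFive

/-- Pairs over the field of five elements, the second entry the coefficient of a square root of two. -/
abbrev M25 : Type := ZMod 5 × ZMod 5

/-- Addition in the model. -/
def add25 (x y : M25) : M25 := (x.1 + y.1, x.2 + y.2)

/-- Negation in the model. -/
def neg25 (x : M25) : M25 := (-x.1, -x.2)

/-- Multiplication in the model. -/
def mul25 (x y : M25) : M25 := (x.1 * y.1 + 2 * (x.2 * y.2), x.1 * y.2 + x.2 * y.1)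

lemma sq_ne_two_sq : ∀ a b : ZMod 5, a * a = 2 * (b * b) → b = 0 := by decide

variable {F : Type*} [Field F] [Fintype F] (h25 : Fintype.card F = 5 ^ 2)
include h25

lemma five_eq_zero : (5 : F) = 0 := by
  have h : (Fintype.card F : F) = 0 := FiniteField.cast_card_eq_zero F
  rw [h25] at h
  push_cast at h
  exact mul_self_eq_zero.1 (by linear_combination h)

lemma two_ne_zero' : (2 : F) ≠ 0 := fun e =>
  one_ne_zero (show (1 : F) = 0 by linear_combination five_eq_zero h25 - 2 * e)

/-- The field of twenty-five elements is the model. -/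
theorem exists_iso : ∃ φ : M25 → F, Function.Bijective φ ∧ φ (0, 0) = 0 ∧ φ (1, 0) = 1 ∧
    (∀ x y, φ (add25 x y) = φ x + φ y) ∧ (∀ x y, φ (mul25 x y) = φ x * φ y) ∧ (∀ x, φ (neg25 x) = -φ x) ∧
    (∀ n : ℕ, φ ((n : ZMod 5), 0) = (n : F)) := by
  classical
  have : Fact (Nat.Prime 5) := ⟨Nat.prime_five⟩
  have : CharP F 5 := charP_of_card_eq_prime_pow h25
  have hrc : ringChar F ≠ 2 := by rw [ringChar.eq F 5]; norm_num
  obtain ⟨j, hj⟩ : IsSquare (2 : F) := by
    rw [FiniteField.isSquare_iff hrc (two_ne_zero' h25), h25]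
    norm_num
    linear_combination 819 * five_eq_zero h25
  let f : ZMod 5 →+* F := ZMod.castHom dvd_rfl F
  have hf : Function.Injective f := ZMod.castHom_injective F
  refine ⟨fun x => f x.1 + f x.2 * j, ?_, by simp, by simp, fun x y => ?_, fun x y => ?_, fun x => ?_, fun n => by simp⟩
  · rw [Fintype.bijective_iff_injective_and_card]
    refine ⟨fun x y e => ?_, by rw [h25]; rfl⟩
    by_cases hd : x.2 = y.2
    · simp only [hd, add_left_inj] at e
      exact Prod.ext (hf e) hd
    · exfalso
      have hd' : f (x.2 - y.2) ≠ 0 := fun h => hd (sub_eq_zero.1 (hf (h.trans (map_zero f).symm)))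
      have h1 : f (x.2 - y.2) * j = f (y.1 - x.1) := by
        rw [map_sub, map_sub]; linear_combination e
      refine hd' ?_
      rw [sq_ne_two_sq (y.1 - x.1) (x.2 - y.2) (hf ?_), map_zero]
      rw [map_mul, map_mul, map_mul, map_ofNat, ← h1]
      linear_combination (-(f (x.2 - y.2) * f (x.2 - y.2))) * hj
  · simp only [add25, map_add]; ring
  · simp only [mul25, map_add, map_mul, map_ofNat]
    linear_combination (f x.2 * f y.2) * hj
  · simp only [neg25, map_neg]; ring

end Cfsg.Agent.H3.UMax.TwentyFive
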