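import Cfsg.Agent.H99.Aschbacher.UnitaryLists

/-!
In dimension four SU normalises no group of symplectic type of odd defining characteristic.
-/

set_option autoImplicit false

open scoped MatrixGroups Matrix

namespace Cfsg.Agent.H3.UMax

open Cfsg.Geo H99.Asch

variable {F : Type*} [Field F] [Fintype F] {q : ℕ}

/-- SU in dimension four normalises no symplectic-type 2-group over a field of odd characteristic. -/
theorem su_four_not_le_symplecticType (hF : Fintype.card F = q ^ 2) (h2 : (2 : F) ≠ 0)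
    {R : Subgroup (GL (Fin 4) F)} (hR : IsSymplecticTypeGroup 2 R) (habs : ActsAbsolutelyIrreducibly (matrixSet R)) :
    ¬ suGL 4 F q ≤ subgroupNormalizer R := by
  classical
  intro h
  have hne : ¬ R ≤ scalars (Fin 4) F := by
    intro hRs
    obtain ⟨c, hc⟩ := habs.2 (Matrix.single (0 : Fin 4) (1 : Fin 4) (1 : F)) (by
      rintro _ ⟨s, hs, rfl⟩
      obtain ⟨d, hd⟩ := (mem_scalars_iff s).1 (hRs hs)
      show _ * (s : Matrix (Fin 4) (Fin 4) F) = (s : Matrix (Fin 4) (Fin 4) F) * _
      rw [hd, mul_smul_comm, smul_mul_assoc, mul_one, one_mul])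
    have := congrFun (congrFun hc 0) 1
    simp at this
  have : Fact (Nat.Prime 2) := ⟨Nat.prime_two⟩
  obtain ⟨A, hmemA, hAns⟩ := exists_second_center R (scalars (Fin 4) F) hR.pGroup hne
  obtain ⟨x, hxA, hxs⟩ := SetLike.not_le_iff_exists.1 hAns
  have hexp : ∀ y ∈ R, y ^ 4 = 1 := by
    intro y hy
    have h := Monoid.pow_exponent_eq_one (⟨y, hy⟩ : R)
    rw [hR.exponent_eq] at h
    exact congrArg Subtype.val h
  obtain ⟨p, hp⟩ := CharP.exists F
  have hpp : p.Prime := CharP.char_is_prime F p
  have hp2 : p ≠ 2 := by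
    rintro rfl
    exact h2 (CharTwo.two_eq_zero)
  obtain ⟨l, hl⟩ := scalar_of_commute_su hF (x := (x : Matrix (Fin 4) (Fin 4) F)) (by norm_num) fun v c t ht htc => by
    have hconj : ∀ g ∈ suGL 4 F q, ∀ y ∈ R, g * y * g⁻¹ ∈ R := fun g hg y hy =>
      ((Subgroup.mem_normalizer_iff).1 (h hg) y).1 hy
    have hA' : ∀ y ∈ A, t * y * t⁻¹ * y⁻¹ ∈ A := by
      intro y hy
      refine A.mul_mem ?_ (A.inv_mem hy)
      rw [hmemA]
      refine ⟨hconj t ht y ((hmemA y).1 hy).1, fun r hr => ?_⟩
      have hc := ((hmemA y).1 hy).2 _ (hconj t⁻¹ (inv_mem ht) r hr)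
      rw [inv_inv] at hc
      have := scalars_normal.conj_mem _ hc t
      convert this using 1
      simp [mul_assoc]
    let Φ : (Fin 4 → F) → (Fin 4 → F) → F := fun a b => hermForm 4 F q a b
    let N : Matrix (Fin 4) (Fin 4) F := Matrix.vecMulVec (c • v) (fun j => v j ^ q)
    have htN : (t : Matrix (Fin 4) (Fin 4) F) = 1 + N := by
      rw [htc, unitaryTransvection, ← Matrix.smul_vecMulVec]
    have hNu : ∀ u, N *ᵥ u = (c * Φ u v) • v := fun u => by
      have h1 := H3.unitaryTransvection_mulVec (q := q) v u c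
      rw [← htc, htN, Matrix.add_mulVec, Matrix.one_mulVec] at h1
      exact add_left_cancel h1
    -- the range of the commutator
    have hrange : ∀ (y : GL (Fin 4) F) (u : Fin 4 → F), ∃ a b : F,
        (((t * y * t⁻¹ * y⁻¹ : GL (Fin 4) F) : Matrix (Fin 4) (Fin 4) F) - 1) *ᵥ u =
          a • v + b • ((y : Matrix (Fin 4) (Fin 4) F) *ᵥ v) := by
      intro y u
      set w := ((t⁻¹ * y⁻¹ : GL (Fin 4) F) : Matrix (Fin 4) (Fin 4) F) *ᵥ u
      refine ⟨c * Φ ((y : Matrix (Fin 4) (Fin 4) F) *ᵥ w) v, -(c * Φ w v), ?_⟩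
      have hu : u = (y : Matrix (Fin 4) (Fin 4) F) *ᵥ ((t : Matrix (Fin 4) (Fin 4) F) *ᵥ w) := by
        simp only [w, Matrix.mulVec_mulVec, ← Units.val_mul]
        rw [show y * (t * (t⁻¹ * y⁻¹)) = 1 by group, Units.val_one, Matrix.one_mulVec]
      have hz : ((t * y * t⁻¹ * y⁻¹ : GL (Fin 4) F) : Matrix (Fin 4) (Fin 4) F) *ᵥ u =
          (t : Matrix (Fin 4) (Fin 4) F) *ᵥ ((y : Matrix (Fin 4) (Fin 4) F) *ᵥ w) := by
        simp only [w, Matrix.mulVec_mulVec, ← Units.val_mul]
        rw [show t * (y * (t⁻¹ * y⁻¹)) = t * y * t⁻¹ * y⁻¹ by group]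
      rw [Matrix.sub_mulVec, Matrix.one_mulVec, hz]
      nth_rw 1 [hu]
      rw [htN, Matrix.add_mulVec, Matrix.add_mulVec, Matrix.one_mulVec, Matrix.one_mulVec, hNu, hNu,
        Matrix.mulVec_add, Matrix.mulVec_smul, neg_smul]
      abel
    -- the structure of a non-scalar element with small range
    have hsmall : ∀ z ∈ A, ∀ v' : Fin 4 → F,
        (∀ u, ∃ a b : F, ((z : Matrix (Fin 4) (Fin 4) F) - 1) *ᵥ u = a • v + b • v') → z ≠ 1 →
        ∃ e : F, (z : Matrix (Fin 4) (Fin 4) F) *ᵥ v = e • v ∧ ∀ a : F, v' ≠ a • v := by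
      intro z hz v' hzr hz1
      let T := Matrix.toLin' ((z : Matrix (Fin 4) (Fin 4) F) - 1)
      have hT : LinearMap.range T ≤ Submodule.span F (Set.range ![v, v']) := by
        rintro _ ⟨u, rfl⟩
        obtain ⟨a, b, hab⟩ := hzr u
        rw [Matrix.toLin'_apply, hab]
        exact Submodule.add_mem _ (Submodule.smul_mem _ _ (Submodule.subset_span ⟨0, rfl⟩))
          (Submodule.smul_mem _ _ (Submodule.subset_span ⟨1, rfl⟩))
      have hW : Module.finrank F (Submodule.span F (Set.range ![v, v'])) ≤ 2 :=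
        (finrank_range_le_card (R := F) ![v, v']).trans (by simp)
      have hrk := LinearMap.finrank_range_add_finrank_ker T
      rw [Module.finrank_fin_fun] at hrk
      have hr2 : Module.finrank F (LinearMap.range T) ≤ 2 := (Submodule.finrank_mono hT).trans hW
      by_cases hzs : z ∈ scalars (Fin 4) F
      · exfalso
        obtain ⟨b, hb⟩ := (mem_scalars_iff z).1 hzs
        have hb1 : (b : F) - 1 ≠ 0 := fun e => hz1 (Units.ext (by
          rw [hb, sub_eq_zero.1 e, one_smul]; rfl))
        have htop : LinearMap.range T = ⊤ := by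
          rw [eq_top_iff]
          intro u _
          refine ⟨((b : F) - 1)⁻¹ • u, ?_⟩
          rw [Matrix.toLin'_apply, hb, Matrix.sub_mulVec, Matrix.smul_mulVec, Matrix.one_mulVec, smul_smul,
            ← sub_smul, ← sub_one_mul, mul_inv_cancel₀ hb1, one_smul]
        rw [htop, finrank_top, Module.finrank_fin_fun] at hr2
        omega
      obtain ⟨y, hy, hyz⟩ : ∃ y ∈ R, y * z * y⁻¹ * z⁻¹ ≠ 1 := by
        by_contra hall
        push Not at hall
        refine hzs (mem_scalars_of_commute habs fun y hy => ?_)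
        have := mul_inv_eq_one.1 (hall y hy)
        exact (mul_inv_eq_iff_eq_mul.1 this).symm
      obtain ⟨b, hb⟩ := (mem_scalars_iff _).1 (((hmemA z).1 hz).2 y hy)
      have hb1 : (b : F) ≠ 1 := fun e => hyz (Units.ext (by rw [hb, e, one_smul]; rfl))
      have hconjz : (y : Matrix (Fin 4) (Fin 4) F) * (z : Matrix (Fin 4) (Fin 4) F) =
          (b : F) • ((z : Matrix (Fin 4) (Fin 4) F) * (y : Matrix (Fin 4) (Fin 4) F)) := by
        rw [← Units.val_mul, ← Units.val_mul, show y * z = (y * z * y⁻¹ * z⁻¹) * (z * y) by group, Units.val_mul,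
          hb, smul_mul_assoc, one_mul]
      let S := Matrix.toLin' ((b : F) • (z : Matrix (Fin 4) (Fin 4) F) - 1)
      let Y : (Fin 4 → F) ≃ₗ[F] (Fin 4 → F) := Matrix.toLin'OfInv (M := ((y⁻¹ : GL (Fin 4) F) : Matrix (Fin 4) (Fin 4) F))
        (M' := (y : Matrix (Fin 4) (Fin 4) F)) (Units.inv_mul y) (Units.mul_inv y)
      have hker : ∀ u, u ∈ LinearMap.ker T → (y : Matrix (Fin 4) (Fin 4) F) *ᵥ u ∈ LinearMap.ker S := by
        intro u hu
        rw [LinearMap.mem_ker, Matrix.toLin'_apply, Matrix.sub_mulVec, Matrix.one_mulVec, sub_eq_zero] at hu ⊢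
        conv_rhs => rw [← hu, Matrix.mulVec_mulVec, hconjz]
        rw [Matrix.smul_mulVec, Matrix.smul_mulVec, Matrix.mulVec_mulVec]
      have hYker : (LinearMap.ker T).map (Matrix.toLin' (y : Matrix (Fin 4) (Fin 4) F)) ≤ LinearMap.ker S := by
        rintro _ ⟨u, hu, rfl⟩
        exact hker u hu
      have hk2 : 2 ≤ Module.finrank F (LinearMap.ker S) := by
        refine le_trans ?_ (Submodule.finrank_mono hYker)
        rw [((LinearMap.ker T).equivMapOfInjective _ (fun a a' e => Matrix.mulVec_injective_of_isUnit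
          (Units.isUnit y) (by simpa [Matrix.toLin'_apply] using e))).finrank_eq.symm]
        omega
      have hdisj : Disjoint (LinearMap.ker T) (LinearMap.ker S) := by
        rw [Submodule.disjoint_def]
        intro u hu hu'
        rw [LinearMap.mem_ker, Matrix.toLin'_apply, Matrix.sub_mulVec, Matrix.one_mulVec, sub_eq_zero] at hu hu'
        rw [Matrix.smul_mulVec, hu] at hu'
        have h0 : ((b : F) - 1) • u = 0 := by rw [sub_smul, one_smul, hu', sub_self]
        exact (smul_eq_zero.1 h0).resolve_left (sub_ne_zero.2 hb1)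
      have hsum := Submodule.finrank_sup_add_finrank_inf_eq (LinearMap.ker T) (LinearMap.ker S)
      rw [hdisj.eq_bot, finrank_bot, add_zero] at hsum
      have hle4 := Submodule.finrank_le (LinearMap.ker T ⊔ LinearMap.ker S)
      rw [Module.finrank_fin_fun] at hle4
      have hr : Module.finrank F (LinearMap.range T) = 2 := by omega
      have hWr := Submodule.eq_of_le_of_finrank_le hT (by omega)
      have hsup : LinearMap.ker T ⊔ LinearMap.ker S = ⊤ :=
        Submodule.eq_top_of_finrank_eq (by rw [Module.finrank_fin_fun]; omega)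
      obtain ⟨u, hu⟩ : v ∈ LinearMap.range T := by rw [hWr]; exact Submodule.subset_span ⟨0, rfl⟩
      obtain ⟨u₁, hu₁, u₂, hu₂, rfl⟩ := Submodule.mem_sup.1 (hsup ▸ (Submodule.mem_top : u ∈ ⊤))
      have hu₂' : (b : F) • ((z : Matrix (Fin 4) (Fin 4) F) *ᵥ u₂) = u₂ := by
        rw [LinearMap.mem_ker, Matrix.toLin'_apply, Matrix.sub_mulVec, Matrix.one_mulVec, sub_eq_zero,
          Matrix.smul_mulVec] at hu₂
        exact hu₂
      have hzu₂ : (z : Matrix (Fin 4) (Fin 4) F) *ᵥ u₂ = (b : F)⁻¹ • u₂ := by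
        conv_rhs => rw [← hu₂']
        rw [smul_smul, inv_mul_cancel₀ b.ne_zero, one_smul]
      have hv : v = ((b : F)⁻¹ - 1) • u₂ := by
        rw [← hu, map_add, LinearMap.mem_ker.1 hu₁, zero_add, Matrix.toLin'_apply, Matrix.sub_mulVec,
          Matrix.one_mulVec, hzu₂, sub_smul, one_smul]
      refine ⟨(b : F)⁻¹, by rw [hv, Matrix.mulVec_smul, hzu₂, smul_comm], fun a ha => ?_⟩
      have hle1 : Submodule.span F (Set.range ![v, v']) ≤ Submodule.span F {v} := by
        rw [Submodule.span_le]
        rintro _ ⟨i, rfl⟩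
        fin_cases i
        · exact Submodule.mem_span_singleton_self v
        · exact Submodule.mem_span_singleton.2 ⟨a, ha.symm⟩
      have h1 := Submodule.finrank_mono hle1
      rw [← hWr, hr] at h1
      have h3 := finrank_span_le_card ({v} : Set (Fin 4 → F)) (R := F)
      simp at h3
      omega
    set z := t * x * t⁻¹ * x⁻¹ with hz
    have hzA : z ∈ A := hA' x hxA
    have hz1 : z = 1 := by
      by_contra hz1
      obtain ⟨e, he, -⟩ := hsmall z hzA _ (hrange x) hz1
      have hzz : t * z * t⁻¹ * z⁻¹ = 1 := by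
        by_contra h1
        obtain ⟨-, -, hne'⟩ := hsmall _ (hA' z hzA) _ (hrange z) h1
        exact hne' e he
      have htz : t * z = z * t := mul_inv_eq_iff_eq_mul.1 (mul_inv_eq_one.1 hzz)
      have htp : ∀ k : ℕ, t ^ k * x * (t ^ k)⁻¹ = z ^ k * x := by
        intro k
        induction k with
        | zero => simp
        | succ k ih =>
          have hcomm : t * z ^ k = z ^ k * t := (Commute.pow_right htz k).eq
          calc t ^ (k + 1) * x * (t ^ (k + 1))⁻¹ = t * (t ^ k * x * (t ^ k)⁻¹) * t⁻¹ := by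
                rw [pow_succ', mul_inv_rev]; group
            _ = z ^ k * (t * x * t⁻¹) := by
                rw [ih, ← mul_assoc t, hcomm]; group
            _ = z ^ (k + 1) * x := by rw [pow_succ, hz]; group
      have htp1 : t ^ p = 1 := by
        apply Units.ext
        rw [Units.val_pow_eq_pow_val, htN, Units.val_one]
        have : Fact p.Prime := ⟨hpp⟩
        rw [add_pow_char_of_commute p (Commute.one_left N), one_pow]
        have hN2 : N * N = 0 := by
          rcases eq_or_ne v 0 with hv0 | hv0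
          · simp [N, hv0]
          · refine Matrix.ext_of_mulVec_single fun i => ?_
            rw [← Matrix.mulVec_mulVec, hNu (Pi.single i 1), Matrix.mulVec_smul, hNu v, Matrix.zero_mulVec]
            have hvv : c * Φ v v = 0 := by
              have hd : (t : Matrix (Fin 4) (Fin 4) F).det = 1 := mem_specialLinear_iff.1 ht.2
              rw [htc, unitaryTransvection, ← Matrix.smul_vecMulVec, Matrix.vecMulVec_eq Unit,
                Matrix.det_one_add_replicateCol_mul_replicateRow] at hd
              have e : (fun j => v j ^ q) ⬝ᵥ (c • v) = c * Φ v v := by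
                simp only [Φ, dotProduct, hermForm, Finset.mul_sum, Pi.smul_apply, smul_eq_mul]
                exact Finset.sum_congr rfl fun i _ => by ring
              rw [e] at hd
              linear_combination hd
            rw [hvv, zero_smul, smul_zero]
        obtain ⟨k, hk⟩ : ∃ k, p = 2 + k := ⟨p - 2, by have := hpp.two_le; omega⟩
        rw [hk, pow_add, sq, hN2, zero_mul, add_zero]
      have h1 := htp p
      rw [htp1, inv_one, one_mul, mul_one] at h1
      have hzp : z ^ p = 1 := right_eq_mul.1 h1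
      have hz4 : z ^ 4 = 1 := hexp z ((hmemA z).1 hzA).1
      have hco : Nat.Coprime p 4 := (Nat.coprime_primes hpp Nat.prime_two).2 hp2 |>.pow_right 2
      exact hz1 (orderOf_eq_one_iff.1 (Nat.eq_one_of_dvd_coprimes hco (orderOf_dvd_of_pow_eq_one hzp)
        (orderOf_dvd_of_pow_eq_one hz4)))
    rw [← Units.val_mul, ← Units.val_mul]
    exact congrArg Units.val (mul_inv_eq_one.1 (hz ▸ hz1))
  exact hxs (mem_scalars_of_smul hl)

end Cfsg.Agent.H3.UMax
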