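import Cfsg.Agent.H99.Aschbacher.SmallUnitary
import Cfsg.Agent.H3.UMax.MonoThree

/-!
The normaliser in SU of dimension three of an extraspecial group of order 27: it does not contain SU for primes
from 11 on, and it is not maximal for q = 5.
-/

set_option autoImplicit false

open scoped MatrixGroups Matrix

namespace Cfsg.Agent.H3.UMax

open Cfsg.Geo H99.Asch H99.Asch.SmallU TwentyFive ThreeFive Fin.NatCast

variable {F : Type*} [Field F] [Fintype F] {q : ℕ}

/-- SU in dimension three normalises no group of order 27 of symplectic type when the characteristic is large. -/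
theorem su_three_not_le_symplecticType (hF : Fintype.card F = q ^ 2) {p : ℕ} [CharP F p] (hp : p.Prime)
    (hp11 : 11 ≤ p) (hp13 : p ≠ 13) {R : Subgroup (GL (Fin 3) F)}
    (habs : ActsAbsolutelyIrreducibly (matrixSet R)) (hcR : Nat.card R = 27)
    (hz : Nat.card (Subgroup.center R) = 3) : ¬ suGL 3 F q ≤ subgroupNormalizer R := by
  classical
  intro h
  have : Fact p.Prime := ⟨hp⟩
  have hne : ¬ R ≤ scalars (Fin 3) F := by
    intro hRs
    obtain ⟨c, hc⟩ := habs.2 (Matrix.single (0 : Fin 3) (1 : Fin 3) (1 : F)) (by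
      rintro _ ⟨s, hs, rfl⟩
      obtain ⟨d, hd⟩ := (mem_scalars_iff s).1 (hRs hs)
      show _ * (s : Matrix (Fin 3) (Fin 3) F) = (s : Matrix (Fin 3) (Fin 3) F) * _
      rw [hd, mul_smul_comm, smul_mul_assoc, mul_one, one_mul])
    have := congrFun (congrFun hc 0) 1
    simp at this
  obtain ⟨y₀, hy₀, hy₀s⟩ := SetLike.not_le_iff_exists.1 hne
  refine hy₀s ?_
  obtain ⟨l, hl⟩ := scalar_of_commute_su hF (x := (y₀ : Matrix (Fin 3) (Fin 3) F)) (by norm_num) fun v c t ht htc => by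
    let N : Matrix (Fin 3) (Fin 3) F := Matrix.vecMulVec (c • v) (fun j => v j ^ q)
    have htN : (t : Matrix (Fin 3) (Fin 3) F) = 1 + N := by
      rw [htc, unitaryTransvection, ← Matrix.smul_vecMulVec]
    have hN2 : N * N = 0 := by
      have hd : (t : Matrix (Fin 3) (Fin 3) F).det = 1 := mem_specialLinear_iff.1 ht.2
      rw [htc, unitaryTransvection, ← Matrix.smul_vecMulVec, Matrix.vecMulVec_eq Unit,
        Matrix.det_one_add_replicateCol_mul_replicateRow] at hd
      have e : (fun j => v j ^ q) ⬝ᵥ (c • v) = 0 := by linear_combination hd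
      ext i j
      rw [Matrix.zero_apply, Matrix.mul_apply]
      simp only [N, Matrix.vecMulVec_apply]
      rw [show (∑ k, (c • v) i * v k ^ q * ((c • v) k * v j ^ q)) =
        ((c • v) i * v j ^ q) * ((fun j => v j ^ q) ⬝ᵥ (c • v)) by
          rw [dotProduct, Finset.mul_sum]
          exact Finset.sum_congr rfl fun k _ => by ring, e, mul_zero]
    have htp : t ^ p = 1 := by
      apply Units.ext
      rw [Units.val_pow_eq_pow_val, htN, Units.val_one, add_pow_char_of_commute p (Commute.one_left N), one_pow]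
      obtain ⟨k, hk⟩ : ∃ k, p = 2 + k := ⟨p - 2, by omega⟩
      rw [hk, pow_add, sq, hN2, zero_mul, add_zero]
    let φ : Subgroup.zpowers t →* MulAut R :=
      (Subgroup.normalizerMonoidHom R).comp (Subgroup.inclusion ((Subgroup.zpowers_le).2 (h ht)))
    let act : MulAction (Subgroup.zpowers t) R := MulAction.compHom R φ
    have hpg : IsPGroup p (Subgroup.zpowers t) := by
      rintro ⟨x, hx⟩
      obtain ⟨k, rfl⟩ := Subgroup.mem_zpowers_iff.1 hx
      refine ⟨1, Subtype.ext ?_⟩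
      show (t ^ k) ^ (p ^ 1) = 1
      rw [pow_one, ← zpow_natCast, ← zpow_mul, mul_comm, zpow_mul, zpow_natCast, htp, one_zpow]
    have hact : ∀ (s : Subgroup.zpowers t) (y : R), ((s • y : R) : GL (Fin 3) F) = s.1 * y.1 * s.1⁻¹ :=
      fun s y => rfl
    let C : Subgroup R :=
      { carrier := MulAction.fixedPoints (Subgroup.zpowers t) R
        one_mem' := fun s => Subtype.ext (by rw [hact]; simp)
        mul_mem' := fun {a b} ha hb s => Subtype.ext (by
          have e1 := congrArg Subtype.val (ha s)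
          have e2 := congrArg Subtype.val (hb s)
          rw [hact] at e1 e2 ⊢
          rw [Subgroup.coe_mul]
          conv_rhs => rw [← e1, ← e2]
          simp [mul_assoc])
        inv_mem' := fun {a} ha s => Subtype.ext (by
          have e1 := congrArg Subtype.val (ha s)
          rw [hact] at e1 ⊢
          rw [Subgroup.coe_inv]
          conv_rhs => rw [← e1]
          simp [mul_assoc]) }
    have hZC : Subgroup.center R ≤ C := by
      intro y hy s
      refine Subtype.ext ?_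
      have hys : (y : GL (Fin 3) F) ∈ scalars (Fin 3) F := mem_scalars_of_commute habs fun r hr =>
        (congrArg Subtype.val (Subgroup.mem_center_iff.1 hy ⟨r, hr⟩)).symm
      rw [hact, ← scalars_commute hys s.1, mul_inv_cancel_right]
    have h3 : 3 ≤ Nat.card C := hz.symm.le.trans (Subgroup.card_le_of_le hZC)
    have hdvd : Nat.card C ∣ 3 ^ 3 := by
      have := Subgroup.card_subgroup_dvd_card C
      rwa [hcR] at this
    have hmod : 27 ≡ Nat.card C [MOD p] := by
      have := hpg.card_modEq_card_fixedPoints R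
      rwa [hcR] at this
    obtain ⟨k, hk, hkC⟩ := (Nat.dvd_prime_pow Nat.prime_three).1 hdvd
    have htop : C = ⊤ := by
      refine Subgroup.eq_top_of_card_eq C ?_
      rw [hcR]
      rw [hkC] at hmod h3 ⊢
      have hm := (Nat.modEq_iff_dvd' (Nat.le_of_dvd (by norm_num) (hkC ▸ hdvd))).1 hmod.symm
      interval_cases k
      · omega
      · have := (Nat.prime_dvd_prime_iff_eq hp Nat.prime_two)
        rcases (hp.dvd_mul (m := 8) (n := 3)).1 (by simpa using hm) with h8 | h8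
        · have := Nat.le_of_dvd (by norm_num) h8; omega
        · have := Nat.le_of_dvd (by norm_num) h8; omega
      · rcases (hp.dvd_mul (m := 2) (n := 9)).1 (by simpa using hm) with h8 | h8
        · have := Nat.le_of_dvd (by norm_num) h8; omega
        · have := Nat.le_of_dvd (by norm_num) h8; omega
      · norm_num
    have hy : (⟨y₀, hy₀⟩ : R) ∈ C := htop ▸ Subgroup.mem_top _
    have := congrArg Subtype.val (hy ⟨t, Subgroup.mem_zpowers t⟩)
    rw [hact] at this
    rw [← Units.val_mul, ← Units.val_mul]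
    exact congrArg Units.val this
  exact mem_scalars_of_smul hl

omit [Fintype F] in
/-- The action of a monomial matrix. -/
lemma mon_mulVec (ω : F) (p : Fin 3 × Fin 3 × Fin 3) (v : Fin 3 → F) (r : Fin 3) :
    (mon ω p *ᵥ v) r = chi ω (p.1 + p.2.1 * r) * v (r + p.2.2) := by
  rw [Matrix.mulVec, dotProduct, Finset.sum_eq_single (r + p.2.2)]
  · simp [mon]
  · intro c _ hc; simp [mon, hc]
  · exact fun h => absurd (Finset.mem_univ _) h

omit [Fintype F] in
lemma root_eq_chi {ω : F} (h2 : ω ^ 2 + ω + 1 = 0) {x : F} (hx : x ^ 3 = 1) : ∃ a, x = chi ω a := by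
  have hprod : (x - 1) * ((x - ω) * (x - ω ^ 2)) = 0 := by
    linear_combination hx + (-x ^ 2 + x * ω + (1 - ω)) * h2
  rcases mul_eq_zero.1 hprod with e | e
  · exact ⟨0, by rw [chi_zero]; exact sub_eq_zero.1 e⟩
  rcases mul_eq_zero.1 e with e | e
  · exact ⟨1, by simp only [chi, Fin.val_one, pow_one]; exact sub_eq_zero.1 e⟩
  · exact ⟨2, by simp only [chi, Fin.val_two]; exact sub_eq_zero.1 e⟩

/-- An element normalising the monomial group of order 27. -/
def NormMon (ω : F) (g : GL (Fin 3) F) : Prop :=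
  ∀ p, ∃ p', (g : Matrix (Fin 3) (Fin 3) F) * mon ω p = mon ω p' * (g : Matrix (Fin 3) (Fin 3) F)

omit [Fintype F] in
/-- A normalising element is monomial, with one cube of the entries, or has columns with one cube of all entries. -/
theorem normMon_cases {ω : F} (h3 : ω ^ 3 = 1) (h1 : ω ≠ 1) {g : GL (Fin 3) F} (hg : NormMon ω g) :
    (∃ (π : Equiv.Perm (Fin 3)) (a : Fin 3 → F), MapsAxes g π a ∧ ∀ j, a j ^ 3 = a 0 ^ 3) ∨
    (∃ C : F, C ≠ 0 ∧ ∀ r j, (g : Matrix (Fin 3) (Fin 3) F) r j ^ 3 = C) := by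
  classical
  have h0 : ω ≠ 0 := fun e => by simp [e] at h3
  let M := (g : Matrix (Fin 3) (Fin 3) F)
  let v : Fin 3 → Fin 3 → F := fun j r => M r j
  have hcol : ∀ j, ∃ r, v j r ≠ 0 := fun j => by
    by_contra h
    push Not at h
    exact Matrix.GeneralLinearGroup.det_ne_zero g (Matrix.det_eq_zero_of_column_eq_zero j h)
  obtain ⟨p₁, hp₁⟩ := hg (0, 1, 0)
  obtain ⟨p₂, hp₂⟩ := hg (0, 0, 2)
  have e1 : ∀ j r, v j r * chi ω j = chi ω (p₁.1 + p₁.2.1 * r) * v j (r + p₁.2.2) := by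
    intro j r
    have h := congrFun (congrArg (fun A => A *ᵥ Pi.single j (1 : F)) hp₁) r
    simp only [← Matrix.mulVec_mulVec, mon_mulVec] at h
    rw [Matrix.mulVec, dotProduct, Finset.sum_eq_single j (fun c _ hc => by
      rw [mon_mulVec]; simp [hc]) (fun hn => absurd (Finset.mem_univ _) hn), mon_mulVec] at h
    simpa [v, M] using h
  have e2 : ∀ j r, v (j + 1) r = chi ω (p₂.1 + p₂.2.1 * r) * v j (r + p₂.2.2) := by
    intro j r
    have h := congrFun (congrArg (fun A => A *ᵥ Pi.single j (1 : F)) hp₂) r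
    simp only [← Matrix.mulVec_mulVec, mon_mulVec] at h
    have hsh : ∀ j : Fin 3, j + 1 + 2 = j := by decide
    rw [Matrix.mulVec, dotProduct, Finset.sum_eq_single (j + 1) (fun c _ hc => by
      rw [mon_mulVec, Pi.single_eq_of_ne (fun e => hc (by rw [← e]; exact (by decide : ∀ c : Fin 3, c = c + 2 + 1) c)),
        mul_zero, mul_zero]) (fun hn => absurd (Finset.mem_univ _) hn), mon_mulVec, hsh] at h
    simpa [v, M, chi_zero] using h
  have hchi3 : ∀ a, chi ω a ^ 3 = 1 := fun a => by rw [chi, ← pow_mul, mul_comm, pow_mul, h3, one_pow]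
  have c1 : ∀ j r, v j (r + p₁.2.2) ^ 3 = v j r ^ 3 := fun j r => by
    have := congrArg (· ^ 3) (e1 j r)
    simp only [mul_pow, hchi3, one_mul, mul_one] at this
    exact this.symm
  have c2 : ∀ j r, v (j + 1) r ^ 3 = v j (r + p₂.2.2) ^ 3 := fun j r => by
    rw [e2, mul_pow, hchi3, one_mul]
  by_cases hk : p₁.2.2 = 0
  · left
    have heig : ∀ j r, v j r ≠ 0 → j = p₁.1 + p₁.2.1 * r := fun j r hv => by
      have h := e1 j r
      rw [hk, add_zero, mul_comm (v j r)] at h
      exact chi_injective h3 h1 (mul_right_cancel₀ hv h)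
    have hj : p₁.2.1 ≠ 0 := by
      intro hj
      obtain ⟨r, hr⟩ := hcol (p₁.1 + 1)
      have h := heig _ r hr
      rw [hj, zero_mul, add_zero] at h
      simp at h
    choose f hf using hcol
    have hinj : Function.Injective f := fun i j e => by rw [heig i _ (hf i), heig j _ (hf j), e]
    have huniq : ∀ j r, v j r ≠ 0 → r = f j := fun j r hr => by
      have key : ∀ a r r' : Fin 3, a ≠ 0 → a * r = a * r' → r = r' := by decide
      exact key _ _ _ hj (add_left_cancel ((heig j r hr).symm.trans (heig j _ (hf j))))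
    refine ⟨Equiv.ofBijective f (Finite.injective_iff_bijective.1 hinj), fun j => v j (f j), fun j => ?_, ?_⟩
    · funext r
      rw [Matrix.mulVec_single_one, Matrix.col_apply, Pi.smul_apply, Equiv.ofBijective_apply, Pi.single_apply,
        smul_eq_mul]
      split
      · next e => rw [e, mul_one]
      · next e =>
        rw [mul_zero]
        exact by_contra fun hv => e (huniq j r hv)
    · have hstep : ∀ j, v (j + 1) (f (j + 1)) ^ 3 = v j (f j) ^ 3 := fun j => by
        have h := c2 j (f (j + 1))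
        have hne : v j (f (j + 1) + p₂.2.2) ≠ 0 := fun e => by
          rw [e, zero_pow three_ne_zero, pow_eq_zero_iff three_ne_zero] at h
          exact hf _ h
        rw [← huniq j _ hne]
        exact h
      intro j
      have s0 := hstep 0
      have s1 := hstep 1
      fin_cases j
      · rfl
      · exact s0
      · exact s1.trans s0
  · right
    have hconst : ∀ j r, v j r ^ 3 = v j 0 ^ 3 := by
      intro j r
      have key : ∀ k r : Fin 3, k ≠ 0 → r = 0 ∨ r = 0 + k ∨ r = 0 + k + k := by decide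
      rcases key _ r hk with e | e | e <;> rw [e]
      · rw [c1]
      · rw [c1, c1]
    have hstep : ∀ j, v (j + 1) 0 ^ 3 = v j 0 ^ 3 := fun j => by rw [c2, hconst]
    have hall : ∀ j, v j 0 ^ 3 = v 0 0 ^ 3 := by
      intro j
      have s0 := hstep 0
      have s1 := hstep 1
      fin_cases j
      · rfl
      · exact s0
      · exact s1.trans s0
    refine ⟨v 0 0 ^ 3, fun e => ?_, fun r j => (hconst j r).trans (hall j)⟩
    obtain ⟨r, hr⟩ := hcol 0
    exact hr ((pow_eq_zero_iff three_ne_zero).1 (by rw [hconst, e]))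

set_option maxHeartbeats 1000000 in
/-- For q = 5 a group of order 27 of symplectic type is the monomial group in some frame. -/
theorem exists_frame_typeThree (hF : Fintype.card F = 5 ^ 2) {R : Subgroup (GL (Fin 3) F)}
    (hR : IsSymplecticTypeGroup 3 R) (habs : ActsAbsolutelyIrreducibly (matrixSet R)) (hcR : Nat.card R = 27)
    (hRU : R ≤ GU 3 F 5) {ω : F} (h3 : ω ^ 3 = 1) (h1 : ω ≠ 1) :
    ∃ P : GL (Fin 3) F, P ∈ GU 3 F 5 ∧ ∀ g ∈ subgroupNormalizer R, NormMon ω (P⁻¹ * g * P) := by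
  classical
  have h0 : ω ≠ 0 := fun e => by simp [e] at h3
  have h2 : ω ^ 2 + ω + 1 = 0 := (mul_eq_zero.1 (show (ω - 1) * (ω ^ 2 + ω + 1) = 0 by
    linear_combination h3)).resolve_left (sub_ne_zero.2 h1)
  have h5 := five_eq_zero hF
  have h3F : (3 : F) ≠ 0 := fun e => one_ne_zero (show (1 : F) = 0 by linear_combination 2 * e - h5)
  have hcube : ∀ a ∈ R, a ^ 3 = 1 := by
    intro a ha
    have h := Monoid.pow_exponent_eq_one (⟨a, ha⟩ : R)
    rw [hR.exponent_eq] at h
    exact congrArg Subtype.val h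
  have hne : ¬ R ≤ scalars (Fin 3) F := by
    intro hRs
    obtain ⟨c, hc⟩ := habs.2 (Matrix.single (0 : Fin 3) (1 : Fin 3) (1 : F)) (by
      rintro _ ⟨s, hs, rfl⟩
      obtain ⟨d, hd⟩ := (mem_scalars_iff s).1 (hRs hs)
      show _ * (s : Matrix (Fin 3) (Fin 3) F) = (s : Matrix (Fin 3) (Fin 3) F) * _
      rw [hd, mul_smul_comm, smul_mul_assoc, mul_one, one_mul])
    have := congrFun (congrFun hc 0) 1
    simp at this
  have : Fact (Nat.Prime 3) := ⟨Nat.prime_three⟩
  have := scalars_normal (ι := Fin 3) (F := F)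
  obtain ⟨A, hmemA, hAns⟩ := exists_second_center R (scalars (Fin 3) F) hR.pGroup hne
  obtain ⟨y₁, hyA, hys⟩ := SetLike.not_le_iff_exists.1 hAns
  obtain ⟨hy₁, hcomm⟩ := (hmemA y₁).1 hyA
  obtain ⟨x, hx, hxy⟩ : ∃ x ∈ R, x * y₁ * x⁻¹ * y₁⁻¹ ≠ 1 := by
    by_contra hall
    push Not at hall
    exact hys (mem_scalars_of_commute habs fun x hx => (mul_inv_eq_iff_eq_mul.1 (mul_inv_eq_one.1 (hall x hx))).symm)
  obtain ⟨c, hc⟩ := (mem_scalars_iff _).1 (hcomm x hx)
  let Y := (y₁ : Matrix (Fin 3) (Fin 3) F)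
  have hXY : (x : Matrix (Fin 3) (Fin 3) F) * Y = (c : F) • (Y * x) := by
    rw [← Units.val_mul, ← Units.val_mul, show x * y₁ = (x * y₁ * x⁻¹ * y₁⁻¹) * (y₁ * x) by group, Units.val_mul,
      hc, smul_mul_assoc, one_mul]
  have hc1 : (c : F) ≠ 1 := fun e => hxy (Units.ext (by rw [hc, e, one_smul]; rfl))
  have hcR' : x * y₁ * x⁻¹ * y₁⁻¹ ∈ R := R.mul_mem (R.mul_mem (R.mul_mem hx hy₁) (R.inv_mem hx)) (R.inv_mem hy₁)
  have hc3 : (c : F) ^ 3 = 1 := by
    have h : (((c : F) • (1 : Matrix (Fin 3) (Fin 3) F)) ^ 3) = 1 := by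
      rw [← hc, ← Units.val_pow_eq_pow_val, hcube _ hcR', Units.val_one]
    rw [smul_pow, one_pow] at h
    simpa using congrFun (congrFun h 0) 0
  -- an element moving the eigenvalues of y by ω
  obtain ⟨s, hs, hsY⟩ : ∃ s ∈ R, Y * (s : Matrix (Fin 3) (Fin 3) F) = ω • ((s : Matrix (Fin 3) (Fin 3) F) * Y) := by
    have hxx : ((x * x : GL (Fin 3) F) : Matrix (Fin 3) (Fin 3) F) * Y =
        ((c : F) * c) • (Y * ((x * x : GL (Fin 3) F) : Matrix (Fin 3) (Fin 3) F)) := by
      rw [Units.val_mul, mul_assoc, hXY, mul_smul_comm, ← mul_assoc, hXY, smul_mul_assoc, smul_smul, mul_assoc]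
    obtain ⟨a, ha⟩ := root_eq_chi h2 hc3
    have ha0 : a ≠ 0 := fun e => hc1 (by rw [ha, e, chi_zero])
    rcases (by decide : ∀ a : Fin 3, a ≠ 0 → a = 1 ∨ a = 2) a ha0 with rfl | rfl
    · refine ⟨x * x, R.mul_mem hx hx, ?_⟩
      rw [hxx, smul_smul, ha]
      simp only [chi, Fin.val_one, pow_one]
      rw [show ω * (ω * ω) = 1 by linear_combination h3, one_smul]
    · refine ⟨x, hx, ?_⟩
      rw [hXY, smul_smul, ha]
      simp only [chi, Fin.val_two]
      rw [show ω * ω ^ 2 = 1 by linear_combination h3, one_smul]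
  obtain ⟨sc, hscR, hsc⟩ : ∃ sc ∈ R, (sc : Matrix (Fin 3) (Fin 3) F) = ω • 1 := by
    obtain ⟨a, ha⟩ := root_eq_chi h2 hc3
    have ha0 : a ≠ 0 := fun e => hc1 (by rw [ha, e, chi_zero])
    rcases (by decide : ∀ a : Fin 3, a ≠ 0 → a = 1 ∨ a = 2) a ha0 with rfl | rfl
    · exact ⟨_, hcR', by rw [hc, ha]; simp [chi]⟩
    · refine ⟨_, R.mul_mem hcR' hcR', ?_⟩
      rw [Units.val_mul, hc, ha, smul_mul_assoc, one_mul, smul_smul]
      simp only [chi, Fin.val_two]
      rw [show ω ^ 2 * ω ^ 2 = ω by linear_combination ω * h3]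
  -- an eigenvector of a multiple of y
  have hY3 : Y * (Y * Y) = 1 := by
    rw [← Units.val_mul, ← Units.val_mul, ← pow_two, ← pow_succ', hcube _ hy₁, Units.val_one]
  obtain ⟨k, e, he0, hek⟩ : ∃ (k : ℕ) (e : Fin 3 → F), e ≠ 0 ∧ ω ^ k • (Y *ᵥ e) = e := by
    let d : Fin 3 → F := Pi.single 0 1
    have hfix : ∀ k : ℕ, ω ^ k • (Y *ᵥ (d + ω ^ k • (Y *ᵥ d) + (ω ^ k * ω ^ k) • (Y *ᵥ (Y *ᵥ d)))) =
        d + ω ^ k • (Y *ᵥ d) + (ω ^ k * ω ^ k) • (Y *ᵥ (Y *ᵥ d)) := by
      intro k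
      rw [Matrix.mulVec_add, Matrix.mulVec_add, Matrix.mulVec_smul, Matrix.mulVec_smul, smul_add, smul_add, smul_smul,
        smul_smul]
      rw [show Y *ᵥ (Y *ᵥ (Y *ᵥ d)) = d by rw [Matrix.mulVec_mulVec, Matrix.mulVec_mulVec, mul_assoc, hY3,
        Matrix.one_mulVec]]
      rw [show ω ^ k * (ω ^ k * ω ^ k) = 1 by rw [← pow_add, ← pow_add, show k + (k + k) = 3 * k by ring, pow_mul, h3,
        one_pow], one_smul]
      abel
    by_contra hno
    push Not at hno
    have hz : ∀ k : ℕ, d + ω ^ k • (Y *ᵥ d) + (ω ^ k * ω ^ k) • (Y *ᵥ (Y *ᵥ d)) = 0 := fun k =>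
      by_contra fun hk => hno k _ hk (hfix k)
    have hsum := congrFun (show (3 : F) • d = 0 from by
      funext i
      have a0 := congrFun (hz 0) i
      have a1 := congrFun (hz 1) i
      have a2 := congrFun (hz 2) i
      simp only [Pi.add_apply, Pi.smul_apply, smul_eq_mul, Pi.zero_apply, pow_zero, pow_one] at a0 a1 a2 ⊢
      linear_combination a0 + a1 + a2 - ((Y *ᵥ d) i) * h2 - ((Y *ᵥ (Y *ᵥ d)) i) * (ω ^ 2 - ω + 1) * h2) 0
    exact h3F (by simpa [d] using hsum)
  obtain ⟨y, hy, hyM⟩ : ∃ y ∈ R, (y : Matrix (Fin 3) (Fin 3) F) = ω ^ k • Y :=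
    ⟨sc ^ k * y₁, R.mul_mem (R.pow_mem hscR k) hy₁, by
      rw [Units.val_mul, Units.val_pow_eq_pow_val, hsc, smul_pow, one_pow, smul_mul_assoc, one_mul]⟩
  have hsy : (y : Matrix (Fin 3) (Fin 3) F) * s = ω • ((s : Matrix (Fin 3) (Fin 3) F) * y) := by
    rw [hyM, smul_mul_assoc, hsY, mul_smul_comm, smul_comm]
  let ev : Fin 3 → Fin 3 → F := fun i => ((s ^ (i : ℕ) : GL (Fin 3) F) : Matrix (Fin 3) (Fin 3) F) *ᵥ e
  have hev0 : ev 0 = e := by simp [ev]
  have hevs : ∀ i, (s : Matrix (Fin 3) (Fin 3) F) *ᵥ ev i = ev (i + 1) := by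
    intro i
    have h : s ^ ((i + 1 : Fin 3) : ℕ) = s * s ^ (i : ℕ) := by
      have hv : (i : ℕ) + 1 = ((i + 1 : Fin 3) : ℕ) ∨ ((i : ℕ) + 1 = 3 ∧ ((i + 1 : Fin 3) : ℕ) = 0) := by
        revert i; decide
      rcases hv with hv | ⟨hv, hv'⟩
      · rw [← hv, pow_succ']
      · rw [← pow_succ', hv, hv', hcube _ hs, pow_zero]
    simp only [ev, h, Units.val_mul, Matrix.mulVec_mulVec]
  have hevy : ∀ i, (y : Matrix (Fin 3) (Fin 3) F) *ᵥ ev i = chi ω i • ev i := by
    intro i
    have key : ∀ j : ℕ, (y : Matrix (Fin 3) (Fin 3) F) *ᵥ (((s ^ j : GL (Fin 3) F) : Matrix (Fin 3) (Fin 3) F) *ᵥ e) =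
        ω ^ j • (((s ^ j : GL (Fin 3) F) : Matrix (Fin 3) (Fin 3) F) *ᵥ e) := by
      intro j
      induction j with
      | zero => rw [pow_zero, Units.val_one, Matrix.one_mulVec, hyM, Matrix.smul_mulVec, hek, pow_zero, one_smul]
      | succ j ih =>
        rw [pow_succ' s j, Units.val_mul, ← Matrix.mulVec_mulVec, Matrix.mulVec_mulVec (M := (y : Matrix (Fin 3) (Fin 3) F)),
          hsy, Matrix.smul_mulVec, ← Matrix.mulVec_mulVec, ih, Matrix.mulVec_smul, smul_smul, ← pow_succ']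
    exact key i
  have hev_ne : ∀ i, ev i ≠ 0 := fun i e0 => he0
    (Matrix.mulVec_injective_of_isUnit (Units.isUnit (s ^ (i : ℕ))) (e0.trans (Matrix.mulVec_zero _).symm))
  have hisom : ∀ g ∈ R, ∀ a b, hermForm 3 F 5 ((g : Matrix (Fin 3) (Fin 3) F) *ᵥ a) ((g : Matrix (Fin 3) (Fin 3) F) *ᵥ b) =
      hermForm 3 F 5 a b := fun g hg a b => hRU hg a b
  have horth0 : ∀ i j, i ≠ j → hermForm 3 F 5 (ev i) (ev j) = 0 := by
    intro i j hij
    have h := hisom y hy (ev i) (ev j)
    rw [hevy, hevy, H3.hermForm_smul_left hF, H3.hermForm_smul_right hF, ← mul_assoc] at h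
    refine (mul_eq_zero.1 (show (chi ω i * chi ω j ^ 5 - 1) * hermForm 3 F 5 (ev i) (ev j) = 0 by
      linear_combination h)).resolve_left fun e5 => hij ?_
    have hx : chi ω j ^ 5 = chi ω (2 * j) := by
      rw [show (2 : Fin 3) * j = j + j from (by decide : ∀ j : Fin 3, 2 * j = j + j) j, chi_add h3,
        show chi ω j ^ 5 = chi ω j ^ 3 * (chi ω j * chi ω j) by ring,
        show chi ω j ^ 3 = 1 by rw [chi, ← pow_mul, mul_comm, pow_mul, h3, one_pow], one_mul]
    rw [hx, ← chi_add h3, sub_eq_zero, ← chi_zero (ω := ω)] at e5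
    exact (by decide : ∀ i j : Fin 3, i + 2 * j = 0 → i = j) i j (chi_injective h3 h1 e5)
  have hnorm : ∀ i, hermForm 3 F 5 (ev i) (ev i) = hermForm 3 F 5 e e := fun i =>
    hisom _ (R.pow_mem hs _) e e
  have hanis : hermForm 3 F 5 e e ≠ 0 := by
    intro hz0
    have hli : LinearIndependent F ev := by
      refine Fintype.linearIndependent_iff.2 fun a ha i => ?_
      have hY1 := congrArg ((y : Matrix (Fin 3) (Fin 3) F) *ᵥ ·) ha
      have hY2 := congrArg ((y : Matrix (Fin 3) (Fin 3) F) *ᵥ ·) hY1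
      simp only [Fin.sum_univ_three, Matrix.mulVec_add, Matrix.mulVec_smul, hevy, Matrix.mulVec_zero, smul_smul] at ha hY1 hY2
      simp only [chi, Fin.val_zero, Fin.val_one, Fin.val_two, pow_zero, pow_one, mul_one] at hY1 hY2
      obtain ⟨w, hw⟩ : ∃ w, ev i w ≠ 0 := Function.ne_iff.1 (hev_ne i)
      have b0 := congrFun ha w
      have b1 := congrFun hY1 w
      have b2 := congrFun hY2 w
      simp only [Pi.add_apply, Pi.smul_apply, smul_eq_mul, Pi.zero_apply] at b0 b1 b2
      refine (mul_eq_zero.1 ?_).resolve_right hw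
      refine (mul_eq_zero.1 (show (3 : F) * (a i * ev i w) = 0 from ?_)).resolve_left h3F
      fin_cases i
      · simp only [Fin.zero_eta]
        linear_combination b0 + b1 + b2 - (a 1 * ev 1 w + a 2 * ev 2 w * (ω ^ 2 - ω + 1)) * h2
      · simp only [Fin.mk_one]
        linear_combination b0 + ω ^ 2 * b1 + ω * b2 - (a 0 * ev 0 w + a 2 * ev 2 w * (ω ^ 3 - ω + 1)) * h2 -
          (2 * a 1 * ev 1 w + a 2 * ev 2 w * (ω ^ 2 + ω + 1) * 0) * h3
      · simp only [Fin.reduceFinMk]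
        linear_combination b0 + ω * b1 + ω ^ 2 * b2 - (a 0 * ev 0 w + a 1 * ev 1 w * (ω ^ 2 - ω + 1)) * h2 -
          (a 2 * ev 2 w * (ω ^ 3 + 2)) * h3
    have htop := hli.span_eq_top_of_card_eq_finrank (by simp)
    refine he0 ((H3.isHerm_hermB hF 3).sep e fun z => ?_)
    have hz' : z ∈ Submodule.span F (Set.range ev) := htop ▸ Submodule.mem_top
    induction hz' using Submodule.span_induction with
    | mem z hz =>
      obtain ⟨i, rfl⟩ := hz
      rw [H3.hermB_apply, ← hev0]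
      by_cases hi : i = 0
      · rw [hi, hev0]; exact hz0
      · exact horth0 _ _ hi
    | zero => exact map_zero _
    | add a b _ _ ha hb => rw [map_add, ha, hb, add_zero]
    | smul t a _ ha => rw [map_smul, ha, smul_zero]
  obtain ⟨l, hl⟩ := H3.exists_norm_eq hF (μ := (hermForm 3 F 5 e e)⁻¹)
    (by rw [inv_pow, H3.hermForm_pow_q hF])
  have horth : H3.Orth (H3.hermB hF 3) (fun i => l • ev i) := by
    intro i j
    rw [H3.hermB_apply, H3.hermForm_smul_left hF, H3.hermForm_smul_right hF, ← mul_assoc, ← pow_succ', hl]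
    by_cases hij : i = j
    · subst hij; rw [if_pos rfl, hnorm, inv_mul_cancel₀ hanis]
    · rw [if_neg hij, horth0 j i (Ne.symm hij), mul_zero]
  obtain ⟨g₀, hg₀⟩ := H3.exists_GU_of_orth hF _ horth
  refine ⟨g₀.1, g₀.2, ?_⟩
  let P : GL (Fin 3) F := g₀.1
  let S : Set (Fin 3 × Fin 3 × Fin 3) := {p | ∃ r ∈ R, (r : Matrix (Fin 3) (Fin 3) F) * P = (P : Matrix (Fin 3) (Fin 3) F) * mon ω p}
  have hgen : ∀ (r : GL (Fin 3) F) p, r ∈ R →
      (∀ i, (r : Matrix (Fin 3) (Fin 3) F) *ᵥ (l • ev i) =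
        (P : Matrix (Fin 3) (Fin 3) F) *ᵥ (mon ω p *ᵥ Pi.single i 1)) → p ∈ S := fun r p hr h =>
    ⟨r, hr, Matrix.ext_of_mulVec_single fun i => by rw [← Matrix.mulVec_mulVec, ← Matrix.mulVec_mulVec, hg₀, h]⟩
  have hmon : ∀ p i, mon ω p *ᵥ Pi.single i 1 = chi ω (p.1 + p.2.1 * (i - p.2.2)) • Pi.single (i - p.2.2) (1 : F) := by
    intro p i
    funext r
    rw [mon_mulVec, Pi.smul_apply, smul_eq_mul]
    by_cases hr : r = i - p.2.2
    · subst hr; simp
    · rw [Pi.single_eq_of_ne hr, Pi.single_eq_of_ne (fun e => hr (eq_sub_of_add_eq e)), mul_zero, mul_zero]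
  have hS1 : (1, 0, 0) ∈ S := hgen sc _ hscR fun i => by
    rw [hmon, hsc, Matrix.smul_mulVec, Matrix.one_mulVec, Matrix.mulVec_smul, sub_zero, hg₀]
    simp [chi]
  have hS2 : (0, 1, 0) ∈ S := hgen y _ hy fun i => by
    rw [hmon, Matrix.mulVec_smul, Matrix.mulVec_smul, sub_zero, hg₀, hevy, one_mul, zero_add, smul_comm]
  have hS3 : (0, 0, 2) ∈ S := hgen s _ hs fun i => by
    rw [hmon, Matrix.mulVec_smul, Matrix.mulVec_smul, hg₀, hevs, zero_mul, add_zero, chi_zero, one_smul,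
      show i - 2 = i + 1 from (by decide : ∀ i : Fin 3, i - 2 = i + 1) i]
  have hmul : ∀ a b, a ∈ S → b ∈ S → op a b ∈ S := by
    rintro a b ⟨r, hr, hra⟩ ⟨r', hr', hrb⟩
    exact ⟨r * r', R.mul_mem hr hr', by rw [Units.val_mul, mul_assoc, hrb, ← mul_assoc, hra, mul_assoc, mon_mul h3]⟩
  have hS0 : (0, 0, 0) ∈ S := ⟨1, R.one_mem, by rw [mon_one, Units.val_one, one_mul, mul_one]⟩
  have hall : ∀ p, p ∈ S := by
    have hA : ∀ a, (a, 0, 0) ∈ S ∧ (0, a, 0) ∈ S ∧ (0, 0, a) ∈ S := by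
      intro a
      rcases (by decide : ∀ a : Fin 3, a = 0 ∨ a = 1 ∨ a = 2) a with rfl | rfl | rfl
      · exact ⟨hS0, hS0, hS0⟩
      · have h := hmul _ _ hS3 hS3
        rw [show op (0, 0, 2) (0, 0, 2) = (0, 0, 1) by decide] at h
        exact ⟨hS1, hS2, h⟩
      · have ha := hmul _ _ hS1 hS1
        have hb := hmul _ _ hS2 hS2
        rw [show op (1, 0, 0) (1, 0, 0) = (2, 0, 0) by decide] at ha
        rw [show op (0, 1, 0) (0, 1, 0) = (0, 2, 0) by decide] at hb
        exact ⟨ha, hb, hS3⟩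
    have key : ∀ p : Fin 3 × Fin 3 × Fin 3, ∃ a b c, op (op (a, 0, 0) (0, b, 0)) (0, 0, c) = p := by decide
    intro p
    obtain ⟨a, b, c, rfl⟩ := key p
    exact hmul _ _ (hmul _ _ (hA a).1 (hA b).2.1) (hA c).2.2
  choose f hf hfp using hall
  have hbij : Function.Bijective (fun p => (⟨f p, hf p⟩ : R)) := by
    rw [Nat.bijective_iff_injective_and_card, hcR]
    refine ⟨fun a b hab => mon_injective h3 h1 h0 ((Units.isUnit P).mul_left_cancel ?_), by simp⟩
    rw [← hfp, ← hfp, show f a = f b from congrArg Subtype.val hab]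
  intro g hg p
  obtain ⟨p', hp'⟩ := hbij.2 ⟨g * f p * g⁻¹, ((Subgroup.mem_normalizer_iff).1 hg _).1 (hf p)⟩
  refine ⟨p', ?_⟩
  have hf' : f p' = g * f p * g⁻¹ := congrArg Subtype.val hp'
  have hconj : ∀ p, mon ω p = ((P⁻¹ * f p * P : GL (Fin 3) F) : Matrix (Fin 3) (Fin 3) F) := fun p => by
    rw [Units.val_mul, Units.val_mul, mul_assoc, hfp, ← mul_assoc, Units.inv_mul, one_mul]
  show ((P⁻¹ * g * P : GL (Fin 3) F) : Matrix (Fin 3) (Fin 3) F) * _ = _ * ((P⁻¹ * g * P : GL (Fin 3) F) : Matrix (Fin 3) (Fin 3) F)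
  rw [hconj p, hconj p', ← Units.val_mul, ← Units.val_mul, hf']
  congr 1
  group

lemma chi_codes : ∀ (i m r : Fin 3),
    entN (kN i) r m = mulN (entN (kN i) 0 m) (![1, 17, 12] (![0, m, 2 * m + i] r : Fin 3)) ∧
    c3N (entN (kN i) 0 m) = c3N 7 ∧ entN (kN i) 0 m ≠ 0 ∧ entN (kN i) 0 m < 25 := by
  decide +kernel

set_option maxHeartbeats 1000000 in
/-- For q = 5 the normaliser of the group of order 27 is not maximal. -/
theorem typeThree_not_maximal (hF : Fintype.card F = q ^ 2) (hq : q = 5) {R : Subgroup (GL (Fin 3) F)}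
    (hR : IsSymplecticTypeGroup 3 R) (habs : ActsAbsolutelyIrreducibly (matrixSet R)) (hcR : Nat.card R = 27)
    (hRU : R ≤ GU 3 F q) {H : Subgroup (GL (Fin 3) F)} (hH : IsMaximalIn (suGL 3 F q) H)
    (hle : H ≤ subgroupNormalizer R) : False := by
  classical
  subst hq
  obtain ⟨ψ, hψ⟩ := ThreeFive.exists_coding hF
  obtain ⟨ω, hω⟩ : ∃ ω, ψ 17 = ω := ⟨_, rfl⟩
  have h3 : ω ^ 3 = 1 := by rw [← hω, ← hψ.cube, show c3N 17 = 1 by decide, hψ.one]
  have h1 : ω ≠ 1 := fun e => absurd (hψ.inj (by norm_num) (by norm_num) ((hω.trans e).trans hψ.one.symm)) (by norm_num)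
  have h2 : ω ^ 2 + ω + 1 = 0 := (mul_eq_zero.1 (show (ω - 1) * (ω ^ 2 + ω + 1) = 0 by
    linear_combination h3)).resolve_left (sub_ne_zero.2 h1)
  obtain ⟨P, hP, hnorm⟩ := exists_frame_typeThree hF hR habs hcR hRU h3 h1
  have hH' := conj_maximal hF hH hP
  have hmem : ∀ g ∈ H.map (MulAut.conj P⁻¹).toMonoidHom, NormMon ω g := by
    rintro _ ⟨g, hg, rfl⟩
    show NormMon ω (P⁻¹ * g * (P⁻¹)⁻¹)
    rw [inv_inv]
    exact hnorm g (hle hg)
  have hchi : ∀ a : Fin 3, chi ω a = ψ (![1, 17, 12] a) := by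
    intro a
    fin_cases a
    · simp [chi, hψ.one]
    · simp [chi, hω]
    · simp [chi]
      rw [sq, ← hω, ← hψ.mul, show mulN 17 17 = 12 by decide]
  have hchi5 : ∀ a, chi ω a ^ 5 = chi ω (2 * a) := fun a => by
    rw [show (2 : Fin 3) * a = a + a from (by decide : ∀ a : Fin 3, 2 * a = a + a) a, chi_add h3, show chi ω a ^ 5 = chi ω a ^ 3 * (chi ω a * chi ω a) by ring,
      show chi ω a ^ 3 = 1 by rw [chi, ← pow_mul, mul_comm, pow_mul, h3, one_pow], one_mul]
  have h5 := hψ.five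
  have hsum0 : ∀ a b : Fin 3, 1 + chi ω a + chi ω b = 0 → (a = 1 ∧ b = 2) ∨ (a = 2 ∧ b = 1) := by
    intro a b hab
    have hc3 : ∀ a, chi ω a ^ 3 = 1 := fun a => by rw [chi, ← pow_mul, mul_comm, pow_mul, h3, one_pow]
    have h9 : (9 : F) ≠ 0 := fun e => one_ne_zero (show (1 : F) = 0 by linear_combination 2 * h5 - e)
    have hneq : ∀ a : Fin 3, (2 + chi ω a ≠ 0) ∧ (1 + 2 * chi ω a ≠ 0) := fun a =>
      ⟨fun e => h9 (by linear_combination (chi ω a ^ 2 - 2 * chi ω a + 4) * e - hc3 a),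
       fun e => h9 (by linear_combination (4 * chi ω a ^ 2 - 2 * chi ω a + 1) * e - 8 * hc3 a)⟩
    rcases (by decide : ∀ a b : Fin 3, a = 0 ∨ b = 0 ∨ a = b ∨ (a = 1 ∧ b = 2) ∨ (a = 2 ∧ b = 1)) a b with
      e | e | e | h | h
    · exact absurd (by rw [e, chi_zero] at hab; linear_combination hab) (hneq b).1
    · exact absurd (by rw [e, chi_zero] at hab; linear_combination hab) (hneq a).1
    · exact absurd (by rw [e] at hab; linear_combination hab) (hneq b).2
    · exact Or.inl h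
    · exact Or.inr h
  have hle' : H.map (MulAut.conj P⁻¹).toMonoidHom ≤ stabX 5 (inY ψ) := by
    intro g hg
    have hgSU := hH'.1.le hg
    rcases normMon_cases h3 h1 (hmem g hg) with ⟨π, a, hax, ha3⟩ | ⟨C, hC, hall⟩
    · obtain ⟨ha, hp, hu⟩ := mono_data hF hgSU hax
      refine mem_stabX_of_mapsTo hgSU fun u hx => inY_mono hψ.neg π a (ε := a 0 ^ 3) ?_ ha3 hp (hu u) hx
      rw [← pow_mul]; exact ha 0
    · let M := (g : Matrix (Fin 3) (Fin 3) F)
      have hn0 : ∀ r j, M r j ≠ 0 := fun r j e => hC (by rw [← hall r j]; exact pow_eq_zero_iff three_ne_zero |>.2 e)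
      have hrat : ∀ j r, ∃ m, M r j = chi ω m * M 0 j := fun j r => by
        obtain ⟨m, hm⟩ := root_eq_chi h2 (x := M r j / M 0 j) (by rw [div_pow, hall, hall, div_self hC])
        exact ⟨m, (div_eq_iff (hn0 0 j)).1 hm⟩
      choose μ hμ using hrat
      have horth : ∀ i j, i ≠ j → (μ i 1 + 2 * μ j 1 = 1 ∧ μ i 2 + 2 * μ j 2 = 2) ∨
          (μ i 1 + 2 * μ j 1 = 2 ∧ μ i 2 + 2 * μ j 2 = 1) := by
        intro i j hij
        have h : hermForm 3 F 5 (M *ᵥ Pi.single i 1) (M *ᵥ Pi.single j 1) =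
            hermForm 3 F 5 (Pi.single i 1) (Pi.single j 1) := hgSU.1 _ _
        rw [H3.hermForm_single_left, one_mul, Pi.single_eq_of_ne hij, zero_pow (by norm_num),
          Matrix.mulVec_single_one, Matrix.mulVec_single_one] at h
        simp only [hermForm, Matrix.col_apply, Fin.sum_univ_three] at h
        rw [hμ i 1, hμ j 1, hμ i 2, hμ j 2, mul_pow, mul_pow, hchi5, hchi5] at h
        refine hsum0 _ _ ((mul_eq_zero.1 (show (M 0 i * M 0 j ^ 5) *
            (1 + chi ω (μ i 1 + 2 * μ j 1) + chi ω (μ i 2 + 2 * μ j 2)) = 0 from ?_)).resolve_left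
          (mul_ne_zero (hn0 0 i) (pow_ne_zero _ (hn0 0 j))))
        rw [chi_add h3, chi_add h3]
        linear_combination h
      have hmne : ∀ i j, μ i 1 = μ j 1 → i = j := fun i j e => by
        by_contra hij
        have key : ∀ x : Fin 3, x + 2 * x ≠ 1 ∧ x + 2 * x ≠ 2 := by decide
        rcases horth i j hij with ⟨e1, -⟩ | ⟨e1, -⟩ <;> rw [e] at e1
        · exact (key _).1 e1
        · exact (key _).2 e1
      let π : Equiv.Perm (Fin 3) := Equiv.ofBijective (fun j => μ j 1) (Finite.injective_iff_bijective.1 hmne)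
      have hshift : ∀ j, μ j 2 = 2 * μ j 1 + (μ 0 2 + μ 0 1) := by
        intro j
        by_cases hj : j = 0
        · subst hj
          exact (by decide : ∀ a b : Fin 3, b = 2 * a + (b + a)) _ _
        · have key : ∀ a b c d : Fin 3, (a + 2 * c = 1 ∧ b + 2 * d = 2) ∨ (a + 2 * c = 2 ∧ b + 2 * d = 1) →
              b = 2 * a + (d + c) := by decide
          exact key _ _ _ _ (horth j 0 hj)
      obtain ⟨k, hk, hkent⟩ := hψ.exists_mem_su hF (inSU_kN (μ 0 2 + μ 0 1))
      have hkM := hψ.mem_stab hψ.inY_iff (inW_kN (μ 0 2 + μ 0 1)) hk hkent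
      let K : Fin 3 → F := fun j => ψ (entN (kN (μ 0 2 + μ 0 1)) 0 (π j))
      have hK0 : ∀ j, K j ≠ 0 := fun j e =>
        (chi_codes (μ 0 2 + μ 0 1) (π j) 0).2.2.1 (hψ.inj (chi_codes _ (π j) 0).2.2.2 (by norm_num) (e.trans hψ.zero.symm))
      have hμ0 : ∀ j, μ j 0 = 0 := fun j => by
        have h := hμ j 0
        exact chi_injective h3 h1 ((mul_right_cancel₀ (hn0 0 j) ((one_mul _).trans h)).symm.trans chi_zero.symm)
      have hcol : ∀ j, M *ᵥ Pi.single j 1 = (M 0 j / K j) • ((k : Matrix (Fin 3) (Fin 3) F) *ᵥ Pi.single (π j) 1) := by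
        intro j
        funext r
        rw [Pi.smul_apply, Matrix.mulVec_single_one, Matrix.mulVec_single_one, Matrix.col_apply, Matrix.col_apply,
          hkent, (chi_codes _ (π j) r).1, hψ.mul, ← hchi, smul_eq_mul, ← mul_assoc, div_mul_cancel₀ _ (hK0 j), hμ j r,
          mul_comm (M 0 j)]
        congr 2
        show μ j r = ![0, π j, 2 * π j + (μ 0 2 + μ 0 1)] r
        fin_cases r
        · exact hμ0 j
        · rfl
        · exact hshift j
      have hax : MapsAxes (k⁻¹ * g) π (fun j => M 0 j / K j) := fun j => by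
        rw [Units.val_mul, ← Matrix.mulVec_mulVec, hcol, Matrix.mulVec_smul, Matrix.mulVec_mulVec, Units.inv_mul,
          Matrix.one_mulVec]
      have hsu := mul_mem (inv_mem hk) hgSU
      obtain ⟨ha, hp, hu⟩ := mono_data hF hsu hax
      have hstab : k⁻¹ * g ∈ stabX 5 (inY ψ) := by
        refine mem_stabX_of_mapsTo hsu fun u hx => inY_mono hψ.neg π _ (ε := C / ψ (c3N 7)) ?_ (fun i => ?_) hp (hu u) hx
        · have h := ha 0
          rw [show (5 : ℕ) + 1 = 3 * 2 from rfl, pow_mul, div_pow, hall, show K 0 ^ 3 = ψ (c3N 7) by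
            rw [← hψ.cube, (chi_codes _ (π 0) 0).2.1]] at h
          exact h
        · rw [div_pow, hall, show K i ^ 3 = ψ (c3N 7) by rw [← hψ.cube, (chi_codes _ (π i) 0).2.1]]
      simpa using mul_mem hkM hstab
  obtain ⟨t, ht, hent⟩ := hψ.exists_mem_su hF inSU_tN
  have htM := hψ.mem_stab hψ.inY_iff inW_tN ht hent
  have htH : t ∉ H.map (MulAut.conj P⁻¹).toMonoidHom := by
    intro hm
    rcases normMon_cases h3 h1 (hmem t hm) with ⟨π, a, hax, -⟩ | ⟨C, hC, hall⟩
    · have key : ∀ r : Fin 3, entN tN r 0 ≠ 0 ∧ entN tN r 0 < 25 := by decide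
      have h := congrFun (hax 0) (π 0 + 1)
      rw [Matrix.mulVec_single_one, Matrix.col_apply, Pi.smul_apply,
        Pi.single_eq_of_ne (by simp), smul_zero, hent, ← hψ.zero] at h
      exact (key _).1 (hψ.inj (key _).2 (by norm_num) h)
    · have h := (hall 0 0).trans (hall 1 0).symm
      rw [hent, hent, ← hψ.cube, ← hψ.cube] at h
      exact absurd (hψ.inj (by decide) (by decide) h) (by decide)
  refine false_of_le_stabX hF (by norm_num) hH' hle' htM htH (u := ![ψ 0, ψ 5, ψ 16]) (v := ![ψ 0, ψ 0, ψ 1])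
    (fun e => ?_) (fun e => ?_) ?_ ((hψ.inY_iff 0 5 16).2 (by decide)) (fun e => ?_)
  · have h := congrFun e 1
    exact absurd (hψ.inj (by norm_num) (by norm_num) (h.trans hψ.zero.symm)) (by norm_num)
  · exact one_ne_zero (α := F) (by simpa [hψ.one] using congrFun e 2)
  · have e1 : ψ (addN (addN (n6N 0) (n6N 5)) (n6N 16)) = ψ (addN (addN (n6N 0) (n6N 0)) (n6N 1)) :=
      congrArg ψ (by decide)
    simp only [hψ.add, hψ.norm] at e1
    simp only [hermForm, Fin.sum_univ_three, Matrix.cons_val]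
    linear_combination e1
  · exact Bool.false_ne_true (((by decide : inW 0 0 1 = false)).symm.trans ((hψ.inY_iff 0 0 1).1 e))

end Cfsg.Agent.H3.UMax
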